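import Mathlib

/-!
# Dickson pairs: full period of `x ↦ q * x + 1` modulo `n`
-/

open Finset

namespace Cfsg.Agent.H36

/-- The geometric sum `1 + q + ⋯ + q ^ (i - 1)`. -/
def dicksonSum (q i : ℕ) : ℕ := ∑ j ∈ range i, q ^ j

theorem dicksonSum_zero (q : ℕ) : dicksonSum q 0 = 0 := by simp [dicksonSum]

theorem dicksonSum_add (q a b : ℕ) :
    dicksonSum q (a + b) = dicksonSum q a + q ^ a * dicksonSum q b := by
  simp only [dicksonSum, Finset.sum_range_add, pow_add, Finset.mul_sum]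

theorem dicksonSum_mul (q r j : ℕ) :
    dicksonSum q (r * j) = dicksonSum q r * dicksonSum (q ^ r) j := by
  induction j with
  | zero => simp [dicksonSum]
  | succ j ih =>
    rw [Nat.mul_succ, dicksonSum_add, ih]
    rw [show dicksonSum (q ^ r) (j + 1) = dicksonSum (q ^ r) j + (q ^ r) ^ j from
      Finset.sum_range_succ _ _, ← pow_mul]
    ring

theorem dicksonSum_succ (q i : ℕ) : dicksonSum q (i + 1) = q * dicksonSum q i + 1 := by
  rw [show i + 1 = 1 + i by omega, dicksonSum_add]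
  simp [dicksonSum]; ring

theorem dicksonSum_modEq {q r : ℕ} (h : q ≡ 1 [MOD r]) (i : ℕ) :
    dicksonSum q i ≡ i [MOD r] := by
  induction i with
  | zero => rw [dicksonSum_zero]
  | succ i ih =>
    rw [dicksonSum_succ]
    simpa using ((h.mul ih).add_right 1)

theorem dicksonSum_modEq_sq {q r : ℕ} (h : q ≡ 1 [MOD r]) (hodd : Odd r) :
    dicksonSum q r ≡ r [MOD r * r] := by
  rw [← ZMod.natCast_eq_natCast_iff]
  have hd : ∃ t : ZMod (r * r), (q : ZMod (r * r)) = 1 + t * r := by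
    obtain ⟨k, hk⟩ := (Int.natCast_modEq_iff.2 h).symm.dvd
    refine ⟨(k : ℤ), ?_⟩
    have := congrArg (fun x : ℤ => (x : ZMod (r * r))) hk
    push_cast at this
    linear_combination this
  obtain ⟨t, ht⟩ := hd
  have hr2 : (r : ZMod (r * r)) * r = 0 := by rw [← Nat.cast_mul, ZMod.natCast_self]
  have key : ∀ i : ℕ, ∃ s : ℕ, 2 * s + i = i * i ∧
      (dicksonSum q i : ZMod (r * r)) = i + s * (t * r) := by
    intro i
    induction i with
    | zero => exact ⟨0, rfl, by simp [dicksonSum_zero]⟩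
    | succ i ih =>
      obtain ⟨s, hs, he⟩ := ih
      refine ⟨s + i, by linarith, ?_⟩
      rw [dicksonSum_succ]
      push_cast
      rw [he, ht]
      linear_combination (t * t * (s : ZMod (r * r))) * hr2
  obtain ⟨s, hs, he⟩ := key r
  have hrs : r ∣ 2 * s :=
    (Nat.dvd_add_left (dvd_refl r)).1 ⟨r, hs⟩
  obtain ⟨u, rfl⟩ := ((Nat.coprime_two_right.2 hodd).dvd_of_dvd_mul_left hrs)
  rw [he]
  push_cast
  linear_combination ((u : ZMod (r * r)) * t) * hr2

/-- The Dickson condition on a pair `(q, n)`. -/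
def DicksonCond (q n : ℕ) : Prop :=
  (∀ r : ℕ, r.Prime → r ∣ n → q ≡ 1 [MOD r]) ∧ (4 ∣ n → q ≡ 1 [MOD 4])

theorem dvd_dicksonSum_iff (n : ℕ) : ∀ q : ℕ, 0 < n → DicksonCond q n →
    ∀ i, n ∣ dicksonSum q i ↔ n ∣ i := by
  induction n using Nat.strong_induction_on with
  | _ n ih =>
  intro q hn hq i
  rcases eq_or_ne n 1 with rfl | h1
  · simp
  obtain ⟨r, hr, m, rfl⟩ := Nat.exists_prime_and_dvd h1
  have hm : 0 < m := Nat.pos_of_mul_pos_left hn
  have hqr : q ≡ 1 [MOD r] := hq.1 r hr (dvd_mul_right r m)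
  have hmlt : m < r * m := lt_mul_of_one_lt_left hm hr.one_lt
  have hq' : DicksonCond (q ^ r) m :=
    ⟨fun r' hr' hd => by simpa using (hq.1 r' hr' (hd.mul_left r)).pow r,
      fun hd => by simpa using (hq.2 (hd.mul_left r)).pow r⟩
  obtain ⟨u, hu⟩ : r ∣ dicksonSum q r :=
    Nat.modEq_zero_iff_dvd.1 ((dicksonSum_modEq hqr r).trans (Nat.modEq_zero_iff_dvd.2 (dvd_refl r)))
  have hum : Nat.Coprime m u := by
    refine Nat.coprime_of_dvd fun r' hr' hdm hdu => ?_
    by_cases hrr : r' = r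
    · subst hrr
      obtain ⟨u', rfl⟩ := hdu
      rcases hr'.eq_two_or_odd' with h2 | hodd
      · subst h2
        have h4 := hq.2 (by simpa using Nat.mul_dvd_mul_left 2 hdm)
        simp [dicksonSum, Finset.sum_range_succ] at hu
        unfold Nat.ModEq at h4
        omega
      · have h5 := dicksonSum_modEq_sq hqr hodd
        rw [hu, ← mul_assoc] at h5
        have h6 : r' * r' * u' ≡ 0 [MOD r' * r'] := Nat.modEq_zero_iff_dvd.2 (dvd_mul_right _ _)
        have h7 : r' * r' ∣ r' := Nat.modEq_zero_iff_dvd.1 (h5.symm.trans h6)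
        have h8 := Nat.le_of_dvd hr'.pos h7
        nlinarith [hr'.two_le]
    · have h5 := dicksonSum_modEq (hq.1 r' hr' (hdm.mul_left r)) r
      rw [hu] at h5
      have h6 : r * u ≡ 0 [MOD r'] := Nat.modEq_zero_iff_dvd.2 (hdu.mul_left r)
      exact hrr ((Nat.prime_dvd_prime_iff_eq hr' hr).1 (Nat.modEq_zero_iff_dvd.1 (h5.symm.trans h6)))
  constructor
  · intro h
    have hri : r ∣ i := Nat.modEq_zero_iff_dvd.1
      ((dicksonSum_modEq hqr i).symm.trans (Nat.modEq_zero_iff_dvd.2 ((dvd_mul_right r m).trans h)))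
    obtain ⟨j, rfl⟩ := hri
    rw [dicksonSum_mul, hu, mul_assoc, Nat.mul_dvd_mul_iff_left hr.pos] at h
    exact Nat.mul_dvd_mul_left r ((ih m hmlt _ hm hq' j).1 (hum.dvd_of_dvd_mul_left h))
  · rintro ⟨j, rfl⟩
    rw [mul_assoc, dicksonSum_mul, hu, mul_assoc]
    exact Nat.mul_dvd_mul_left r (((ih m hmlt _ hm hq' _).2 (dvd_mul_right m j)).mul_left u)

theorem dicksonCond_of_period {q n : ℕ} (hn : 1 < n) (h0 : n ∣ dicksonSum q n)
    (hmin : ∀ i, 0 < i → i < n → ¬ n ∣ dicksonSum q i) : DicksonCond q n := by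
  haveI : NeZero n := ⟨by omega⟩
  have hinj : Function.Injective (fun i : Fin n => ((dicksonSum q i : ℕ) : ZMod n)) := by
    intro i j hij
    wlog hlt : (i : ℕ) ≤ j generalizing i j
    · exact (this hij.symm (by omega)).symm
    by_contra hne
    have hlt' : (i : ℕ) < j := lt_of_le_of_ne hlt fun h => hne (Fin.ext h)
    have key : ∀ t, ((dicksonSum q (i + t) : ℕ) : ZMod n) = dicksonSum q (j + t) := by
      intro t
      induction t with
      | zero => simpa using hij
      | succ t ih =>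
        rw [← add_assoc, ← add_assoc, dicksonSum_succ, dicksonSum_succ]
        push_cast
        rw [ih]
    have h1 := key (n - j)
    rw [show (j : ℕ) + (n - j) = n by omega, (CharP.cast_eq_zero_iff (ZMod n) n _).2 h0,
      CharP.cast_eq_zero_iff (ZMod n) n] at h1
    exact hmin _ (by omega) (by omega) h1
  have hsurj := ((Fintype.bijective_iff_injective_and_card _).2
    ⟨hinj, by rw [Fintype.card_fin, ZMod.card]⟩).2
  have hprime : ∀ r : ℕ, r.Prime → r ∣ n → q ≡ 1 [MOD r] := by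
    intro r hr hrn
    haveI : Fact r.Prime := ⟨hr⟩
    by_contra hne
    have hne' : (q : ZMod r) - 1 ≠ 0 := fun h => hne (by
      rw [sub_eq_zero, ← Nat.cast_one, ZMod.natCast_eq_natCast_iff] at h
      exact h)
    set x₀ : ZMod r := -1 / ((q : ZMod r) - 1) with hx₀
    have hfix : (q : ZMod r) * x₀ + 1 = x₀ := by
      rw [hx₀]; field_simp; ring
    obtain ⟨i, hi⟩ := hsurj ((x₀.val : ℕ) : ZMod n)
    have hi' : ((dicksonSum q i : ℕ) : ZMod r) = x₀ := by
      have := congrArg (ZMod.castHom hrn (ZMod r)) hi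
      simpa only [map_natCast, ZMod.natCast_zmod_val] using this
    have hstay : ∀ t, ((dicksonSum q (i + t) : ℕ) : ZMod r) = x₀ := by
      intro t
      induction t with
      | zero => simpa using hi'
      | succ t ih =>
        rw [← add_assoc, dicksonSum_succ]
        push_cast
        rw [ih, hfix]
    have h1 := hstay (n - i)
    rw [show (i : ℕ) + (n - i) = n by omega,
      (CharP.cast_eq_zero_iff (ZMod r) r _).2 (hrn.trans h0)] at h1
    rw [← h1, mul_zero, zero_add] at hfix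
    exact one_ne_zero hfix
  refine ⟨hprime, fun h4 => ?_⟩
  by_contra hne
  have h2 : q ≡ 1 [MOD 2] := hprime 2 Nat.prime_two ((Dvd.intro 2 rfl).trans h4)
  have hq3 : (q : ZMod 4) = ((3 : ℕ) : ZMod 4) := by
    rw [ZMod.natCast_eq_natCast_iff]
    unfold Nat.ModEq at *
    omega
  have hnot2 : ∀ i, ((dicksonSum q i : ℕ) : ZMod 4) = 0 ∨ ((dicksonSum q i : ℕ) : ZMod 4) = 1 := by
    intro i
    induction i with
    | zero => left; simp [dicksonSum_zero]
    | succ i ih =>
      rw [dicksonSum_succ]; push_cast [hq3]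
      rcases ih with h | h <;> rw [h] <;> decide
  obtain ⟨i, hi⟩ := hsurj ((2 : ℕ) : ZMod n)
  have hi' : ((dicksonSum q i : ℕ) : ZMod 4) = 2 := by
    have := congrArg (ZMod.castHom h4 (ZMod 4)) hi
    simpa only [map_natCast, Nat.cast_ofNat, map_ofNat] using this
  rcases hnot2 i with h | h <;> rw [hi'] at h <;> revert h <;> decide

theorem dickson_pair (q n : ℕ) (hq : 1 < q) (hn : 1 < n) :
    ((∀ r : ℕ, r.Prime → r ∣ n → r ∣ q - 1) ∧ (4 ∣ n → 4 ∣ q - 1)) ↔
      (q ^ n ≡ 1 [MOD n * (q - 1)] ∧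
        ∀ i : ℕ, 0 < i → i < n → ¬ q ^ i ≡ 1 [MOD n * (q - 1)]) := by
  have hmod : ∀ r, r ∣ q - 1 ↔ q ≡ 1 [MOD r] := fun r =>
    ⟨fun h => ((Nat.modEq_iff_dvd' hq.le).2 h).symm, fun h => (Nat.modEq_iff_dvd' hq.le).1 h.symm⟩
  have hkey : ∀ i, q ^ i ≡ 1 [MOD n * (q - 1)] ↔ n ∣ dicksonSum q i := by
    intro i
    have h1 : (dicksonSum q i) * (q - 1) + 1 = q ^ i := by
      have := geom_sum_mul_add (q - 1) i
      rwa [Nat.sub_add_cancel hq.le] at this
    rw [← h1]
    constructor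
    · intro h
      have := (Nat.modEq_iff_dvd' (by omega)).1 h.symm
      rw [Nat.add_sub_cancel] at this
      exact (Nat.mul_dvd_mul_iff_right (by omega : 0 < q - 1)).1 this
    · intro h
      refine ((Nat.modEq_iff_dvd' (by omega)).2 ?_).symm
      rw [Nat.add_sub_cancel]
      exact Nat.mul_dvd_mul_right h _
  simp only [hkey, hmod]
  constructor
  · intro h
    have hc : DicksonCond q n := h
    refine ⟨(dvd_dicksonSum_iff n q (by omega) hc n).2 dvd_rfl, fun i hi0 hin hd => ?_⟩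
    have := Nat.le_of_dvd hi0 ((dvd_dicksonSum_iff n q (by omega) hc i).1 hd)
    omega
  · rintro ⟨h0, hmin⟩
    exact dicksonCond_of_period hn h0 hmin

end Cfsg.Agent.H36
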