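import Cfsg.Agent.H24.Extraspecial
import Mathlib

/-! Extraspecial 2-groups of both types: a cocycle construction and their 2-ranks. -/

set_option autoImplicit false

namespace Cfsg.Agent.H36.ESRank

open scoped commutatorElement

/-- The local bilinear form on a hyperbolic or anisotropic pair. -/
def loc : Bool → ZMod 2 × ZMod 2 → ZMod 2 × ZMod 2 → ZMod 2
  | false, u, w => u.1 * w.2
  | true, u, w => u.1 * w.2 + u.1 * w.1 + u.2 * w.2

theorem loc_add_left : ∀ (c : Bool) (u v w : ZMod 2 × ZMod 2),
    loc c (u + v) w = loc c u w + loc c v w := by decide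

theorem loc_add_right : ∀ (c : Bool) (u v w : ZMod 2 × ZMod 2),
    loc c u (v + w) = loc c u v + loc c u w := by decide

theorem loc_alt : ∀ (c : Bool) (u : ZMod 2 × ZMod 2), u ≠ 0 →
    ∃ w, loc c u w + loc c w u = 1 := by decide

variable {n : ℕ}

/-- The carrier of the extraspecial group attached to a choice of types. -/
abbrev Vec (n : ℕ) := Fin n → ZMod 2 × ZMod 2

/-- The global form. -/
def form (c : Fin n → Bool) (v w : Vec n) : ZMod 2 := ∑ i, loc (c i) (v i) (w i)

theorem form_add_left (c : Fin n → Bool) (u v w : Vec n) :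
    form c (u + v) w = form c u w + form c v w := by
  simp only [form, Pi.add_apply, loc_add_left, Finset.sum_add_distrib]

theorem form_add_right (c : Fin n → Bool) (u v w : Vec n) :
    form c u (v + w) = form c u v + form c u w := by
  simp only [form, Pi.add_apply, loc_add_right, Finset.sum_add_distrib]

theorem form_zero_left (c : Fin n → Bool) (w : Vec n) : form c 0 w = 0 := by
  have h := form_add_left c 0 0 w
  rw [add_zero] at h
  simpa using h

theorem form_zero_right (c : Fin n → Bool) (w : Vec n) : form c w 0 = 0 := by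
  have h := form_add_right c w 0 0
  rw [add_zero] at h
  simpa using h

/-- The group. -/
@[ext] structure ES (c : Fin n → Bool) where
  vec : Vec n
  tag : ZMod 2

variable {c : Fin n → Bool}

instance : Mul (ES c) := ⟨fun x y => ⟨x.vec + y.vec, x.tag + y.tag + form c x.vec y.vec⟩⟩
instance : One (ES c) := ⟨⟨0, 0⟩⟩
instance : Inv (ES c) := ⟨fun x => ⟨x.vec, x.tag + form c x.vec x.vec⟩⟩

theorem mul_vec (x y : ES c) : (x * y).vec = x.vec + y.vec := rfl
theorem mul_tag (x y : ES c) : (x * y).tag = x.tag + y.tag + form c x.vec y.vec := rfl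
theorem one_vec : (1 : ES c).vec = 0 := rfl
theorem one_tag : (1 : ES c).tag = 0 := rfl
theorem inv_vec (x : ES c) : x⁻¹.vec = x.vec := rfl
theorem inv_tag (x : ES c) : x⁻¹.tag = x.tag + form c x.vec x.vec := rfl

theorem two_eq : ∀ a : ZMod 2, a + a = 0 := by decide

theorem vec_two (v : Vec n) : v + v = 0 :=
  funext fun i => Prod.ext (two_eq _) (two_eq _)

instance : Group (ES c) :=
  Group.ofLeftAxioms
    (fun x y z => by
      ext1
      · simp only [mul_vec, add_assoc]
      · simp only [mul_tag, mul_vec, form_add_left, form_add_right]; ring)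
    (fun x => by
      ext1
      · rw [mul_vec, one_vec, zero_add]
      · rw [mul_tag, one_tag, one_vec, form_zero_left, zero_add, add_zero])
    (fun x => by
      ext1
      · rw [mul_vec, inv_vec, one_vec, vec_two]
      · rw [mul_tag, inv_tag, inv_vec, one_tag, add_right_comm x.tag, two_eq, zero_add, two_eq])

/-- The underlying pair. -/
def toPair (c : Fin n → Bool) : ES c ≃ Vec n × ZMod 2 where
  toFun x := (x.vec, x.tag)
  invFun x := ⟨x.1, x.2⟩
  left_inv _ := rfl
  right_inv _ := rfl

instance : Fintype (ES c) := Fintype.ofEquiv _ (toPair c).symm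

theorem card_es (c : Fin n → Bool) : Nat.card (ES c) = 2 ^ (2 * n + 1) := by
  rw [Nat.card_congr (toPair c), Nat.card_prod, Nat.card_fun, Nat.card_prod, Nat.card_zmod,
    Nat.card_fin, pow_succ, pow_mul]
  norm_num

theorem commute_iff (x y : ES c) :
    x * y = y * x ↔ form c x.vec y.vec + form c y.vec x.vec = 0 := by
  constructor
  · intro h
    have h1 := congrArg ES.tag h
    rw [mul_tag, mul_tag, add_comm y.tag] at h1
    rw [add_left_cancel h1, two_eq]
  · intro h
    ext1
    · rw [mul_vec, mul_vec, add_comm]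
    · rw [mul_tag, mul_tag, add_comm y.tag]
      congr 1
      rw [← add_zero (form c x.vec y.vec), ← two_eq (form c y.vec x.vec), ← add_assoc, h, zero_add]

theorem exists_form_one (c : Fin n → Bool) {v : Vec n} (hv : v ≠ 0) :
    ∃ w, form c v w + form c w v = 1 := by
  classical
  obtain ⟨i, hi⟩ := Function.ne_iff.mp hv
  obtain ⟨w, hw⟩ := loc_alt (c i) (v i) hi
  refine ⟨Pi.single i w, ?_⟩
  have h0 : ∀ j, j ≠ i → loc (c j) (v j) 0 + loc (c j) 0 (v j) = 0 := fun j _ => by
    cases c j <;> simp [loc]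
  rw [form, form, ← Finset.sum_add_distrib, Finset.sum_eq_single i]
  · rw [Pi.single_eq_same]; exact hw
  · intro j _ hj
    rw [Pi.single_eq_of_ne hj]; exact h0 j hj
  · intro h; exact absurd (Finset.mem_univ i) h

theorem mem_center_es (x : ES c) : x ∈ Subgroup.center (ES c) ↔ x.vec = 0 := by
  rw [Subgroup.mem_center_iff]
  constructor
  · intro h
    by_contra hv
    obtain ⟨w, hw⟩ := exists_form_one c hv
    have h1 := (commute_iff x ⟨w, 0⟩).1 (h ⟨w, 0⟩).symm
    rw [h1] at hw
    exact zero_ne_one hw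
  · intro h y
    rw [commute_iff, h, form_zero_left, form_zero_right, add_zero]

theorem card_center (c : Fin n → Bool) : Nat.card (Subgroup.center (ES c)) = 2 := by
  rw [Nat.card_congr (α := Subgroup.center (ES c)) (β := ZMod 2)
    { toFun := fun x => (x : ES c).tag
      invFun := fun t => ⟨(⟨0, t⟩ : ES c), (mem_center_es _).2 rfl⟩
      left_inv := fun x => Subtype.ext (ES.ext ((mem_center_es _).1 x.2).symm rfl)
      right_inv := fun _ => rfl }, Nat.card_zmod]

theorem sq_vec (x : ES c) : (x ^ 2).vec = 0 := by rw [sq, mul_vec, vec_two]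

theorem sq_tag (x : ES c) : (x ^ 2).tag = form c x.vec x.vec := by
  rw [sq, mul_tag, two_eq, zero_add]

theorem isExtraspecial_es (c : Fin n → Bool) (hn : 1 ≤ n) : Cfsg.IsExtraspecial 2 (ES c) := by
  have : Fact (Nat.Prime 2) := ⟨Nat.prime_two⟩
  refine H24.isExtraspecial_of (IsPGroup.of_card (card_es c)) (card_center c) ?_ ?_ ?_
  · intro h
    have h1 := card_center c
    rw [h, Subgroup.card_top, card_es, show (2 : ℕ) ^ (2 * n + 1) = 2 ^ (2 * n) * 2 from pow_succ _ _]
      at h1
    have h2 : 2 ^ 1 < 2 ^ (2 * n) := Nat.pow_lt_pow_right (by norm_num) (by omega)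
    omega
  · intro a b
    rw [mem_center_es, commutatorElement_def]
    simp only [mul_vec, inv_vec]
    rw [add_assoc (a.vec + b.vec), vec_two]
  · intro x
    exact (mem_center_es _).2 (sq_vec x)

/-- An elementary abelian subgroup lies in one, containing the centre, of order at most `2^(n+1)`. -/
theorem exists_sup_center {A : Subgroup (ES c)} (hA : Cfsg.IsElementaryAbelian 2 A) :
    ∃ B : Subgroup (ES c), A ≤ B ∧ Cfsg.IsElementaryAbelian 2 B ∧
      Subgroup.center (ES c) ≤ B ∧ B ≤ Subgroup.centralizer (B : Set (ES c)) := by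
  obtain ⟨hc, hsq⟩ := hA
  let B : Subgroup (ES c) :=
    { carrier := {x | ∃ a ∈ A, a.vec = x.vec}
      one_mem' := ⟨1, A.one_mem, rfl⟩
      mul_mem' := by
        rintro x y ⟨a, ha, hax⟩ ⟨b, hb, hby⟩
        exact ⟨a * b, A.mul_mem ha hb, by rw [mul_vec, mul_vec, hax, hby]⟩
      inv_mem' := by
        rintro x ⟨a, ha, hax⟩
        exact ⟨a, ha, hax.trans (inv_vec x).symm⟩ }
  have hcomm : ∀ x ∈ B, ∀ y ∈ B, x * y = y * x := by
    rintro x ⟨a, ha, hax⟩ y ⟨b, hb, hby⟩
    rw [commute_iff, ← hax, ← hby]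
    exact (commute_iff a b).1 (congrArg Subtype.val (hc.is_comm.comm ⟨a, ha⟩ ⟨b, hb⟩))
  refine ⟨B, fun a ha => ⟨a, ha, rfl⟩, ⟨⟨⟨fun x y => Subtype.ext (hcomm _ x.2 _ y.2)⟩⟩, ?_⟩,
    fun x hx => ⟨1, A.one_mem, ((mem_center_es x).1 hx).symm⟩,
    fun x hx => Subgroup.mem_centralizer_iff.2 fun y hy => hcomm y hy x hx⟩
  rintro x ⟨a, ha, hax⟩
  ext1
  · exact sq_vec x
  · rw [sq_tag, ← hax, ← sq_tag, hsq a ha, one_tag]

theorem card_elementary_le (hn : 1 ≤ n) {A : Subgroup (ES c)}
    (hA : Cfsg.IsElementaryAbelian 2 A) : Nat.card A ≤ 2 ^ (n + 1) := by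
  have : Fact (Nat.Prime 2) := ⟨Nat.prime_two⟩
  obtain ⟨B, hAB, -, hZ, hBC⟩ := exists_sup_center hA
  have h := H24.espec_card_mul_centralizer (isExtraspecial_es c hn) hZ
  rw [card_es] at h
  have h2 := Subgroup.card_le_of_le hBC
  have h3 : Nat.card B * Nat.card B ≤ 2 ^ (n + 1) * 2 ^ (n + 1) := by
    rw [← pow_add, show n + 1 + (n + 1) = (2 * n + 1) + 1 by ring, pow_succ, mul_comm _ 2, ← h]
    exact Nat.mul_le_mul_left _ h2
  exact (Subgroup.card_le_of_le hAB).trans (Nat.mul_self_le_mul_self_iff.1 h3)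

/-- The sign character. -/
def sgn (a : ZMod 2) : ℤ := if a = 0 then 1 else -1

theorem sgn_add : ∀ a b : ZMod 2, sgn (a + b) = sgn a * sgn b := by decide

theorem sgn_sum {ι : Type*} (s : Finset ι) (f : ι → ZMod 2) :
    sgn (∑ i ∈ s, f i) = ∏ i ∈ s, sgn (f i) := by
  classical
  induction s using Finset.induction_on with
  | empty => rfl
  | insert a s ha ih => rw [Finset.sum_insert ha, Finset.prod_insert ha, sgn_add, ih]

/-- The Gauss sum of the group is the product of the local ones. -/
theorem gauss_eq (c : Fin n → Bool) :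
    ∑ v : Vec n, sgn (form c v v) = ∏ i, ∑ u : ZMod 2 × ZMod 2, sgn (loc (c i) u u) := by
  classical
  rw [Fintype.prod_sum]
  exact Finset.sum_congr rfl fun v _ => sgn_sum _ _

theorem local_gauss : ∀ b : Bool,
    ∑ u : ZMod 2 × ZMod 2, sgn (loc b u u) = if b then -2 else 2 := by decide

/-- A maximal totally singular subgroup forces a positive Gauss sum. -/
theorem gauss_pos_of_card (hn : 1 ≤ n) {A : Subgroup (ES c)}
    (hA : Cfsg.IsElementaryAbelian 2 A) (hcard : Nat.card A = 2 ^ (n + 1)) :
    0 < ∑ v : Vec n, sgn (form c v v) := by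
  classical
  have : Fact (Nat.Prime 2) := ⟨Nat.prime_two⟩
  obtain ⟨B, hAB, ⟨hBc, hBsq⟩, hZ, hBC⟩ := exists_sup_center hA
  have hBcard : Nat.card B = 2 ^ (n + 1) :=
    le_antisymm (card_elementary_le hn ⟨hBc, hBsq⟩) (hcard ▸ Subgroup.card_le_of_le hAB)
  have h := H24.espec_card_mul_centralizer (isExtraspecial_es c hn) hZ
  rw [card_es, hBcard, ← pow_succ', show 2 * n + 1 + 1 = (n + 1) + (n + 1) by ring,
    pow_add 2 (n + 1) (n + 1)] at h
  have hC : Subgroup.centralizer (B : Set (ES c)) = B :=
    (Subgroup.eq_of_le_of_card_ge hBC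
      (by rw [hBcard, Nat.eq_of_mul_eq_mul_left (by positivity) h])).symm
  have hq : ∀ a ∈ B, form c a.vec a.vec = 0 := fun a ha => by
    rw [← sq_tag, hBsq a ha, one_tag]
  let om : ES c → Vec n → ZMod 2 := fun a v => form c v a.vec + form c a.vec v
  have hshift : ∀ a : B,
      ∑ v : Vec n, sgn (form c v v) * sgn (om (a : ES c) v) = ∑ v : Vec n, sgn (form c v v) :=
    fun a => Fintype.sum_equiv (Equiv.addRight (a : ES c).vec) _ _ fun v => by
      rw [Equiv.coe_addRight, ← sgn_add]
      congr 1
      rw [form_add_left, form_add_right, form_add_right, hq _ a.2, add_zero, add_assoc]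
  let perp : Vec n → Prop := fun v => ∀ a : B, om (a : ES c) v = 0
  have hinner : ∀ v, ∑ a : B, sgn (om (a : ES c) v) = if perp v then (Fintype.card B : ℤ) else 0 := by
    intro v
    split_ifs with hp
    · rw [Finset.sum_congr rfl fun (a : B) _ => show sgn (om (a : ES c) v) = 1 by rw [hp a]; rfl]
      simp
    · obtain ⟨a₀, ha₀⟩ := not_forall.1 hp
      have h1 : ∑ a : B, sgn (om (a : ES c) v) = ∑ a : B, -sgn (om (a : ES c) v) := by
        refine Fintype.sum_equiv (Equiv.mulRight a₀) _ _ fun a => ?_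
        rw [Equiv.coe_mulRight]
        have h2 : om ((a * a₀ : B) : ES c) v = om (a : ES c) v + om (a₀ : ES c) v := by
          simp only [om, Subgroup.coe_mul, mul_vec, form_add_left, form_add_right]
          ring
        have h3 : sgn (om (a₀ : ES c) v) = -1 := if_neg ha₀
        rw [show sgn (om ((a * a₀ : B) : ES c) v) = -sgn (om (a : ES c) v) by
          rw [h2, sgn_add, h3, mul_neg_one], neg_neg]
      rw [Finset.sum_neg_distrib] at h1
      omega
  have hperp : ∀ v, perp v → form c v v = 0 := fun v hv => by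
    refine hq ⟨v, 0⟩ ?_
    rw [← hC, Subgroup.mem_centralizer_iff]
    intro a ha
    rw [commute_iff, add_comm]
    exact hv ⟨a, ha⟩
  have hmain : (Fintype.card B : ℤ) * ∑ v : Vec n, sgn (form c v v) =
      ∑ v : Vec n, (if perp v then (Fintype.card B : ℤ) else 0) := by
    calc (Fintype.card B : ℤ) * ∑ v : Vec n, sgn (form c v v)
        = ∑ a : B, ∑ v : Vec n, sgn (form c v v) * sgn (om (a : ES c) v) := by
          rw [Finset.sum_congr rfl fun (a : B) _ => hshift a]
          simp
      _ = ∑ v : Vec n, sgn (form c v v) * ∑ a : B, sgn (om (a : ES c) v) := by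
          rw [Finset.sum_comm]
          simp only [Finset.mul_sum]
      _ = _ := Finset.sum_congr rfl fun v _ => by
          rw [hinner v]
          split_ifs with hp
          · rw [hperp v hp]; exact one_mul _
          · exact mul_zero _
  have hpos : (0 : ℤ) < ∑ v : Vec n, (if perp v then (Fintype.card B : ℤ) else 0) := by
    refine Finset.sum_pos' (fun v _ => ?_) ⟨0, Finset.mem_univ _, ?_⟩
    · split_ifs <;> positivity
    · rw [if_pos (show perp 0 from fun a => by
        simp only [om, form_zero_left, form_zero_right, add_zero])]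
      exact_mod_cast Fintype.card_pos
  rw [← hmain] at hpos
  exact (mul_pos_iff_of_pos_left (by exact_mod_cast Fintype.card_pos)).1 hpos

/-- An elementary abelian subgroup cut out by an additive embedding with vanishing form. -/
theorem exists_elementary {m : ℕ} (c : Fin n → Bool) (f : (Fin m → ZMod 2) → Vec n)
    (hinj : Function.Injective f) (hadd : ∀ a b, f (a + b) = f a + f b)
    (hf : ∀ a b, form c (f a) (f b) = 0) :
    ∃ A : Subgroup (ES c), Cfsg.IsElementaryAbelian 2 A ∧ Nat.card A = 2 ^ (m + 1) := by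
  have hf0 : f 0 = 0 := by
    have h := hadd 0 0
    rw [add_zero] at h
    simpa using h
  let A : Subgroup (ES c) :=
    { carrier := {x | x.vec ∈ Set.range f}
      one_mem' := ⟨0, hf0⟩
      mul_mem' := by
        rintro x y ⟨a, ha⟩ ⟨b, hb⟩
        exact ⟨a + b, by rw [hadd, mul_vec, ha, hb]⟩
      inv_mem' := fun {x} hx => hx }
  refine ⟨A, ⟨⟨⟨fun x y => Subtype.ext ?_⟩⟩, ?_⟩, ?_⟩
  · obtain ⟨a, ha⟩ := x.2
    obtain ⟨b, hb⟩ := y.2
    show (x : ES c) * y = y * x
    rw [commute_iff, ← ha, ← hb, hf, hf, add_zero]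
  · rintro x ⟨a, ha⟩
    ext1
    · exact sq_vec x
    · rw [sq_tag, ← ha, hf]; rfl
  · rw [Nat.card_congr (α := A) (β := Set.range f × ZMod 2)
      { toFun := fun x => (⟨(x : ES c).vec, x.2⟩, (x : ES c).tag)
        invFun := fun p => ⟨⟨p.1.1, p.2⟩, p.1.2⟩
        left_inv := fun _ => rfl
        right_inv := fun _ => rfl }, Nat.card_prod,
      Nat.card_range_of_injective hinj, Nat.card_fun, Nat.card_zmod, Nat.card_fin, pow_succ]

theorem both_ranks (k : ℕ) : ∀ r ∈ ({k + 1, k + 1 + 1} : Set ℕ),
    ∃ (E : Type) (_ : Group E) (_ : Finite E), Cfsg.IsExtraspecial 2 E ∧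
      Nat.card E = 2 ^ (2 * (k + 1) + 1) ∧
      sSup {j : ℕ | ∃ A : Subgroup E, Cfsg.IsElementaryAbelian 2 A ∧ Nat.card A = 2 ^ j} = r := by
  intro r hr
  rcases hr with rfl | rfl
  · let c : Fin (k + 1) → Bool := Fin.cons true fun _ => false
    refine ⟨ES c, inferInstance, inferInstance, isExtraspecial_es c (by omega), card_es c,
      IsGreatest.csSup_eq ⟨?_, ?_⟩⟩
    · refine exists_elementary c (fun a => Fin.cons 0 fun j => (a j, 0)) ?_ ?_ ?_
      · intro a b h
        funext j
        have := congrFun h j.succ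
        simpa using this
      · intro a b
        funext i
        induction i using Fin.cases <;> simp
      · intro a b
        refine Finset.sum_eq_zero fun i _ => ?_
        induction i using Fin.cases <;> simp [c, loc]
    · rintro j ⟨A, hA, hj⟩
      have h1 : j ≤ k + 1 + 1 :=
        (Nat.pow_le_pow_iff_right (by norm_num)).1 (hj ▸ card_elementary_le (by omega) hA)
      by_contra h2
      have hpos := gauss_pos_of_card (by omega) hA (by rw [hj, show j = k + 1 + 1 by omega])
      rw [gauss_eq, Fin.prod_univ_succ] at hpos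
      simp only [c, Fin.cons_zero, Fin.cons_succ, local_gauss, if_true, Bool.false_eq_true,
        if_false, Finset.prod_const, Finset.card_univ, Fintype.card_fin] at hpos
      nlinarith [pow_pos (show (0 : ℤ) < 2 by norm_num) k]
  · let c : Fin (k + 1) → Bool := fun _ => false
    refine ⟨ES c, inferInstance, inferInstance, isExtraspecial_es c (by omega), card_es c,
      IsGreatest.csSup_eq ⟨?_, ?_⟩⟩
    · refine exists_elementary c (fun a j => (a j, 0)) ?_ ?_ ?_
      · intro a b h
        funext j
        exact (Prod.ext_iff.1 (congrFun h j)).1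
      · intro a b
        funext i
        simp
      · intro a b
        exact Finset.sum_eq_zero fun i _ => by simp [c, loc]
    · rintro j ⟨A, hA, hj⟩
      exact (Nat.pow_le_pow_iff_right (by norm_num)).1 (hj ▸ card_elementary_le (by omega) hA)

end Cfsg.Agent.H36.ESRank
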