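import Mathlib
import Cfsg.Agent.H21.Complement

/-!
# Groups of linear maps regular on nonzero vectors (complements of sharply doubly transitive groups)
-/

open MulAction
open scoped Pointwise
set_option linter.style.haveILetI false

namespace Cfsg.Agent.H36

variable {p : ℕ} [Fact p.Prime] {V : Type*} [AddCommGroup V] [Module (ZMod p) V] [Finite V]
  {H : Subgroup (V ≃ₗ[ZMod p] V)}

theorem linearSubgroup_finite : Finite H :=
  haveI : Finite (V ≃ₗ[ZMod p] V) := Finite.of_injective _ DFunLike.coe_injective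
  inferInstance

theorem fpf_of_regular (hreg : ∀ v w : V, v ≠ 0 → w ≠ 0 → ∃! h : H, (h : V ≃ₗ[ZMod p] V) v = w)
    {h : H} {v : V} (hv : v ≠ 0) (hfix : (h : V ≃ₗ[ZMod p] V) v = v) : h = 1 :=
  (hreg v v hv hv).unique hfix (by simp)

/-- The order of a group regular on nonzero vectors. -/
theorem card_of_regular (hreg : ∀ v w : V, v ≠ 0 → w ≠ 0 → ∃! h : H, (h : V ≃ₗ[ZMod p] V) v = w)
    {v₀ : V} (hv₀ : v₀ ≠ 0) : Nat.card H = Nat.card V - 1 := by
  classical
  haveI := Fintype.ofFinite V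
  let f : H → {v : V // v ≠ 0} := fun h => ⟨(h : V ≃ₗ[ZMod p] V) v₀, by simpa using hv₀⟩
  have hf : Function.Bijective f := ⟨fun g h e => (hreg v₀ _ hv₀ (f g).2).unique rfl
      (congrArg Subtype.val e).symm, fun w => by
    obtain ⟨h, hh, -⟩ := hreg v₀ w hv₀ w.2
    exact ⟨h, Subtype.ext hh⟩⟩
  rw [Nat.card_congr (Equiv.ofBijective f hf), Nat.card_eq_fintype_card, Fintype.card_subtype_compl,
    Fintype.card_subtype_eq, Nat.card_eq_fintype_card]

/-- A subgroup of a fixed-point-free group leaving a subspace invariant has order dividing the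
number of its nonzero vectors. -/
theorem card_dvd_of_invariant (hfree : ∀ h : H, ∀ v : V, v ≠ 0 → (h : V ≃ₗ[ZMod p] V) v = v → h = 1)
    (A : Subgroup H) (W : Submodule (ZMod p) V)
    (hW : ∀ a ∈ A, ∀ v ∈ W, ((a : H) : V ≃ₗ[ZMod p] V) v ∈ W) :
    Nat.card A ∣ p ^ Module.finrank (ZMod p) W - 1 := by
  classical
  haveI : Finite A := haveI := linearSubgroup_finite (H := H); inferInstance
  haveI := Fintype.ofFinite V
  letI : MulAction A {w : W // w ≠ 0} :=
    { smul := fun a w => ⟨⟨((a : H) : V ≃ₗ[ZMod p] V) w.1.1, hW a a.2 _ w.1.2⟩, fun h => w.2 (by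
        have h' : ((a : H) : V ≃ₗ[ZMod p] V) w.1.1 = 0 := congrArg Subtype.val h
        simpa using h')⟩
      one_smul := fun w => Subtype.ext (Subtype.ext rfl)
      mul_smul := fun a b w => Subtype.ext (Subtype.ext rfl) }
  have hst : ∀ w : {w : W // w ≠ 0}, MulAction.stabilizer A w = ⊥ := fun w => by
    rw [Subgroup.eq_bot_iff_forall]
    intro a ha
    refine Subtype.ext (hfree a w.1.1 (fun h => w.2 (Subtype.ext h)) ?_)
    exact congrArg (fun z : {w : W // w ≠ 0} => (z.1.1 : V)) ha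
  have hc : Nat.card {w : W // w ≠ 0} = p ^ Module.finrank (ZMod p) W - 1 := by
    rw [Nat.card_eq_fintype_card, Fintype.card_subtype_compl, Fintype.card_subtype_eq,
      ← Nat.card_eq_fintype_card, Module.natCard_eq_pow_finrank (K := ZMod p), Nat.card_zmod]
  haveI : Fintype (Quotient (MulAction.orbitRel A {w : W // w ≠ 0})) := Fintype.ofFinite _
  rw [← hc, Nat.card_congr (MulAction.selfEquivSigmaOrbitsQuotientStabilizer A {w : W // w ≠ 0}),
    Nat.card_sigma]
  exact Finset.dvd_sum fun ω _ => by rw [← Subgroup.index_eq_card, hst, Subgroup.index_bot]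

/-- An abelian fixed-point-free group of linear maps is cyclic. -/
theorem isCyclic_of_fpf_linear [Nontrivial V]
    (hfree : ∀ h : H, ∀ v : V, v ≠ 0 → (h : V ≃ₗ[ZMod p] V) v = v → h = 1)
    (A : Subgroup H) [IsMulCommutative A] : IsCyclic A := by
  haveI : Finite A := haveI := linearSubgroup_finite (H := H); inferInstance
  let ψ : A →* MulAut (Multiplicative V) :=
    { toFun := fun a => AddEquiv.toMultiplicative ((a : H) : V ≃ₗ[ZMod p] V).toAddEquiv
      map_one' := rfl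
      map_mul' := fun a b => rfl }
  refine H21.isCyclic_of_fpf_abelian ψ (fun a ha v hv => ?_) (Or.inl inferInstance)
  by_contra h
  exact ha (Subtype.ext (hfree a (Multiplicative.toAdd v) h hv))

theorem exists_minimal_invariant (A : Subgroup H) (W₀ : Submodule (ZMod p) V) (h0 : W₀ ≠ ⊥)
    (hW₀ : ∀ a ∈ A, ∀ v ∈ W₀, ((a : H) : V ≃ₗ[ZMod p] V) v ∈ W₀) :
    ∃ W : Submodule (ZMod p) V, W ≠ ⊥ ∧ W ≤ W₀ ∧
      (∀ a ∈ A, ∀ v ∈ W, ((a : H) : V ≃ₗ[ZMod p] V) v ∈ W) ∧
      ∀ W' : Submodule (ZMod p) V, W' ≤ W →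
        (∀ a ∈ A, ∀ v ∈ W', ((a : H) : V ≃ₗ[ZMod p] V) v ∈ W') → W' = ⊥ ∨ W' = W := by
  classical
  have hex : ∃ n, ∃ W : Submodule (ZMod p) V, W ≠ ⊥ ∧ W ≤ W₀ ∧
      (∀ a ∈ A, ∀ v ∈ W, ((a : H) : V ≃ₗ[ZMod p] V) v ∈ W) ∧ Module.finrank (ZMod p) W = n :=
    ⟨_, W₀, h0, le_rfl, hW₀, rfl⟩
  obtain ⟨W, h1, h2, h3, h4⟩ := Nat.find_spec hex
  refine ⟨W, h1, h2, h3, fun W' hle hinv => or_iff_not_imp_left.2 fun hne => ?_⟩
  exact Submodule.eq_of_le_of_finrank_le hle
    (h4 ▸ Nat.find_min' hex ⟨W', hne, hle.trans h2, hinv, rfl⟩)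

/-- A maximal abelian normal subgroup which is cyclic and reducible is properly contained in its
centraliser. -/
theorem lt_centralizer_of_maximal (hreg : ∀ v w : V, v ≠ 0 → w ≠ 0 → ∃! h : H, (h : V ≃ₗ[ZMod p] V) v = w)
    (A : Subgroup H) [A.Normal] [IsCyclic A] (W₀ : Submodule (ZMod p) V) (h0 : W₀ ≠ ⊥) (h1 : W₀ ≠ ⊤)
    (hW₀ : ∀ a ∈ A, ∀ v ∈ W₀, ((a : H) : V ≃ₗ[ZMod p] V) v ∈ W₀) :
    A < Subgroup.centralizer (A : Set H) := by
  classical
  haveI : Finite H := linearSubgroup_finite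
  haveI : IsMulCommutative A := IsCyclic.isMulCommutative
  refine lt_of_le_of_ne (Subgroup.le_centralizer A) fun hCA => ?_
  obtain ⟨W, hW0, hWle, hWinv, hWmin⟩ := exists_minimal_invariant A W₀ h0 hW₀
  have hWtop : W ≠ ⊤ := fun h => h1 (top_le_iff.1 (h ▸ hWle))
  obtain ⟨w, hwW, hw⟩ := Submodule.exists_mem_ne_zero_of_ne_bot hW0
  obtain ⟨v, -, hvW⟩ := SetLike.exists_of_lt (lt_top_iff_ne_top.2 hWtop)
  obtain ⟨h, hh, -⟩ := hreg w v hw (fun h => hvW (h ▸ W.zero_mem))
  set hl : V →ₗ[ZMod p] V := ((h : V ≃ₗ[ZMod p] V) : V →ₗ[ZMod p] V)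
  have hinv' : ∀ a ∈ A, ∀ u ∈ W.map hl, ((a : H) : V ≃ₗ[ZMod p] V) u ∈ W.map hl := by
    rintro a ha _ ⟨u, hu, rfl⟩
    refine ⟨((h⁻¹ * a * h : H) : V ≃ₗ[ZMod p] V) u, hWinv _ ?_ u hu, ?_⟩
    · have := Subgroup.Normal.conj_mem ‹_› a ha h⁻¹
      rwa [inv_inv] at this
    · change (h : V ≃ₗ[ZMod p] V) (((h⁻¹ * a * h : H) : V ≃ₗ[ZMod p] V) u) = _
      simp [hl, Subgroup.coe_mul]
  have hmapne : W.map hl ≠ W := fun he => hvW (he ▸ ⟨w, hwW, hh⟩)
  have hd : Module.finrank (ZMod p) (W.map hl) = Module.finrank (ZMod p) W :=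
    LinearEquiv.finrank_map_eq _ _
  have hinter : W ⊓ W.map hl = ⊥ := by
    refine (hWmin _ inf_le_left fun a ha u hu => ⟨hWinv a ha u hu.1, hinv' a ha u hu.2⟩).resolve_right
      fun h2 => hmapne ?_
    exact (Submodule.eq_of_le_of_finrank_eq (inf_eq_left.1 h2) hd.symm).symm
  have hsum := Submodule.finrank_sup_add_finrank_inf_eq W (W.map hl)
  rw [hinter, finrank_bot, add_zero, hd] at hsum
  have h2d : 2 * Module.finrank (ZMod p) W ≤ Module.finrank (ZMod p) V := by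
    have := Submodule.finrank_le (W ⊔ W.map hl); omega
  set d := Module.finrank (ZMod p) W
  obtain ⟨g, hg⟩ := IsCyclic.exists_generator (α := A)
  -- cosets of the centraliser are determined by the image of the generator
  let f : H ⧸ Subgroup.centralizer (A : Set H) → A := fun q => Quotient.liftOn' q
    (fun x => (⟨x * g * x⁻¹, Subgroup.Normal.conj_mem ‹_› _ g.2 x⟩ : A)) (fun x y hxy => by
      rw [QuotientGroup.leftRel_apply, Subgroup.mem_centralizer_iff] at hxy
      have hc := hxy g g.2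
      apply Subtype.ext
      change x * (g : H) * x⁻¹ = y * g * y⁻¹
      calc x * (g : H) * x⁻¹ = x * ((g : H) * (x⁻¹ * y)) * y⁻¹ := by group
        _ = y * g * y⁻¹ := by rw [hc]; group)
  have hf : Function.Injective f := fun q q' => by
    refine Quotient.inductionOn₂' q q' fun x y e => Quotient.sound' ?_
    rw [QuotientGroup.leftRel_apply, Subgroup.mem_centralizer_iff]
    have e' : x * (g : H) * x⁻¹ = y * g * y⁻¹ := congrArg Subtype.val e
    have hgc : Commute (g : H) (x⁻¹ * y) := by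
      unfold Commute SemiconjBy
      calc (g : H) * (x⁻¹ * y) = x⁻¹ * (x * g * x⁻¹) * y := by group
        _ = x⁻¹ * y * g := by rw [e']; group
    intro z hz
    obtain ⟨k, hk⟩ := Subgroup.mem_zpowers_iff.1 (hg ⟨z, hz⟩)
    rw [show z = (g : H) ^ k from (congrArg Subtype.val hk).symm]
    exact (hgc.zpow_left k).eq
  have hidx : (Subgroup.centralizer (A : Set H)).index ≤ Nat.card A := by
    rw [Subgroup.index_eq_card]; exact Nat.card_le_card_of_injective f hf
  have hcA := Subgroup.index_mul_card (Subgroup.centralizer (A : Set H))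
  rw [← hCA] at hcA hidx
  rw [card_of_regular hreg hw, Module.natCard_eq_pow_finrank (K := ZMod p) (V := V), Nat.card_zmod] at hcA
  have hAd : Nat.card A ≤ p ^ d - 1 := by
    refine Nat.le_of_dvd (Nat.sub_pos_of_lt (Nat.one_lt_pow ?_ (Fact.out : p.Prime).one_lt))
      (card_dvd_of_invariant (fun h v hv e => fpf_of_regular hreg hv e) A W hWinv)
    exact fun h => hW0 (Submodule.finrank_eq_zero.1 h)
  have hpow : p ^ (2 * d) ≤ p ^ Module.finrank (ZMod p) V := Nat.pow_le_pow_right (Fact.out : p.Prime).pos h2d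
  have hd1 : 1 ≤ d := Nat.one_le_iff_ne_zero.2 fun h => hW0 (Submodule.finrank_eq_zero.1 h)
  have hpd : 2 ≤ p ^ d := (Fact.out : p.Prime).two_le.trans (Nat.le_self_pow (by omega) p)
  rw [two_mul, pow_add] at hpow
  obtain ⟨s, hs⟩ : ∃ s, p ^ d = s + 2 := ⟨_, (Nat.sub_add_cancel hpd).symm⟩
  rw [hs] at hAd hpow
  have hmul : A.index * Nat.card A ≤ (s + 1) * (s + 1) :=
    Nat.mul_le_mul (hidx.trans hAd) hAd
  rw [hcA] at hmul
  have h4 : (s + 2) * (s + 2) = (s + 1) * (s + 1) + 2 * s + 3 := by ring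
  omega

end Cfsg.Agent.H36
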