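import Mathlib
import Cfsg.Agent.H36.FpfLinear

/-!
# Normal subgroups of groups regular on nonzero vectors: irreducibility
-/

set_option linter.style.haveILetI false

namespace Cfsg.Agent.H36

/-- Schur and Wedderburn: two endomorphisms commuting with an irreducible family of endomorphisms
of a finite module commute with each other. -/
theorem commute_of_irreducible {R U : Type*} [CommRing R] [AddCommGroup U] [Module R U] [Finite U]
    [Nontrivial U] (S : Set (Module.End R U))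
    (hirr : ∀ W : Submodule R U, (∀ s ∈ S, ∀ v ∈ W, s v ∈ W) → W = ⊥ ∨ W = ⊤)
    {f g : Module.End R U} (hf : ∀ s ∈ S, s * f = f * s) (hg : ∀ s ∈ S, s * g = g * s) :
    f * g = g * f := by
  let E : Subring (Module.End R U) := Subring.centralizer S
  haveI : Finite (Module.End R U) := Finite.of_injective _ DFunLike.coe_injective
  haveI : Finite E := inferInstance
  have hinj : ∀ e : E, e ≠ 0 → Function.Injective (e : Module.End R U) := by
    intro e he
    rw [← LinearMap.ker_eq_bot]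
    refine (hirr _ fun s hs v hv => ?_).resolve_right fun h => he (Subtype.ext ?_)
    · have hc := LinearMap.congr_fun (Subring.mem_centralizer_iff.1 e.2 s hs) v
      rw [Module.End.mul_apply, Module.End.mul_apply, LinearMap.mem_ker.1 hv, map_zero] at hc
      exact LinearMap.mem_ker.2 hc.symm
    · exact LinearMap.ker_eq_top.1 h
  haveI : NoZeroDivisors E := ⟨fun {a b} h => or_iff_not_imp_left.2 fun ha => Subtype.ext
    (LinearMap.ext fun v => hinj a ha (by
      have h' : (a : Module.End R U) ((b : Module.End R U) v) = 0 :=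
        LinearMap.congr_fun (congrArg Subtype.val h) v
      rw [h']; simp))⟩
  haveI : Nontrivial E := ⟨⟨0, 1, fun h => by
    obtain ⟨v, hv⟩ := exists_ne (0 : U)
    exact hv (LinearMap.congr_fun (congrArg Subtype.val h) v).symm⟩⟩
  haveI : IsDomain E := NoZeroDivisors.to_isDomain E
  have hc := (Finite.isDomain_to_isField E).mul_comm
    ⟨f, Subring.mem_centralizer_iff.2 hf⟩ ⟨g, Subring.mem_centralizer_iff.2 hg⟩
  exact congrArg Subtype.val hc

variable {p : ℕ} [Fact p.Prime] {V : Type*} [AddCommGroup V] [Module (ZMod p) V] [Finite V]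
  {H : Subgroup (V ≃ₗ[ZMod p] V)}

/-- A non-abelian normal subgroup of a group regular on nonzero vectors is irreducible. -/
theorem irreducible_of_normal (hreg : ∀ v w : V, v ≠ 0 → w ≠ 0 → ∃! h : H, (h : V ≃ₗ[ZMod p] V) v = w)
    (N : Subgroup H) [N.Normal] (hna : ¬ IsMulCommutative N)
    (W₀ : Submodule (ZMod p) V) (hW₀ : ∀ n ∈ N, ∀ v ∈ W₀, ((n : H) : V ≃ₗ[ZMod p] V) v ∈ W₀) :
    W₀ = ⊥ ∨ W₀ = ⊤ := by
  classical
  by_contra hcon
  push Not at hcon
  have hfree : ∀ h : H, ∀ v : V, v ≠ 0 → (h : V ≃ₗ[ZMod p] V) v = v → h = 1 :=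
    fun h v hv e => fpf_of_regular hreg hv e
  let app : H → V → V := fun h v => (h : V ≃ₗ[ZMod p] V) v
  obtain ⟨U, hU0, hUle, hUinv, hUmin⟩ := exists_minimal_invariant N W₀ hcon.1 hW₀
  obtain ⟨w, hwU, hw⟩ := Submodule.exists_mem_ne_zero_of_ne_bot hU0
  obtain ⟨v, -, hvU⟩ := SetLike.exists_of_lt
    (lt_top_iff_ne_top.2 fun h => hcon.2 (top_le_iff.1 (h ▸ hUle)) : U < ⊤)
  -- translates of `U`
  let T : H → Submodule (ZMod p) V := fun h => U.map ((h : V ≃ₗ[ZMod p] V) : V →ₗ[ZMod p] V)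
  have hTd : ∀ h, Module.finrank (ZMod p) (T h) = Module.finrank (ZMod p) U := fun h =>
    LinearEquiv.finrank_map_eq _ _
  have hTinv : ∀ h, ∀ n ∈ N, ∀ u ∈ T h, app n u ∈ T h := by
    rintro h n hn _ ⟨u, hu, rfl⟩
    refine ⟨app (h⁻¹ * n * h) u, hUinv _ ?_ u hu, ?_⟩
    · have := Subgroup.Normal.conj_mem ‹_› n hn h⁻¹
      rwa [inv_inv] at this
    · change (h : V ≃ₗ[ZMod p] V) (((h⁻¹ * n * h : H) : V ≃ₗ[ZMod p] V) u) = _
      simp [app, Subgroup.coe_mul]
  have hTmin : ∀ h, ∀ W : Submodule (ZMod p) V, W ≤ T h → (∀ n ∈ N, ∀ u ∈ W, app n u ∈ W) →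
      W = ⊥ ∨ W = T h := by
    intro h W hle hinv
    set e : V ≃ₗ[ZMod p] V := (h : V ≃ₗ[ZMod p] V)
    have hpull : W.comap (e : V →ₗ[ZMod p] V) ≤ U := by
      intro u hu
      obtain ⟨u', hu', he⟩ := hle hu
      exact e.injective he ▸ hu'
    have hmap : (W.comap (e : V →ₗ[ZMod p] V)).map (e : V →ₗ[ZMod p] V) = W :=
      Submodule.map_comap_eq_of_surjective e.surjective W
    rcases hUmin _ hpull (fun n hn u hu => by
      have := hinv (h * n * h⁻¹) (Subgroup.Normal.conj_mem ‹_› n hn h) _ hu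
      simpa [app, e, Subgroup.coe_mul] using this) with h1 | h1
    · exact Or.inl (by rw [← hmap, h1, Submodule.map_bot])
    · exact Or.inr (by rw [← hmap, h1])
  obtain ⟨h₁, hh₁, -⟩ := hreg w v hw (fun h => hvU (h ▸ U.zero_mem))
  have hvT : v ∈ T h₁ := ⟨w, hwU, hh₁⟩
  have hv0 : v ≠ 0 := fun h => hvU (h ▸ U.zero_mem)
  have hdisj : ∀ W : Submodule (ZMod p) V, (∀ n ∈ N, ∀ u ∈ W, app n u ∈ W) → ∀ h, ¬ T h ≤ W →
      ∀ u, u ∈ T h → u ∈ W → u = 0 := by
    intro W hinv h hne u hu hu'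
    rcases hTmin h (T h ⊓ W) inf_le_left (fun n hn x hx => ⟨hTinv h n hn x hx.1, hinv n hn x hx.2⟩)
      with h1 | h1
    · exact (Submodule.eq_bot_iff _).1 h1 u ⟨hu, hu'⟩
    · exact absurd (inf_eq_left.1 h1) hne
  have hUT : ∀ u, u ∈ U → u ∈ T h₁ → u = 0 := fun u hu hu' =>
    hdisj U hUinv h₁ (fun hle => hvU (hle hvT)) u hu' hu
  -- the graph spaces
  have hgraph : ∀ u ∈ U, u ≠ 0 → ∃ M : Submodule (ZMod p) V, (∀ n ∈ N, ∀ x ∈ M, app n x ∈ M) ∧
      u + v ∈ M ∧ (∀ x ∈ M, x ∈ U → x = 0) ∧ (∀ x ∈ M, x ∈ T h₁ → x = 0) ∧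
      (∀ x ∈ U, ∃ y ∈ T h₁, x + y ∈ M) ∧ ∀ y ∈ T h₁, ∃ x ∈ U, x + y ∈ M := by
    intro u hu hu0
    have hne : u + v ≠ 0 := fun h => hvU (eq_neg_of_add_eq_zero_right h ▸ U.neg_mem hu)
    obtain ⟨h₂, hh₂, -⟩ := hreg w (u + v) hw hne
    have hm : u + v ∈ T h₂ := ⟨w, hwU, hh₂⟩
    have hd1 : ∀ x ∈ T h₂, x ∈ U → x = 0 := fun x hx hx' =>
      hdisj U hUinv h₂ (fun hle => hvU (by simpa using U.sub_mem (hle hm) hu)) x hx hx'
    have hd2 : ∀ x ∈ T h₂, x ∈ T h₁ → x = 0 := fun x hx hx' =>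
      hdisj (T h₁) (hTinv h₁) h₂
        (fun hle => hu0 (hUT u hu (by simpa using (T h₁).sub_mem (hle hm) hvT))) x hx hx'
    have hle : T h₂ ≤ U ⊔ T h₁ := by
      rcases hTmin h₂ (T h₂ ⊓ (U ⊔ T h₁)) inf_le_left (fun n hn x hx => ⟨hTinv h₂ n hn x hx.1, by
        obtain ⟨y, hy, z, hz, rfl⟩ := Submodule.mem_sup.1 hx.2
        simp only [app, map_add]
        exact Submodule.add_mem_sup (hUinv n hn y hy) (hTinv h₁ n hn z hz)⟩) with h1 | h1
      · exact absurd ((Submodule.eq_bot_iff _).1 h1 _ ⟨hm, Submodule.add_mem_sup hu hvT⟩) hne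
      · exact inf_eq_left.1 h1
    have hsum : ∀ A B : Submodule (ZMod p) V, Module.finrank (ZMod p) A = Module.finrank (ZMod p) U →
        Module.finrank (ZMod p) B = Module.finrank (ZMod p) U → (∀ x ∈ A, x ∈ B → x = 0) →
        Module.finrank (ZMod p) ↑(A ⊔ B) = 2 * Module.finrank (ZMod p) U := by
      intro A B hA hB hAB
      have h1 := Submodule.finrank_sup_add_finrank_inf_eq A B
      rw [(Submodule.eq_bot_iff (A ⊓ B)).2 fun x hx => hAB x hx.1 hx.2, finrank_bot, add_zero,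
        hA, hB] at h1
      omega
    have e0 := hsum U (T h₁) rfl (hTd h₁) hUT
    have e1 : T h₂ ⊔ T h₁ = U ⊔ T h₁ := Submodule.eq_of_le_of_finrank_eq (sup_le hle le_sup_right)
      (by rw [e0, hsum _ _ (hTd h₂) (hTd h₁) hd2])
    have e2 : T h₂ ⊔ U = U ⊔ T h₁ := Submodule.eq_of_le_of_finrank_eq (sup_le hle le_sup_left)
      (by rw [e0, hsum _ _ (hTd h₂) rfl hd1])
    refine ⟨T h₂, hTinv h₂, hm, hd1, hd2, fun x hx => ?_, fun y hy => ?_⟩
    · obtain ⟨z, hz, y, hy, rfl⟩ := Submodule.mem_sup.1 (e1 ▸ Submodule.mem_sup_left hx : x ∈ T h₂ ⊔ T h₁)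
      exact ⟨-y, (T h₁).neg_mem hy, by simpa using hz⟩
    · obtain ⟨z, hz, x, hx, rfl⟩ := Submodule.mem_sup.1 (e2 ▸ Submodule.mem_sup_right hy : y ∈ T h₂ ⊔ U)
      refine ⟨-x, U.neg_mem hx, ?_⟩
      rwa [add_comm z x, neg_add_cancel_left]
  -- transitive commutant
  let res : N → Module.End (ZMod p) U := fun n =>
    (((n : H) : V ≃ₗ[ZMod p] V) : V →ₗ[ZMod p] V).restrict (hUinv n n.2)
  have hres : ∀ (n : N) (x : U), ((res n x : U) : V) = app n x := fun n x => rfl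
  have htrans : ∀ a b : U, a ≠ 0 → b ≠ 0 → ∃ ψ : Module.End (ZMod p) U,
      (∀ n : N, res n * ψ = ψ * res n) ∧ ψ a = b := by
    intro a b ha hb
    obtain ⟨M, hM, hMv, hMU, hMT, hM1, hM2⟩ := hgraph a a.2 (fun h => ha (Subtype.ext h))
    obtain ⟨M', hM', hM'v, hM'U, hM'T, hM'1, hM'2⟩ := hgraph b b.2 (fun h => hb (Subtype.ext h))
    have hex : ∀ x : U, ∃ x' : U, ∃ y ∈ T h₁, (x : V) + y ∈ M ∧ (x' : V) + y ∈ M' := fun x => by
      obtain ⟨y, hy, hxy⟩ := hM1 x x.2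
      obtain ⟨x', hx', hxy'⟩ := hM'2 y hy
      exact ⟨⟨x', hx'⟩, y, hy, hxy, hxy'⟩
    choose ψ y hy hψ1 hψ2 using hex
    have huniq : ∀ (x x' : U) (z : V), z ∈ T h₁ → (x : V) + z ∈ M → (x' : V) + z ∈ M' → ψ x = x' := by
      intro x x' z hz h1 h2
      have hzy : y x = z := by
        refine sub_eq_zero.1 (hMT (y x - z) ?_ ((T h₁).sub_mem (hy x) hz))
        have := M.sub_mem (hψ1 x) h1
        rwa [add_sub_add_left_eq_sub] at this
      apply Subtype.ext
      refine sub_eq_zero.1 (hM'U _ ?_ (U.sub_mem (ψ x).2 x'.2))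
      have := M'.sub_mem (hψ2 x) h2
      rwa [hzy, add_sub_add_right_eq_sub] at this
    refine ⟨{ toFun := ψ, map_add' := fun x x' => ?_, map_smul' := fun c x => ?_ }, fun n => ?_, ?_⟩
    · refine huniq _ _ (y x + y x') ((T h₁).add_mem (hy x) (hy x')) ?_ ?_
      · convert M.add_mem (hψ1 x) (hψ1 x') using 1
        push_cast; abel
      · convert M'.add_mem (hψ2 x) (hψ2 x') using 1
        push_cast; abel
    · refine huniq _ _ (c • y x) ((T h₁).smul_mem c (hy x)) ?_ ?_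
      · convert M.smul_mem c (hψ1 x) using 1
        simp [smul_add]
      · convert M'.smul_mem c (hψ2 x) using 1
        simp [smul_add]
    · refine LinearMap.ext fun x => ?_
      change res n (ψ x) = ψ (res n x)
      refine (huniq _ _ (app n (y x)) (hTinv h₁ n n.2 _ (hy x)) ?_ ?_).symm
      · convert hM n n.2 _ (hψ1 x) using 1
        simp [app, hres]
      · convert hM' n n.2 _ (hψ2 x) using 1
        simp [app, hres]
    · exact huniq a b v hvT hMv hM'v
  have hUnt : Nontrivial U := ⟨⟨⟨w, hwU⟩, 0, fun h => hw (congrArg Subtype.val h)⟩⟩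
  haveI := hUnt
  have hirr : ∀ W : Submodule (ZMod p) U,
      (∀ s ∈ Set.range res, ∀ x ∈ W, s x ∈ W) → W = ⊥ ∨ W = ⊤ := by
    intro W hW
    rcases hUmin (W.map U.subtype) (Submodule.map_subtype_le U W) (fun n hn x hx => by
      obtain ⟨x, hx, rfl⟩ := hx
      exact ⟨res ⟨n, hn⟩ x, hW _ ⟨⟨n, hn⟩, rfl⟩ x hx, rfl⟩) with h | h
    · left
      rw [← Submodule.comap_map_eq_of_injective U.injective_subtype W, h, Submodule.comap_bot,
        LinearMap.ker_eq_bot.2 U.injective_subtype]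
    · right
      rw [← Submodule.comap_map_eq_of_injective U.injective_subtype W, h, Submodule.comap_subtype_self]
  refine hna ⟨⟨fun n n' => ?_⟩⟩
  have hscal : ∀ n : N, ∀ χ : Module.End (ZMod p) U, (∀ m : N, res m * χ = χ * res m) →
      ∃ ψ : Module.End (ZMod p) U, (∀ m : N, res m * ψ = ψ * res m) ∧ res n = ψ := by
    intro n _ _
    have hne : res n ⟨w, hwU⟩ ≠ 0 := fun h => hw (((n : H) : V ≃ₗ[ZMod p] V).injective (by
      rw [map_zero]; exact congrArg Subtype.val h))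
    obtain ⟨ψ, hψ, hψw⟩ := htrans ⟨w, hwU⟩ _ (fun h => hw (congrArg Subtype.val h)) hne
    refine ⟨ψ, hψ, LinearMap.ext fun x => ?_⟩
    by_cases hx : x = 0
    · rw [hx, map_zero, map_zero]
    obtain ⟨χ, hχ, rfl⟩ := htrans ⟨w, hwU⟩ x (fun h => hw (congrArg Subtype.val h)) hx
    have hcomm : χ * ψ = ψ * χ := commute_of_irreducible (Set.range res) hirr
      (fun s ⟨m, hm⟩ => hm ▸ hχ m) (fun s ⟨m, hm⟩ => hm ▸ hψ m)
    calc res n (χ ⟨w, hwU⟩) = χ (res n ⟨w, hwU⟩) := LinearMap.congr_fun (hχ n) _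
      _ = χ (ψ ⟨w, hwU⟩) := by rw [hψw]
      _ = ψ (χ ⟨w, hwU⟩) := LinearMap.congr_fun hcomm _
  obtain ⟨ψ, hψ, hn⟩ := hscal n 1 (fun m => by rw [mul_one, one_mul])
  have hc : res n' * ψ = ψ * res n' := hψ n'
  rw [← hn] at hc
  apply Subtype.ext
  refine inv_mul_eq_one.1 (hfree (((n' : H) * n)⁻¹ * ((n : H) * n')) w hw ?_) |>.symm
  have h' : app n (app n' w) = app n' (app n w) :=
    congrArg Subtype.val (LinearMap.congr_fun hc ⟨w, hwU⟩).symm
  simp only [app] at h'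
  simp [Subgroup.coe_mul, h']

/-- The centraliser of a non-abelian normal subgroup of a regular group is commutative. -/
theorem centralizer_comm (hreg : ∀ v w : V, v ≠ 0 → w ≠ 0 → ∃! h : H, (h : V ≃ₗ[ZMod p] V) v = w)
    (N : Subgroup H) [N.Normal] (hna : ¬ IsMulCommutative N) [Nontrivial V] :
    IsMulCommutative (Subgroup.centralizer (N : Set H)) := by
  refine ⟨⟨fun x y => ?_⟩⟩
  let L : H → Module.End (ZMod p) V := fun h => ((h : V ≃ₗ[ZMod p] V) : V →ₗ[ZMod p] V)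
  have hL : ∀ a b : H, L (a * b) = L a * L b := fun a b => rfl
  have hLinj : Function.Injective L := fun a b h =>
    Subtype.ext (LinearEquiv.toLinearMap_injective h)
  have h := commute_of_irreducible (f := L x) (g := L y) (L '' (N : Set H))
    (fun W hW => irreducible_of_normal hreg N hna W fun n hn v hv => hW _ ⟨n, hn, rfl⟩ v hv)
    (by rintro _ ⟨n, hn, rfl⟩; rw [← hL, ← hL, Subgroup.mem_centralizer_iff.1 x.2 n hn])
    (by rintro _ ⟨n, hn, rfl⟩; rw [← hL, ← hL, Subgroup.mem_centralizer_iff.1 y.2 n hn])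
  rw [← hL, ← hL] at h
  exact Subtype.ext (hLinj h)

end Cfsg.Agent.H36
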