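import Mathlib
import Cfsg.Agent.H21.UniqueSubgroup
import Cfsg.Agent.H36.FpfSchur
import Cfsg.Agent.H36.PrimeNormalizer

/-!
# Complements of type II: quaternion subgroups and the possible degrees
-/

set_option linter.style.haveILetI false

namespace Cfsg.Agent.H36

open QuaternionGroup in
/-- A generalised quaternion group whose commutators are central is the quaternion group of
order 8, or abelian. -/
theorem quaternion_class_two {n : ℕ} (hna : ∃ x y : QuaternionGroup (2 ^ n), x * y ≠ y * x)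
    (hc2 : ∀ x y : QuaternionGroup (2 ^ n), x * y * x⁻¹ * y⁻¹ ∈ Subgroup.center (QuaternionGroup (2 ^ n))) :
    n = 1 := by
  rcases n with _ | _ | n
  · exfalso
    obtain ⟨x, y, hxy⟩ := hna
    revert x y
    decide
  · rfl
  · exfalso
    have h := Subgroup.mem_center_iff.1 (hc2 (a 1) (xa 0)) (xa 0)
    haveI : NeZero (2 ^ (n + 2)) := ⟨by positivity⟩
    have h1 : (a 1 : QuaternionGroup (2 ^ (n + 2))) * xa 0 * (a 1)⁻¹ * (xa 0)⁻¹ = a 2 := by
      rw [mul_inv_eq_iff_eq_mul, mul_inv_eq_iff_eq_mul, a_mul_xa, a_mul_xa, xa_mul_a]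
      congr 1
      ring
    rw [h1, xa_mul_a, a_mul_xa, QuaternionGroup.xa.injEq] at h
    have h2 : ((4 : ℕ) : ZMod (2 * 2 ^ (n + 2))) = 0 := by push_cast; linear_combination h
    rw [CharP.cast_eq_zero_iff (ZMod (2 * 2 ^ (n + 2))) (2 * 2 ^ (n + 2))] at h2
    have h3 := Nat.le_of_dvd (by norm_num) h2
    have : 4 ≤ 2 ^ (n + 2) := by
      rw [pow_add]; have := Nat.one_le_two_pow (n := n); omega
    omega

variable {p : ℕ} [Fact p.Prime] {V : Type*} [AddCommGroup V] [Module (ZMod p) V] [Finite V]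
  {H : Subgroup (V ≃ₗ[ZMod p] V)}

/-- The fixed-point-free action on `Multiplicative V`. -/
def fpfAut (H : Subgroup (V ≃ₗ[ZMod p] V)) (P : Subgroup H) : P →* MulAut (Multiplicative V) where
  toFun a := AddEquiv.toMultiplicative ((a : H) : V ≃ₗ[ZMod p] V).toAddEquiv
  map_one' := rfl
  map_mul' _ _ := rfl

/-- A minimal non-abelian normal subgroup centralising a maximal abelian normal subgroup is
quaternion of order 8 or perfect. -/
theorem quaternion_or_perfect [Nontrivial V]
    (hfree : ∀ h : H, ∀ v : V, v ≠ 0 → (h : V ≃ₗ[ZMod p] V) v = v → h = 1)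
    (A : Subgroup H) [A.Normal] (hAc : IsMulCommutative A)
    (hAmax : ∀ B : Subgroup H, B.Normal → IsMulCommutative B → A ≤ B → B = A)
    (N : Subgroup H) [N.Normal] (hNle : N ≤ Subgroup.centralizer (A : Set H))
    (hNna : ¬ IsMulCommutative N)
    (hNmin : ∀ M : Subgroup H, M.Normal → M ≤ N → ¬ IsMulCommutative M → M = N) :
    Nonempty (N ≃* QuaternionGroup 2) ∨ commutator N = ⊤ := by
  classical
  haveI : Finite H := linearSubgroup_finite
  haveI hNd : ((commutator N).map N.subtype).Normal := inferInstance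
  by_cases hperf : commutator N = ⊤
  · exact Or.inr hperf
  left
  have hab : ∀ M : Subgroup H, M.Normal → M ≤ N → M ≠ N → M ≤ A := by
    intro M hM hle hne
    have hMc : IsMulCommutative M := by
      by_contra hc
      exact hne (hNmin M hM hle hc)
    haveI : (A ⊔ M).Normal := inferInstance
    have hcm : IsMulCommutative (A ⊔ M : Subgroup H) := by
      refine ⟨⟨fun x y => Subtype.ext ?_⟩⟩
      obtain ⟨a, ha, m, hm, hx⟩ := Subgroup.mem_sup_of_normal_left.1 x.2
      obtain ⟨a', ha', m', hm', hy⟩ := Subgroup.mem_sup_of_normal_left.1 y.2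
      have hca : ∀ b ∈ A, ∀ u ∈ M, Commute b u := fun b hb u hu =>
        Subgroup.mem_centralizer_iff.1 (hNle (hle hu)) b hb
      change (x : H) * y = y * x
      rw [← hx, ← hy]
      have h1 : Commute a a' := congrArg Subtype.val (hAc.is_comm.comm (⟨a, ha⟩ : A) ⟨a', ha'⟩)
      have h2 : Commute m m' := congrArg Subtype.val (hMc.is_comm.comm (⟨m, hm⟩ : M) ⟨m', hm'⟩)
      exact ((h1.mul_right (hca a ha m' hm')).mul_left
        (((hca a' ha' m hm).symm).mul_right h2)).eq
    exact le_sup_right.trans (hAmax _ inferInstance hcm le_sup_left).le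
  have hcle : (commutator N).map N.subtype ≤ A := hab _ hNd (Subgroup.map_subtype_le _) fun h =>
    hperf (Subgroup.map_injective N.subtype_injective
      (h.trans ((MonoidHom.range_eq_map _).symm.trans N.range_subtype).symm))
  have hcent : commutator N ≤ Subgroup.center N := fun x hx => Subgroup.mem_center_iff.2 fun y =>
    Subtype.ext ((Subgroup.mem_centralizer_iff.1 (hNle y.2) x
      (hcle (Subgroup.mem_map_of_mem _ hx))).symm)
  haveI hnil : Group.IsNilpotent N := by
    letI : CommGroup (N ⧸ commutator N) := inferInstanceAs (CommGroup (Abelianization N))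
    exact Subgroup.isNilpotent_of_ker_le_center (QuotientGroup.mk' (commutator N))
      (by rwa [QuotientGroup.ker_mk'])
  -- some Sylow subgroup of `N` is non-abelian
  obtain ⟨q, hq, Q, hQ⟩ : ∃ q : ℕ, ∃ _ : Fact q.Prime, ∃ Q : Sylow q N, ¬ IsMulCommutative (Q : Subgroup N) := by
    by_contra hall
    push Not at hall
    obtain ⟨e⟩ := (Group.isNilpotent_of_finite_tfae (G := N)).out 0 4 |>.1 hnil
    refine hNna ⟨⟨fun x y => ?_⟩⟩
    apply e.symm.injective
    rw [map_mul, map_mul]
    funext r P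
    haveI : Fact r.1.Prime := ⟨Nat.prime_of_mem_primeFactors r.2⟩
    exact (hall r.1 inferInstance P).is_comm.comm _ _
  haveI := hq
  haveI hQn : (Q : Subgroup N).Normal :=
    Sylow.normal_of_normalizerCondition Group.normalizerCondition_of_isNilpotent Q
  haveI : (Q : Subgroup N).Characteristic := Sylow.characteristic_of_normal Q hQn
  haveI : ((Q : Subgroup N).map N.subtype).Normal := inferInstance
  have hQN : (Q : Subgroup N) = ⊤ := by
    by_contra hne
    have hle := hab _ inferInstance (Subgroup.map_subtype_le (Q : Subgroup N)) fun h =>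
      hne (Subgroup.map_injective N.subtype_injective
        (h.trans ((MonoidHom.range_eq_map _).symm.trans N.range_subtype).symm))
    refine hQ ⟨⟨fun x y => Subtype.ext (Subtype.ext ?_)⟩⟩
    change ((x : N) : H) * ((y : N) : H) = ((y : N) : H) * ((x : N) : H)
    exact congrArg Subtype.val (hAc.is_comm.comm
      (⟨_, hle (Subgroup.mem_map_of_mem _ x.2)⟩ : A) ⟨_, hle (Subgroup.mem_map_of_mem _ y.2)⟩)
  have hNp : IsPGroup q N := fun x => by
    obtain ⟨k, hk⟩ := Q.isPGroup' ⟨x, hQN ▸ Subgroup.mem_top x⟩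
    exact ⟨k, congrArg Subtype.val hk⟩
  have huniq := H21.unique_subgroup_of_fpf (p := q) hNp (fpfAut H N) (fun e he v hv => by
    by_contra hv1
    exact he (Subtype.ext (hfree e (Multiplicative.toAdd v) hv1 hv)))
  rcases H21.cyclic_or_quaternion q hNp huniq with hcy | ⟨-, n, ⟨e⟩⟩
  · exact absurd (IsCyclic.isMulCommutative (α := N)) hNna
  have hn : n = 1 := by
    refine quaternion_class_two ?_ fun x y => ?_
    · by_contra hall
      push Not at hall
      exact hNna ⟨⟨fun x y => e.injective (by rw [map_mul, map_mul, hall])⟩⟩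
    · have hm : e.symm x * e.symm y * (e.symm x)⁻¹ * (e.symm y)⁻¹ ∈ Subgroup.center N :=
        hcent (Subgroup.commutator_mem_commutator (Subgroup.mem_top _) (Subgroup.mem_top _))
      rw [Subgroup.mem_center_iff] at hm ⊢
      intro z
      apply e.symm.injective
      simpa using hm (e.symm z)
  subst hn
  exact ⟨e⟩

open QuaternionGroup in
/-- The order of a group of automorphisms of the quaternion group of order 8 containing the inner
ones. -/
theorem card_quaternion_aut (G₀ : Subgroup (MulAut (QuaternionGroup 2)))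
    (hinn : ∀ y : QuaternionGroup 2, MulAut.conj y ∈ G₀) :
    ∃ o s : ℕ, Nat.card G₀ = o * s ∧ o ≤ 6 ∧ 2 ∣ o ∧ 0 < o ∧ 0 < s ∧ s ∣ 4 := by
  classical
  haveI : Fact (Nat.Prime 2) := ⟨Nat.prime_two⟩
  haveI : Finite (MulAut (QuaternionGroup 2)) := Finite.of_injective _ DFunLike.coe_injective
  let O : Finset (QuaternionGroup 2) :=
    (MulAction.orbit G₀ (a 1 : QuaternionGroup 2)).toFinset
  have hord : ∀ x ∈ O, x * x ≠ 1 := by
    intro x hx
    obtain ⟨g, rfl⟩ := Set.mem_toFinset.1 hx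
    intro h
    change (g : MulAut (QuaternionGroup 2)) (a 1) * (g : MulAut (QuaternionGroup 2)) (a 1) = 1 at h
    rw [← map_mul, MulEquiv.map_eq_one_iff] at h
    revert h; decide
  have hsix : O.card ≤ 6 := by
    refine (Finset.card_le_card (t := Finset.univ.filter fun x : QuaternionGroup 2 => x * x ≠ 1)
      fun x hx => Finset.mem_filter.2 ⟨Finset.mem_univ _, hord x hx⟩).trans ?_
    decide
  have hinvd : ∀ x : QuaternionGroup 2, x * x ≠ 1 → ∃ y, y * x * y⁻¹ = x⁻¹ ∧ x⁻¹ ≠ x := by decide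
  have hfix : O.filter (fun x => x⁻¹ = x) = ∅ := Finset.filter_eq_empty_iff.2 fun x hx =>
    (hinvd x (hord x hx)).choose_spec.2
  have heven : 2 ∣ O.card := by
    rw [← CharP.cast_eq_zero_iff (ZMod 2) 2]
    rw [card_filter_fixed_mod_two O (fun x => x⁻¹) ?_ fun x _ => inv_inv x, hfix]
    · simp
    · intro x hx
      obtain ⟨y, hy, -⟩ := hinvd x (hord x hx)
      rw [Set.mem_toFinset] at hx ⊢
      rw [← MulAction.orbit_eq_iff.2 hx]
      exact ⟨⟨_, hinn y⟩, hy⟩
  let Y : Finset (QuaternionGroup 2) :=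
    Finset.univ.filter fun y => y * y ≠ 1 ∧ y ≠ a 1 ∧ y ≠ a 3
  have hY : Y.card = 4 := by decide
  have hgen : ∀ y : QuaternionGroup 2, y * y ≠ 1 ∧ y ≠ a 1 ∧ y ≠ a 3 →
      ∀ z : QuaternionGroup 2, ∃ m : Fin 4, ∃ l : Fin 2, z = a 1 ^ (m : ℕ) * y ^ (l : ℕ) := by decide
  set St := MulAction.stabilizer G₀ (a 1 : QuaternionGroup 2) with hSt
  have hSY : ∀ g : St, ∀ y ∈ Y, ((g : G₀) : MulAut (QuaternionGroup 2)) y ∈ Y := by
    intro g y hy
    simp only [Y, Finset.mem_filter, Finset.mem_univ, true_and] at hy ⊢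
    set φ := ((g : G₀) : MulAut (QuaternionGroup 2))
    have h1 : φ (a 1) = a 1 := g.2
    have h3 : φ (a 3) = a 3 := by
      rw [show (a 3 : QuaternionGroup 2) = a 1 ^ 3 by decide, map_pow, h1]
    exact ⟨fun h => hy.1 (φ.injective (by rw [map_mul, h, map_one])),
      fun h => hy.2.1 (φ.injective (h.trans h1.symm)),
      fun h => hy.2.2 (φ.injective (h.trans h3.symm))⟩
  letI : MulAction St Y :=
    { smul := fun g y => ⟨((g : G₀) : MulAut (QuaternionGroup 2)) y, hSY g y y.2⟩
      one_smul := fun y => Subtype.ext rfl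
      mul_smul := fun g h y => Subtype.ext rfl }
  have hfree : ∀ y : Y, MulAction.stabilizer St y = ⊥ := by
    intro y
    rw [Subgroup.eq_bot_iff_forall]
    intro g hg
    have h1 : ((g : G₀) : MulAut (QuaternionGroup 2)) (a 1) = a 1 := g.2
    have h2 : ((g : G₀) : MulAut (QuaternionGroup 2)) y = y := congrArg Subtype.val hg
    refine Subtype.ext (Subtype.ext (MulEquiv.ext fun z => ?_))
    obtain ⟨m, l, rfl⟩ := hgen y (Finset.mem_filter.1 y.2).2 z
    rw [map_mul, map_pow, map_pow, h1, h2]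
    rfl
  have hs4 : Nat.card St ∣ 4 := by
    rw [← hY, ← Fintype.card_coe, ← Nat.card_eq_fintype_card,
      Nat.card_congr (MulAction.selfEquivSigmaOrbitsQuotientStabilizer St Y)]
    haveI : Fintype (Quotient (MulAction.orbitRel St Y)) := Fintype.ofFinite _
    rw [Nat.card_sigma]
    exact Finset.dvd_sum fun ω _ => by rw [← Subgroup.index_eq_card, hfree, Subgroup.index_bot]
  refine ⟨O.card, Nat.card St, ?_, hsix, heven,
    Finset.card_pos.2 ⟨a 1, Set.mem_toFinset.2 (MulAction.mem_orbit_self _)⟩, Nat.card_pos, hs4⟩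
  rw [← Subgroup.index_mul_card St, hSt, MulAction.index_stabilizer, Set.ncard_eq_toFinset_card']

open QuaternionGroup in
/-- A quaternion group of order 8 acting irreducibly and fixed-point-freely has degree two and
odd characteristic. -/
theorem finrank_of_quaternion [Nontrivial V]
    (hfree : ∀ h : H, ∀ v : V, v ≠ 0 → (h : V ≃ₗ[ZMod p] V) v = v → h = 1)
    (N : Subgroup H) (e : N ≃* QuaternionGroup 2)
    (hirr : ∀ W : Submodule (ZMod p) V, (∀ n ∈ N, ∀ v ∈ W, ((n : H) : V ≃ₗ[ZMod p] V) v ∈ W) →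
      W = ⊥ ∨ W = ⊤) :
    p ≠ 2 ∧ Module.finrank (ZMod p) V ≤ 2 := by
  classical
  let L : N → V →ₗ[ZMod p] V := fun n => (((n : H) : V ≃ₗ[ZMod p] V) : V →ₗ[ZMod p] V)
  have hL : ∀ (x y : N) v, L (x * y) v = L x (L y v) := fun _ _ _ => rfl
  have hL1 : ∀ v, L 1 v = v := fun _ => rfl
  set i := e.symm (a 1) with hi
  set j := e.symm (xa 0) with hj
  set z := e.symm (a 2) with hz
  have hii : i * i = z := by rw [hi, hz, ← map_mul]; exact congrArg e.symm (by decide)
  have hjj : j * j = z := by rw [hj, hz, ← map_mul]; exact congrArg e.symm (by decide)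
  have hji : j * i = z * (i * j) := by
    rw [hi, hj, hz, ← map_mul, ← map_mul, ← map_mul]; exact congrArg e.symm (by decide)
  have hzz : z * z = 1 := by
    rw [hz, ← map_mul, ← map_one e.symm]; exact congrArg e.symm (by decide)
  have hz1 : z ≠ 1 := fun h => by
    rw [hz, ← map_one e.symm] at h
    exact absurd (e.symm.injective h) (by decide)
  have hz1H : (z : H) ≠ 1 := fun h => hz1 (Subtype.ext h)
  have hneg : ∀ v, L z v = -v := by
    intro v
    refine eq_neg_of_add_eq_zero_left ?_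
    by_contra hne
    refine hz1H (hfree z (L z v + v) hne ?_)
    change L z (L z v + v) = L z v + v
    rw [map_add, ← hL, hzz, hL1, add_comm]
  have hp2 : p ≠ 2 := by
    intro h2
    obtain ⟨v, hv⟩ := exists_ne (0 : V)
    refine hz1H (hfree z v hv ?_)
    change L z v = v
    rw [hneg, ← neg_one_smul (ZMod p) v]
    subst h2
    rw [show (-1 : ZMod 2) = 1 from rfl, one_smul]
  refine ⟨hp2, ?_⟩
  obtain ⟨c, d, hcd⟩ := ZMod.sq_add_sq p (-1)
  -- an eigenvector of `c • i + d • j`
  let T : V →ₗ[ZMod p] V := c • L i + d • L j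
  have hzmul : ∀ (x : N) v, L (z * x) v = - L x v := fun x v => by rw [hL, hneg]
  have hTT : ∀ v, T (T v) = v := by
    intro v
    simp only [T, LinearMap.add_apply, LinearMap.smul_apply, map_add, map_smul, smul_add, smul_smul,
      ← hL, hii, hjj, hji, hneg, hzmul]
    have h1 : (c * c + d * d) = -1 := by rw [← hcd]; ring
    calc _ = (c * c + d * d) • (-v) + ((c * d) • L (i * j) v - (d * c) • L (i * j) v) := by
          simp only [add_smul, smul_neg, mul_comm d c]; abel
      _ = v := by rw [h1, mul_comm d c]; simp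
  obtain ⟨v, hv, ε, hε, hTv⟩ : ∃ v : V, v ≠ 0 ∧ ∃ ε : ZMod p, ε * ε = 1 ∧ T v = ε • v := by
    obtain ⟨u, hu⟩ := exists_ne (0 : V)
    by_cases h : u + T u = 0
    · exact ⟨u, hu, -1, by ring, by rw [neg_one_smul]; exact eq_neg_of_add_eq_zero_right h⟩
    · exact ⟨u + T u, h, 1, one_mul 1, by rw [one_smul, map_add, hTT, add_comm]⟩
  have hall : ∀ W : Submodule (ZMod p) V, (∀ w ∈ W, L i w ∈ W) → (∀ w ∈ W, L j w ∈ W) →
      ∀ n ∈ N, ∀ w ∈ W, ((n : H) : V ≃ₗ[ZMod p] V) w ∈ W := by
    intro W hWi hWj n hn w hw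
    have hpow : ∀ k : ℕ, ∀ w ∈ W, L (i ^ k) w ∈ W := by
      intro k
      induction k with
      | zero => intro w hw; rwa [pow_zero, hL1]
      | succ k ih => intro w hw; rw [pow_succ', hL]; exact hWi _ (ih w hw)
    have hdec : ∀ g : QuaternionGroup 2, ∃ m : Fin 4, g = a 1 ^ (m : ℕ) ∨ g = xa 0 * a 1 ^ (m : ℕ) := by
      decide
    obtain ⟨m, hm | hm⟩ := hdec (e ⟨n, hn⟩)
    · have hn' : (⟨n, hn⟩ : N) = i ^ (m : ℕ) := by
        rw [hi, ← map_pow, ← hm, MulEquiv.symm_apply_apply]
      change L ⟨n, hn⟩ w ∈ W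
      rw [hn']; exact hpow _ w hw
    · have hn' : (⟨n, hn⟩ : N) = j * i ^ (m : ℕ) := by
        rw [hi, hj, ← map_pow, ← map_mul, ← hm, MulEquiv.symm_apply_apply]
      change L ⟨n, hn⟩ w ∈ W
      rw [hn', hL]; exact hWj _ (hpow _ w hw)
  have key : ∀ x y : N, x * x = z → y * x = z * (x * y) → ∀ u : V, u ≠ 0 →
      L y u ∈ Submodule.span (ZMod p) {u, L x u} →
      (∀ W : Submodule (ZMod p) V, (∀ w ∈ W, L x w ∈ W) → (∀ w ∈ W, L y w ∈ W) →
        ∀ n ∈ N, ∀ w ∈ W, ((n : H) : V ≃ₗ[ZMod p] V) w ∈ W) →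
      Module.finrank (ZMod p) V ≤ 2 := by
    intro x y hxx hyx u hu hyu hgen
    set W := Submodule.span (ZMod p) ({u, L x u} : Set V) with hW
    have hu1 : u ∈ W := Submodule.subset_span (by simp)
    have hu2 : L x u ∈ W := Submodule.subset_span (by simp)
    have hWx : ∀ w ∈ W, L x w ∈ W := by
      intro w hw
      obtain ⟨r, s, rfl⟩ := Submodule.mem_span_pair.1 hw
      rw [map_add, map_smul, map_smul, ← hL, hxx, hneg]
      exact W.add_mem (W.smul_mem _ hu2) (W.smul_mem _ (W.neg_mem hu1))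
    have hWy : ∀ w ∈ W, L y w ∈ W := by
      intro w hw
      obtain ⟨r, s, rfl⟩ := Submodule.mem_span_pair.1 hw
      rw [map_add, map_smul, map_smul, ← hL, hyx, hL, hneg, hL]
      exact W.add_mem (W.smul_mem _ hyu) (W.smul_mem _ (W.neg_mem (hWx _ hyu)))
    rcases hirr W (hgen W hWx hWy) with h | h
    · exact absurd ((Submodule.eq_bot_iff _).1 h u hu1) hu
    · have h1 := finrank_span_finset_le_card (R := ZMod p) ({u, L x u} : Finset V)
      rw [show ((({u, L x u} : Finset V) : Set V)) = {u, L x u} by simp] at h1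
      rw [Set.finrank, ← hW, h, finrank_top] at h1
      exact h1.trans Finset.card_le_two
  by_cases hd : d = 0
  · refine key j i hjj ?_ v hv ?_ (fun W a b => hall W b a)
    · rw [hji, ← mul_assoc, hzz, one_mul]
    · have hc : c ≠ 0 := fun hc => by rw [hd, hc] at hcd; simp at hcd
      have h1 : L i v = (c⁻¹ * ε) • v := by
        rw [mul_smul, ← hTv]
        simp [T, hd, smul_smul, inv_mul_cancel₀ hc]
      rw [h1]
      exact Submodule.smul_mem _ _ (Submodule.subset_span (by simp))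
  · refine key i j hii hji v hv ?_ hall
    have h1 : L j v = (d⁻¹ * ε) • v - (d⁻¹ * c) • L i v := by
      rw [mul_smul, mul_smul, ← hTv, ← smul_sub]
      simp [T, smul_smul, inv_mul_cancel₀ hd]
    rw [h1]
    exact Submodule.sub_mem _ (Submodule.smul_mem _ _ (Submodule.subset_span (by simp)))
      (Submodule.smul_mem _ _ (Submodule.subset_span (by simp)))

open QuaternionGroup in
/-- The degrees of solvable complements of type II. -/
theorem type_two_degrees (hreg : ∀ v w : V, v ≠ 0 → w ≠ 0 → ∃! h : H, (h : V ≃ₗ[ZMod p] V) v = w)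
    (hI : ∀ A : Subgroup H, A.Normal → IsCyclic A → ∃ W : Submodule (ZMod p) V,
      W ≠ ⊥ ∧ W ≠ ⊤ ∧ ∀ a ∈ A, ∀ v ∈ W, ((a : H) : V ≃ₗ[ZMod p] V) v ∈ W)
    (hsolv : Group.IsSolvable H) :
    Nat.card V = 25 ∨ Nat.card V = 49 ∨ Nat.card V = 121 ∨ Nat.card V = 529 := by
  classical
  haveI : Finite H := linearSubgroup_finite
  have hfree : ∀ h : H, ∀ v : V, v ≠ 0 → (h : V ≃ₗ[ZMod p] V) v = v → h = 1 :=
    fun h v hv e => fpf_of_regular hreg hv e
  obtain ⟨W₁, hW₁, hW₁', -⟩ := hI ⊥ inferInstance inferInstance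
  haveI : Nontrivial V := by
    obtain ⟨v, -, hv⟩ := Submodule.exists_mem_ne_zero_of_ne_bot hW₁
    exact ⟨⟨v, 0, hv⟩⟩
  -- a maximal abelian normal subgroup
  obtain ⟨A, ⟨hAn, hAc⟩, hAmax'⟩ := Set.Finite.exists_maximal
    (Set.toFinite {A : Subgroup H | A.Normal ∧ IsMulCommutative A})
    ⟨⊥, inferInstanceAs (⊥ : Subgroup H).Normal, IsCyclic.isMulCommutative⟩
  haveI := hAn
  haveI := hAc
  have hAmax : ∀ B : Subgroup H, B.Normal → IsMulCommutative B → A ≤ B → B = A := fun B h1 h2 h3 =>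
    le_antisymm (hAmax' ⟨h1, h2⟩ h3) h3
  haveI : IsCyclic A := isCyclic_of_fpf_linear hfree A
  obtain ⟨W₀, h0, h1, hW₀⟩ := hI A hAn inferInstance
  have hlt := lt_centralizer_of_maximal hreg A W₀ h0 h1 hW₀
  have hCna : ¬ IsMulCommutative (Subgroup.centralizer (A : Set H)) := fun hc =>
    hlt.ne' (hAmax _ inferInstance hc hlt.le)
  obtain ⟨N, ⟨hNn, hNle, hNna⟩, hNmin'⟩ := Set.Finite.exists_minimal
    (Set.toFinite {N : Subgroup H | N.Normal ∧ N ≤ Subgroup.centralizer (A : Set H) ∧
      ¬ IsMulCommutative N})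
    ⟨_, inferInstanceAs (Subgroup.centralizer (A : Set H)).Normal, le_rfl, hCna⟩
  haveI := hNn
  have hNmin : ∀ M : Subgroup H, M.Normal → M ≤ N → ¬ IsMulCommutative M → M = N := fun M h1 h2 h3 =>
    le_antisymm h2 (hNmin' ⟨h1, h2.trans hNle, h3⟩ h2)
  obtain ⟨e⟩ : Nonempty (N ≃* QuaternionGroup 2) := by
    refine (quaternion_or_perfect hfree A hAc hAmax N hNle hNna hNmin).resolve_right fun hperf => ?_
    haveI : Nontrivial N := by
      rw [← not_subsingleton_iff_nontrivial]
      exact fun hs => hNna ⟨⟨fun x y => Subsingleton.elim _ _⟩⟩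
    haveI : Group.IsSolvable H := hsolv
    exact (Group.IsSolvable.commutator_lt_top_of_nontrivial N).ne hperf
  obtain ⟨hp2, hdim⟩ := finrank_of_quaternion hfree N e
    (fun W hW => irreducible_of_normal hreg N hNna W hW)
  have hCA : Subgroup.centralizer (N : Set H) = A := by
    refine hAmax _ inferInstance (centralizer_comm hreg N hNna) fun x hx => ?_
    rw [Subgroup.mem_centralizer_iff]
    exact fun n hn => (Subgroup.mem_centralizer_iff.1 (hNle hn) x hx).symm
  -- `A` is scalar
  have hWd : Module.finrank (ZMod p) W₀ = 1 := by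
    have := Submodule.finrank_lt h1
    have : Module.finrank (ZMod p) W₀ ≠ 0 := fun h => h0 (Submodule.finrank_eq_zero.1 h)
    omega
  have hVd : Module.finrank (ZMod p) V = 2 := by
    have := Submodule.finrank_lt h1
    omega
  obtain ⟨w, hwW, hw⟩ := Submodule.exists_mem_ne_zero_of_ne_bot h0
  have hscal : ∀ x ∈ A, ∃ c : ZMod p, ∀ v : V, ((x : H) : V ≃ₗ[ZMod p] V) v = c • v := by
    intro x hx
    obtain ⟨c, hc⟩ := (finrank_eq_one_iff_of_nonzero' (⟨w, hwW⟩ : W₀)
      (fun h => hw (congrArg Subtype.val h))).1 hWd ⟨_, hW₀ x hx w hwW⟩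
    have hc' : ((x : H) : V ≃ₗ[ZMod p] V) w = c • w := (congrArg Subtype.val hc).symm
    refine ⟨c, fun v => ?_⟩
    let E : Submodule (ZMod p) V := LinearMap.ker
      ((((x : H) : V ≃ₗ[ZMod p] V) : V →ₗ[ZMod p] V) - c • LinearMap.id)
    have hE : ∀ u, u ∈ E ↔ ((x : H) : V ≃ₗ[ZMod p] V) u = c • u := fun u => by
      simp [E, sub_eq_zero]
    have hEinv : ∀ n ∈ N, ∀ u ∈ E, ((n : H) : V ≃ₗ[ZMod p] V) u ∈ E := by
      intro n hn u hu
      rw [hE] at hu ⊢
      have hcm : x * n = n * x := Subgroup.mem_centralizer_iff.1 (hNle hn) x hx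
      calc (x : V ≃ₗ[ZMod p] V) ((n : V ≃ₗ[ZMod p] V) u) = ((x * n : H) : V ≃ₗ[ZMod p] V) u := rfl
        _ = ((n * x : H) : V ≃ₗ[ZMod p] V) u := by rw [hcm]
        _ = (n : V ≃ₗ[ZMod p] V) ((x : V ≃ₗ[ZMod p] V) u) := rfl
        _ = c • (n : V ≃ₗ[ZMod p] V) u := by rw [hu, map_smul]
    rcases irreducible_of_normal hreg N hNna E hEinv with h | h
    · exact absurd ((Submodule.eq_bot_iff _).1 h w ((hE w).2 hc')) hw
    · exact (hE v).1 (h ▸ Submodule.mem_top)
  have hV : Nat.card V = p ^ 2 := by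
    rw [Module.natCard_eq_pow_finrank (K := ZMod p) (V := V), Nat.card_zmod, hVd]
  have hcardH : Nat.card H = p ^ 2 - 1 := by rw [card_of_regular hreg hw, hV]
  have hAdvd : Nat.card A ∣ p - 1 := by
    have := card_dvd_of_invariant hfree A W₀ hW₀
    rwa [hWd, pow_one] at this
  -- the image of `H` in the automorphisms of `N`
  let φ : H →* MulAut (QuaternionGroup 2) :=
    (MulAut.congr e).toMonoidHom.comp MulAut.conjNormal
  have hker : φ.ker = A := by
    rw [← hCA]
    ext h
    rw [MonoidHom.mem_ker, Subgroup.mem_centralizer_iff]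
    have : φ h = 1 ↔ (MulAut.conjNormal h : MulAut N) = 1 := (MulAut.congr e).map_eq_one_iff
    rw [this]
    constructor
    · intro h1 n hn
      have h2 := congrArg (fun f : MulAut N => ((f ⟨n, hn⟩ : N) : H)) h1
      simp only [MulAut.conjNormal_apply, MulAut.one_apply] at h2
      exact (mul_inv_eq_iff_eq_mul.1 h2).symm
    · intro h1
      refine MulEquiv.ext fun n => Subtype.ext ?_
      rw [MulAut.conjNormal_apply, MulAut.one_apply, ← h1 n n.2, mul_inv_cancel_right]
  obtain ⟨o, s, hk, ho, ho2, ho0, hs0, hs⟩ := card_quaternion_aut φ.range fun y => by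
    refine ⟨(e.symm y : H), ?_⟩
    refine MulEquiv.ext fun x => ?_
    change e (MulAut.conjNormal ((e.symm y : N) : H) (e.symm x)) = y * x * y⁻¹
    rw [show MulAut.conjNormal ((e.symm y : N) : H) (e.symm x) = e.symm y * e.symm x * (e.symm y)⁻¹
      from Subtype.ext (MulAut.conjNormal_apply _ _)]
    simp
  have hmul : o * s * Nat.card A = p ^ 2 - 1 := by
    rw [← hk, ← Subgroup.index_ker, hker, Subgroup.index_mul_card, hcardH]
  obtain ⟨t, ht⟩ := hAdvd
  have hAeq : o * s = t * (p + 1) := by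
    refine Nat.eq_of_mul_eq_mul_right (Nat.card_pos (α := A)) ?_
    rw [hmul]
    obtain ⟨m, hm⟩ : ∃ m, p = m + 1 := ⟨p - 1, by have := (Fact.out : p.Prime).pos; omega⟩
    subst hm
    rw [Nat.add_sub_cancel] at ht
    rw [Nat.sub_eq_iff_eq_add (Nat.one_le_pow _ _ (by omega))]
    rw [show t * (m + 1 + 1) * Nat.card A = (Nat.card A * t) * (m + 1 + 1) by ring, ← ht]
    ring
  by_cases hp3 : p = 3
  · exfalso
    subst hp3
    -- `H` is quaternion of order 8, whose cyclic subgroups of order 4 are normal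
    have hNH : N = ⊤ := Subgroup.eq_top_of_card_eq N (by
      rw [hcardH, Nat.card_congr e.toEquiv, Nat.card_eq_fintype_card, QuaternionGroup.card]; norm_num)
    let i : N := e.symm (a 1)
    have hord : orderOf (i : H) = 4 := by
      rw [Subgroup.orderOf_coe, MulEquiv.orderOf_eq, QuaternionGroup.orderOf_a_one]
    haveI : (Subgroup.zpowers (i : H)).Normal := Subgroup.normal_of_index_eq_two (by
      have h8 := Subgroup.index_mul_card (Subgroup.zpowers (i : H))
      rw [Nat.card_zpowers, hord, hcardH] at h8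
      norm_num at h8
      omega)
    have hAle : A ≤ Subgroup.zpowers (i : H) := by
      intro x hx
      obtain ⟨c, hc⟩ := hscal x hx
      have hLx : ∀ y : H, x * y = y * x := fun y => Subtype.ext (LinearEquiv.ext fun v => by
        change (x : V ≃ₗ[ZMod 3] V) ((y : V ≃ₗ[ZMod 3] V) v) = (y : V ≃ₗ[ZMod 3] V) ((x : V ≃ₗ[ZMod 3] V) v)
        rw [hc, hc, map_smul])
      have hxN : x ∈ N := hNH ▸ Subgroup.mem_top x
      have h4 : ∀ q : QuaternionGroup 2, (∀ r, q * r = r * q) → ∃ m : Fin 4, q = a 1 ^ (m : ℕ) := by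
        decide
      obtain ⟨m, hm⟩ := h4 (e ⟨x, hxN⟩) fun r => by
        apply e.symm.injective
        rw [map_mul, map_mul, e.symm_apply_apply]
        exact Subtype.ext (hLx _)
      refine ⟨((m : ℕ) : ℤ), ?_⟩
      have h5 := congrArg (fun q => ((e.symm q : N) : H)) hm
      simp only [e.symm_apply_apply, map_pow, SubmonoidClass.coe_pow] at h5
      exact (zpow_natCast (i : H) m).trans h5.symm
    have := hAmax _ inferInstance IsCyclic.isMulCommutative hAle
    have h6 := Nat.card_zpowers (i : H)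
    rw [this, hord] at h6
    rw [h6] at ht
    omega
  have hp5 : 5 ≤ p := by
    have h2 := (Fact.out : p.Prime).two_le
    rcases Nat.lt_or_ge p 5 with hlt5 | hge
    · interval_cases p
      · exact absurd rfl hp2
      · exact absurd rfl hp3
      · exact absurd (Fact.out : Nat.Prime 4) (by norm_num)
    · exact hge
  rw [hV]
  have hdvd : p + 1 ∣ o * s := ⟨t, by rw [hAeq, mul_comm]⟩
  have hs' : s = 1 ∨ s = 2 ∨ s = 4 := by
    have := Nat.le_of_dvd (by norm_num) hs
    interval_cases s <;> omega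
  have hple : p + 1 ≤ o * s := Nat.le_of_dvd (Nat.mul_pos ho0 hs0) hdvd
  have hp : p = 5 ∨ p = 7 ∨ p = 11 ∨ p = 23 := by
    have hbound : p ≤ 23 := by rcases hs' with rfl | rfl | rfl <;> omega
    have hpr := (Fact.out : p.Prime)
    interval_cases p <;> first | omega | (exfalso; revert hpr; norm_num)
    all_goals (exfalso; interval_cases o <;> rcases hs' with rfl | rfl | rfl <;> omega)
  rcases hp with rfl | rfl | rfl | rfl <;> norm_num

end Cfsg.Agent.H36
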