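import Mathlib
import Cfsg.Agent.H36.FpfSchur
import Cfsg.Agent.H36.FpfType2
import Cfsg.Agent.H36.SL25

/-!
# Non-solvable groups regular on nonzero vectors
-/

set_option linter.style.haveILetI false

namespace Cfsg.Agent.H36

open SL25

/-- A group with a perfect nontrivial normal subgroup when it is not soluble. -/
theorem exists_perfect_normal {H : Type*} [Group H] [Finite H] (h : ¬ Group.IsSolvable H) :
    ∃ N : Subgroup H, N.Normal ∧ N ≠ ⊥ ∧ commutator N = ⊤ := by
  have hmono : ∀ n, derivedSeries H (n + 1) ≤ derivedSeries H n :=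
    fun n => derivedSeries_antitone H n.le_succ
  obtain ⟨n, hn⟩ : ∃ n, derivedSeries H (n + 1) = derivedSeries H n := by
    by_contra hcon
    push Not at hcon
    have key : ∀ n, Nat.card (derivedSeries H n) + n ≤ Nat.card H := by
      intro n
      induction n with
      | zero => simp
      | succ n ih =>
        have h1 : Nat.card (derivedSeries H (n + 1)) < Nat.card (derivedSeries H n) :=
          Nat.lt_of_not_le fun hge => hcon n (Subgroup.eq_of_le_of_card_ge (hmono n) hge)
        omega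
    have := key (Nat.card H + 1)
    omega
  refine ⟨derivedSeries H n, derivedSeries_normal H n, ?_, ?_⟩
  · intro h0
    exact h ((Group.isSolvable_def H).2 ⟨n, h0⟩)
  · apply Subgroup.map_injective (Subgroup.subtype_injective (derivedSeries H n))
    rw [Subgroup.map_subtype_commutator, ← MonoidHom.range_eq_map, Subgroup.range_subtype]
    rw [← derivedSeries_succ]
    exact hn

theorem not_comm_of_equiv {H : Type*} [Group H] {N : Subgroup H} (e : N ≃* L) :
    ¬ IsMulCommutative N := by
  intro hc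
  have h : uT 1 * lT 1 = lT 1 * uT 1 := by
    obtain ⟨x, hx⟩ := e.surjective (uT 1)
    obtain ⟨y, hy⟩ := e.surjective (lT 1)
    rw [← hx, ← hy, ← map_mul, ← map_mul, hc.is_comm.comm x y]
  exact absurd (congrArg quad h) (by rw [quad_mul, quad_mul]; decide)

/-- A coprime cyclic piece of the centraliser splits off. -/
theorem product_of_centraliser {H : Type*} [Group H] [Finite H] (N : Subgroup H) (e : N ≃* L)
    (r : ℕ) (hr : Nat.card (Subgroup.centralizer (N : Set H)) = 2 * r)
    (hH : Nat.card H = 120 * r) (hco : Nat.Coprime 120 r)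
    (hcyc : IsCyclic (Subgroup.centralizer (N : Set H))) :
    Nonempty (H ≃* L × Multiplicative (ZMod r)) := by
  obtain ⟨g, hg⟩ := hcyc.exists_generator
  have hgo : orderOf g = 2 * r := hr ▸ orderOf_eq_card_of_forall_mem_zpowers hg
  have hr0 : r ≠ 0 := by rintro rfl; simp at hco
  set M : Subgroup H := Subgroup.zpowers ((g : H) ^ 2) with hM
  have hMo : orderOf ((g : H) ^ 2) = r := by
    rw [orderOf_pow' _ two_ne_zero, Subgroup.orderOf_coe, hgo,
      Nat.gcd_eq_right (Dvd.intro r rfl), Nat.mul_div_cancel_left _ two_pos]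
  have hMc : Nat.card M = r := by rw [hM, Nat.card_zpowers, hMo]
  have hMC : M ≤ Subgroup.centralizer (N : Set H) :=
    Subgroup.zpowers_le.2 (pow_mem g.2 2)
  let f : N × M →* H := MonoidHom.noncommCoprod N.subtype M.subtype fun n x =>
    Subgroup.mem_centralizer_iff.1 (hMC x.2) n n.2
  have hNc : Nat.card N = 120 := by rw [Nat.card_congr e.toEquiv, SL25.card_L]
  have hbot : N ⊓ M = ⊥ :=
    disjoint_iff.1 (Subgroup.disjoint_of_coprime_natCard (by rw [hNc, hMc]; exact hco))
  have hinj : Function.Injective f := by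
    rw [injective_iff_map_eq_one]
    rintro ⟨n, x⟩ h
    have h1 : (n : H) * x = 1 := h
    have h2 : (n : H) ∈ N ⊓ M := ⟨n.2, by
      rw [eq_inv_of_mul_eq_one_left h1]; exact M.inv_mem x.2⟩
    rw [hbot, Subgroup.mem_bot] at h2
    rw [h2, one_mul] at h1
    exact Prod.ext (Subtype.ext h2) (Subtype.ext h1)
  have hbij : Function.Bijective f := (Nat.bijective_iff_injective_and_card _).2
    ⟨hinj, by rw [Nat.card_prod, hNc, hMc, hH]⟩
  haveI : IsCyclic M := hM ▸ Subgroup.isCyclic_zpowers _
  exact ⟨(MulEquiv.ofBijective f hbij).symm.trans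
    (MulEquiv.prodCongr e (mulEquivOfCyclicCardEq (by
      rw [hMc, Nat.card_congr Multiplicative.toAdd, Nat.card_zmod])))⟩

variable {p : ℕ} [Fact p.Prime] {V : Type*} [AddCommGroup V] [Module (ZMod p) V] [Finite V]
  {H : Subgroup (V ≃ₗ[ZMod p] V)}

/-- The centraliser of a non-abelian normal subgroup lives in the units of a field `F_q` over
which `V` has dimension at least two. -/
theorem exists_field_degree
    (hreg : ∀ v w : V, v ≠ 0 → w ≠ 0 → ∃! h : H, (h : V ≃ₗ[ZMod p] V) v = w)
    (N : Subgroup H) [N.Normal] (hna : ¬ IsMulCommutative N) [Nontrivial V] :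
    ∃ q m k : ℕ, q = p ^ k ∧ 0 < k ∧ 2 ≤ m ∧ Nat.card V = q ^ m ∧
      Nat.card (Subgroup.centralizer (N : Set H)) ∣ q - 1 := by
  classical
  let Lm : H → Module.End (ZMod p) V := fun h => ((h : V ≃ₗ[ZMod p] V) : V →ₗ[ZMod p] V)
  have hL : ∀ a b : H, Lm (a * b) = Lm a * Lm b := fun a b => rfl
  have hLinj : Function.Injective Lm := fun a b h =>
    Subtype.ext (LinearEquiv.toLinearMap_injective h)
  let S : Set (Module.End (ZMod p) V) := Lm '' (N : Set H)
  have hirr : ∀ W : Submodule (ZMod p) V, (∀ s ∈ S, ∀ v ∈ W, s v ∈ W) → W = ⊥ ∨ W = ⊤ :=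
    fun W hW => irreducible_of_normal hreg N hna W fun n hn v hv => hW _ ⟨n, hn, rfl⟩ v hv
  let E : Subring (Module.End (ZMod p) V) := Subring.centralizer S
  haveI : Finite (Module.End (ZMod p) V) := Finite.of_injective _ DFunLike.coe_injective
  haveI : Finite E := inferInstance
  have hinj : ∀ a : E, a ≠ 0 → Function.Injective (a : Module.End (ZMod p) V) := by
    intro a ha
    rw [← LinearMap.ker_eq_bot]
    refine (hirr _ fun s hs v hv => ?_).resolve_right fun h => ha (Subtype.ext ?_)
    · have hc := LinearMap.congr_fun (Subring.mem_centralizer_iff.1 a.2 s hs) v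
      rw [Module.End.mul_apply, Module.End.mul_apply, LinearMap.mem_ker.1 hv, map_zero] at hc
      exact LinearMap.mem_ker.2 hc.symm
    · exact LinearMap.ker_eq_top.1 h
  haveI : NoZeroDivisors E := ⟨fun {a b} h => or_iff_not_imp_left.2 fun ha => Subtype.ext
    (LinearMap.ext fun v => hinj a ha (by
      have h' : (a : Module.End (ZMod p) V) ((b : Module.End (ZMod p) V) v) = 0 :=
        LinearMap.congr_fun (congrArg Subtype.val h) v
      rw [h']; simp))⟩
  haveI : Nontrivial E := ⟨⟨0, 1, fun h => by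
    obtain ⟨v, hv⟩ := exists_ne (0 : V)
    exact hv (LinearMap.congr_fun (congrArg Subtype.val h) v).symm⟩⟩
  haveI : IsDomain E := NoZeroDivisors.to_isDomain E
  letI : Field E := (Finite.isDomain_to_isField E).toField
  letI : Module E V := Module.compHom V E.subtype
  haveI : Module.Finite E V := Module.Finite.of_finite
  have hcard : Nat.card V = Nat.card E ^ Module.finrank E V :=
    Module.natCard_eq_pow_finrank
  have hm : 2 ≤ Module.finrank E V := by
    by_contra hlt
    have h1 : Module.finrank E V = 1 := by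
      have : 0 < Module.finrank E V := Module.finrank_pos
      omega
    obtain ⟨v₀, hv₀, hspan⟩ := finrank_eq_one_iff'.1 h1
    refine hna ⟨⟨fun a b => Subtype.ext ?_⟩⟩
    have happ : ∀ (n : N) (c : E) (v : V),
        Lm (n : H) (c • v) = c • Lm (n : H) v := fun n c v =>
      LinearMap.congr_fun (Subring.mem_centralizer_iff.1 c.2 _ ⟨n, n.2, rfl⟩) v
    apply hLinj
    rw [Subgroup.coe_mul, Subgroup.coe_mul, hL, hL]
    refine LinearMap.ext fun v => ?_
    obtain ⟨c, rfl⟩ := hspan v
    obtain ⟨ca, hca⟩ := hspan (Lm (a : H) v₀)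
    obtain ⟨cb, hcb⟩ := hspan (Lm (b : H) v₀)
    rw [Module.End.mul_apply, Module.End.mul_apply, happ, happ, happ, happ, ← hcb, happ, ← hca,
      happ, ← hcb, smul_smul ca, smul_smul cb, mul_comm ca cb]
  haveI : CharP E p := by
    refine (CharP.charP_iff_prime_eq_zero (Fact.out : p.Prime)).2 (Subtype.ext (LinearMap.ext fun v => ?_))
    simp only [SubringClass.coe_natCast, ZeroMemClass.coe_zero, LinearMap.zero_apply]
    rw [show ((p : Module.End (ZMod p) V)) v = (p : ZMod p) • v from by
      rw [Nat.cast_smul_eq_nsmul]; rfl]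
    simp
  haveI := Fintype.ofFinite E
  obtain ⟨k, -, hk⟩ := FiniteField.card E p
  refine ⟨Nat.card E, Module.finrank E V, k, by rw [Nat.card_eq_fintype_card, hk], k.pos, hm, hcard, ?_⟩
  let ι : Subgroup.centralizer (N : Set H) →* E :=
    { toFun := fun c => ⟨Lm (c : H), Subring.mem_centralizer_iff.2 (by
        rintro _ ⟨n, hn, rfl⟩
        rw [← hL, ← hL, Subgroup.mem_centralizer_iff.1 c.2 n hn])⟩
      map_one' := rfl
      map_mul' := fun a b => rfl }
  have hι : Function.Injective ι := fun a b h =>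
    Subtype.ext (hLinj (congrArg Subtype.val h))
  have h1 := Subgroup.card_dvd_of_injective ι.toHomUnits (fun a b h => hι (congrArg Units.val h))
  rwa [Nat.card_units] at h1

/-- The arithmetic: only three fields survive, with the order of the centraliser. -/
theorem degree_arith {p k m c i : ℕ} (hp : p.Prime) (hk : 0 < k) (hm : 2 ≤ m)
    (hc : c ∣ p ^ k - 1) (hci : c * i = (p ^ k) ^ m - 1) (hi : i ∣ 120)
    (h120 : 120 ∣ (p ^ k) ^ m - 1) :
    m = 2 ∧ ((p ^ k = 11 ∧ (c * i = 120)) ∨ (p ^ k = 19 ∧ c * i = 360) ∨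
      (p ^ k = 29 ∧ c * i = 840) ∨ (p ^ k = 59 ∧ c * i = 3480)) := by
  have hq2 : 2 ≤ p ^ k := hp.two_le.trans (Nat.le_self_pow (by omega) p)
  set q := p ^ k with hq
  have hcop : ∀ r : ℕ, r ∣ 120 → r.Prime → p ≠ r := by
    intro r hr hrp hpr
    have h1 : r ∣ q ^ m - 1 := hr.trans h120
    have h2 : r ∣ q ^ m := by
      rw [hq, ← hpr, ← pow_mul]
      exact dvd_pow_self p (Nat.mul_ne_zero (by omega) (by omega))
    have h3 : r ∣ 1 := by
      have := Nat.dvd_sub h2 h1
      rwa [Nat.sub_sub_self (Nat.one_le_pow _ _ (by omega))] at this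
    exact hrp.one_lt.ne' (Nat.dvd_one.1 h3)
  have hp7 : 7 ≤ p := by
    have h2 := hcop 2 (by norm_num) (by norm_num)
    have h3 := hcop 3 (by norm_num) (by norm_num)
    have h5 := hcop 5 (by norm_num) (by norm_num)
    have := hp.two_le
    by_contra h
    interval_cases p <;> first | omega | norm_num at hp
  have hq7 : 7 ≤ q := hp7.trans (Nat.le_self_pow (by omega) p)
  -- the geometric series divides `120`
  have hdvd : q ^ m - 1 ∣ (q - 1) * 120 := hci ▸ Nat.mul_dvd_mul hc hi
  have hm2 : m = 2 := by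
    by_contra hne
    have h3 : 3 ≤ m := by omega
    have hle := Nat.le_of_dvd (Nat.mul_pos (by omega) (by norm_num)) hdvd
    rcases Nat.lt_or_ge m 4 with h4 | h4
    · have hm3 : m = 3 := by omega
      subst hm3
      have hsq : (q - 1) * (q ^ 2 + q + 1) = q ^ 3 - 1 := by
        obtain ⟨r, hr⟩ : ∃ r, q = r + 1 := ⟨q - 1, by omega⟩
        rw [hr]
        refine (Nat.sub_eq_of_eq_add ?_).symm
        simp only [Nat.add_sub_cancel]
        ring
      rw [← hsq] at hdvd
      have hd : q ^ 2 + q + 1 ∣ 120 := Nat.dvd_of_mul_dvd_mul_left (by omega) hdvd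
      have hle' := Nat.le_of_dvd (by norm_num) hd
      have hq10 : q ≤ 10 := by nlinarith
      interval_cases q <;> norm_num at hd
    · have h5 : q ^ 4 ≤ q ^ m := Nat.pow_le_pow_right (by omega) h4
      have h6 : 120 * q + 1 < q ^ 4 := by
        calc 120 * q + 1 < 343 * q := by omega
          _ ≤ q ^ 3 * q := by
            apply Nat.mul_le_mul_right
            calc 343 = 7 ^ 3 := by norm_num
              _ ≤ q ^ 3 := Nat.pow_le_pow_left hq7 3
          _ = q ^ 4 := by ring
      have h7 : (q - 1) * 120 = 120 * q - 120 := by rw [Nat.sub_mul, mul_comm]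
      omega
  subst hm2
  refine ⟨rfl, ?_⟩
  have hsq : q ^ 2 - 1 = (q - 1) * (q + 1) := by
    rw [pow_two, mul_comm (q - 1), ← Nat.mul_self_sub_mul_self_eq]
  rw [hsq] at hdvd
  have hd : q + 1 ∣ 120 := Nat.dvd_of_mul_dvd_mul_left (by omega) hdvd
  have hq119 := Nat.le_of_dvd (by norm_num) hd
  have hpk : IsPrimePow q := ⟨p, k, hp.prime, hk, rfl⟩
  have hno : ∀ r : ℕ, r ∣ 120 → r.Prime → ¬ r ∣ q := fun r hr hrp hrq =>
    hcop r hr hrp ((Nat.prime_dvd_prime_iff_eq hrp hp).1 (hrp.dvd_of_dvd_pow hrq)).symm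
  have h2q := hno 2 (by norm_num) (by norm_num)
  have h3q := hno 3 (by norm_num) (by norm_num)
  have h5q := hno 5 (by norm_num) (by norm_num)
  have h119 : q ≠ 119 := by
    intro h
    have h7 := (Nat.prime_dvd_prime_iff_eq (by norm_num : Nat.Prime 7) hp).1
      ((by norm_num : Nat.Prime 7).dvd_of_dvd_pow (by rw [← hq, h]; norm_num : 7 ∣ p ^ k))
    have h17 := (Nat.prime_dvd_prime_iff_eq (by norm_num : Nat.Prime 17) hp).1
      ((by norm_num : Nat.Prime 17).dvd_of_dvd_pow (by rw [← hq, h]; norm_num : 17 ∣ p ^ k))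
    omega
  rw [hci]
  obtain ⟨t, ht⟩ := hd
  have ht15 : t ≤ 15 := by nlinarith
  have hq' : q = 7 ∨ q = 11 ∨ q = 19 ∨ q = 23 ∨ q = 29 ∨ q = 59 := by
    have ht0 : t ≠ 0 := by rintro rfl; simp at ht
    interval_cases t <;> omega
  rcases hq' with h | h | h | h | h | h <;> rw [h] at h120 ⊢ <;> simp at h120 ⊢

/-- The three non-solvable groups regular on the nonzero vectors. -/
theorem nonsolvable_degrees
    (hreg : ∀ v w : V, v ≠ 0 → w ≠ 0 → ∃! h : H, (h : V ≃ₗ[ZMod p] V) v = w) [Nontrivial V]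
    (N : Subgroup H) [N.Normal] (e : N ≃* L) :
    (Nat.card V = 121 ∧ Nonempty (H ≃* L)) ∨
    (Nat.card V = 841 ∧ Nonempty (H ≃* L × Multiplicative (ZMod 7))) ∨
    (Nat.card V = 3481 ∧ Nonempty (H ≃* L × Multiplicative (ZMod 29))) := by
  classical
  haveI : Finite H := linearSubgroup_finite
  obtain ⟨v₀, hv₀⟩ := exists_ne (0 : V)
  have hH := card_of_regular hreg hv₀
  have hfree : ∀ h : H, ∀ v : V, v ≠ 0 → (h : V ≃ₗ[ZMod p] V) v = v → h = 1 :=
    fun h v hv he => fpf_of_regular hreg hv he
  have hna := not_comm_of_equiv e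
  obtain ⟨q, m, k, hqk, hk, hm, hV, hC⟩ := exists_field_degree hreg N hna
  haveI hCc := centralizer_comm hreg N hna
  set C := Subgroup.centralizer (N : Set H) with hCdef
  haveI : IsCyclic C := isCyclic_of_fpf_linear hfree C
  obtain ⟨hC2, hidx⟩ : 2 ∣ Nat.card C ∧ (C.index = 120 ∨ (C.index = 60 ∧ N ⊔ C = ⊤)) :=
    centralizer_index N e
  have hCi : Nat.card C * C.index = q ^ m - 1 := by rw [Subgroup.card_mul_index, hH, hV]
  have hNc : Nat.card N = 120 := by rw [Nat.card_congr e.toEquiv, card_L]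
  have h120 : 120 ∣ q ^ m - 1 := by
    rw [← hV, ← hH, ← hNc]
    exact Subgroup.card_subgroup_dvd_card N
  subst hqk
  obtain ⟨hm2, hcases⟩ := degree_arith (Fact.out : p.Prime) hk hm hC hCi
    (by rcases hidx with h | ⟨h, -⟩ <;> rw [h]; norm_num) h120
  subst hm2
  -- the index is sixty
  have hsup : C.index = 60 ∧ N ⊔ C = ⊤ := by
    rcases hidx with h | h
    · exfalso
      rw [h] at hcases
      rcases hcases with ⟨-, h'⟩ | ⟨-, h'⟩ | ⟨-, h'⟩ | ⟨-, h'⟩ <;> omega
    · exact h
  rw [hsup.1] at hcases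
  -- no prime of `N` divides the centraliser twice
  have hdis : ∀ r : ℕ, r.Prime → r ≠ 2 → r ∣ Nat.card C → r ∣ 120 → False := by
    intro r hr hr2 hrC hr120
    haveI : Fact r.Prime := ⟨hr⟩
    obtain ⟨x, hx⟩ := exists_prime_orderOf_dvd_card' (G := C) r hrC
    obtain ⟨y, hy⟩ := exists_prime_orderOf_dvd_card' (G := N) r (hNc ▸ hr120)
    have hcomm : Commute (y : H) (x : H) := Subgroup.mem_centralizer_iff.1 x.2 y y.2
    set A : Subgroup H := Subgroup.closure ({(y : H), (x : H)} : Set H)
    haveI : IsMulCommutative A := Subgroup.isMulCommutative_closure (by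
      intro a ha b hb
      simp only [Set.mem_insert_iff, Set.mem_singleton_iff] at ha hb
      rcases ha with rfl | rfl <;> rcases hb with rfl | rfl
      · rfl
      · exact hcomm
      · exact hcomm.symm
      · rfl)
    haveI : IsCyclic A := isCyclic_of_fpf_linear hfree A
    have hxA : Subgroup.zpowers (x : H) ≤ A :=
      Subgroup.zpowers_le.2 (Subgroup.subset_closure (by simp))
    have hyA : Subgroup.zpowers (y : H) ≤ A :=
      Subgroup.zpowers_le.2 (Subgroup.subset_closure (by simp))
    -- cyclic of exponent `r`: of order `r`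
    have hpow : ∀ a : A, a ^ r = 1 := by
      rintro ⟨a, ha⟩
      induction ha using Subgroup.closure_induction with
      | mem z hz =>
        refine Subtype.ext ?_
        rcases hz with rfl | rfl
        · exact (Subgroup.coe_pow N y r).symm.trans (by rw [← hy, pow_orderOf_eq_one]; rfl)
        · exact (Subgroup.coe_pow C x r).symm.trans (by rw [← hx, pow_orderOf_eq_one]; rfl)
      | one => exact one_pow r
      | mul z w hz hw ihz ihw =>
        have hc : Commute (⟨z, hz⟩ : A) ⟨w, hw⟩ :=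
          (inferInstance : IsMulCommutative A).is_comm.comm _ _
        show ((⟨z, hz⟩ : A) * ⟨w, hw⟩) ^ r = 1
        rw [hc.mul_pow, ihz, ihw, one_mul]
      | inv z hz ih =>
        show ((⟨z, hz⟩ : A)⁻¹) ^ r = 1
        rw [inv_pow, ih, inv_one]
    have hAle : Nat.card A ≤ r := by
      rw [← IsCyclic.exponent_eq_card]
      exact Nat.le_of_dvd hr.pos (Monoid.exponent_dvd_of_forall_pow_eq_one hpow)
    have hAy : Subgroup.zpowers (y : H) = A := Subgroup.eq_of_le_of_card_ge hyA
      (by rw [Nat.card_zpowers, Subgroup.orderOf_coe, hy]; exact hAle)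
    have hAx : Subgroup.zpowers (x : H) = A := Subgroup.eq_of_le_of_card_ge hxA
      (by rw [Nat.card_zpowers, Subgroup.orderOf_coe, hx]; exact hAle)
    have hyC : (y : H) ∈ C :=
      Subgroup.zpowers_le.2 x.2 ((hAx.trans hAy.symm) ▸ Subgroup.mem_zpowers _)
    have hycen : y ∈ Subgroup.center N := Subgroup.mem_center_iff.2 fun z => Subtype.ext
      (Subgroup.mem_centralizer_iff.1 hyC z z.2)
    have h1 := Subgroup.orderOf_dvd_natCard _ hycen
    rw [Nat.card_congr (Subgroup.centerCongr e).toEquiv, card_center, hy] at h1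
    exact hr2 ((Nat.prime_dvd_prime_iff_eq hr Nat.prime_two).1 h1)
  rcases hcases with ⟨hq, hc⟩ | ⟨hq, hc⟩ | ⟨hq, hc⟩ | ⟨hq, hc⟩
  · refine Or.inl ⟨by rw [hV, hq]; norm_num, ?_⟩
    have hN : N = ⊤ := Subgroup.eq_top_of_card_eq _ (by rw [hNc, hH, hV, hq]; norm_num)
    exact ⟨(MulEquiv.subgroupCongr hN |>.trans Subgroup.topEquiv).symm.trans e⟩
  · exact (hdis 3 (by norm_num) (by norm_num) (by omega) (by norm_num)).elim
  · refine Or.inr (Or.inl ⟨by rw [hV, hq]; norm_num, ?_⟩)
    exact product_of_centraliser N e 7 (show Nat.card C = 2 * 7 by omega) (by rw [hH, hV, hq]; norm_num)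
      (by norm_num) inferInstance
  · refine Or.inr (Or.inr ⟨by rw [hV, hq]; norm_num, ?_⟩)
    exact product_of_centraliser N e 29 (show Nat.card C = 2 * 29 by omega) (by rw [hH, hV, hq]; norm_num)
      (by norm_num) inferInstance

end Cfsg.Agent.H36
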