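import Mathlib
import Cfsg.Agent.H36.FpfNonsolvable

/-!
# Reduction of the regular linear groups to perfect fixed-point-free groups

Both results take the recognition of perfect fixed-point-free groups as a hypothesis.
-/

set_option linter.style.haveILetI false

namespace Cfsg.Agent.H36

variable {p : ℕ} [Fact p.Prime] {V : Type*} [AddCommGroup V] [Module (ZMod p) V] [Finite V]
  {H : Subgroup (V ≃ₗ[ZMod p] V)}

/-- The form in which the recognition theorem for perfect fixed-point-free groups is used. -/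
def PerfectFpfRecognition (V : Type*) [AddCommGroup V] : Prop :=
  ∀ G : Subgroup (MulAut (Multiplicative V)), (∀ φ ∈ G, φ ≠ 1 → ∀ k, φ k = k → k = 1) →
    commutator G = ⊤ → G ≠ ⊥ → Nonempty (G ≃* SL25.L)

omit [Finite V] in
theorem sl25_of_perfect (hZ : PerfectFpfRecognition V) [Nontrivial V]
    (hfree : ∀ h : H, ∀ v : V, v ≠ 0 → (h : V ≃ₗ[ZMod p] V) v = v → h = 1)
    (N : Subgroup H) (hne : N ≠ ⊥) (hperf : commutator N = ⊤) : Nonempty (N ≃* SL25.L) := by
  set f := fpfAut H N
  have hinj : Function.Injective f := by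
    rw [injective_iff_map_eq_one]
    intro a ha
    obtain ⟨v, hv⟩ := exists_ne (0 : V)
    exact Subtype.ext (hfree a v hv
      (congrArg Multiplicative.toAdd (DFunLike.congr_fun ha (Multiplicative.ofAdd v))))
  let e : N ≃* f.range := MonoidHom.ofInjective hinj
  refine (hZ f.range ?_ ?_ ?_).map (fun g => e.trans g)
  · rintro _ ⟨a, rfl⟩ hne1 k hk
    by_contra hk1
    refine hne1 ?_
    have hfix : ((a : H) : V ≃ₗ[ZMod p] V) (Multiplicative.toAdd k) = Multiplicative.toAdd k :=
      congrArg Multiplicative.toAdd hk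
    have h1 : a = 1 := Subtype.ext (hfree a _ (fun h => hk1 (Multiplicative.toAdd.injective h)) hfix)
    rw [h1, map_one]
  · have h2 : (⊤ : Subgroup N).map e.toMonoidHom = ⊤ :=
      Subgroup.map_top_of_surjective _ e.surjective
    rw [commutator_def, ← h2, ← Subgroup.map_commutator, ← commutator_def, hperf, h2]
  · intro h
    rw [MonoidHom.range_eq_bot_iff] at h
    refine hne ((Subgroup.eq_bot_iff_forall _).2 fun x hx => ?_)
    exact congrArg Subtype.val (hinj (a₁ := ⟨x, hx⟩) (a₂ := 1) (by rw [h]; rfl))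

/-- A minimal non-abelian normal subgroup is quaternion or SL(2,5). -/
theorem quaternion_or_sl25 (hZ : PerfectFpfRecognition V)
    (hreg : ∀ v w : V, v ≠ 0 → w ≠ 0 → ∃! h : H, (h : V ≃ₗ[ZMod p] V) v = w) [Nontrivial V]
    (A : Subgroup H) [A.Normal] (hAc : IsMulCommutative A)
    (hAmax : ∀ B : Subgroup H, B.Normal → IsMulCommutative B → A ≤ B → B = A)
    (N : Subgroup H) [N.Normal] (hNle : N ≤ Subgroup.centralizer (A : Set H))
    (hNna : ¬ IsMulCommutative N)
    (hNmin : ∀ M : Subgroup H, M.Normal → M ≤ N → ¬ IsMulCommutative M → M = N) :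
    Nonempty (N ≃* QuaternionGroup 2) ∨ Nonempty (N ≃* SL25.L) := by
  have hfree : ∀ h : H, ∀ v : V, v ≠ 0 → (h : V ≃ₗ[ZMod p] V) v = v → h = 1 :=
    fun h v hv he => fpf_of_regular hreg hv he
  refine (quaternion_or_perfect hfree A hAc hAmax N hNle hNna hNmin).imp_right fun h => ?_
  refine sl25_of_perfect hZ hfree N (fun hb => hNna ?_) h
  subst hb
  infer_instance

/-- Non-solvable groups regular on nonzero vectors. -/
theorem nonsolvable_regular (hZ : PerfectFpfRecognition V)
    (hreg : ∀ v w : V, v ≠ 0 → w ≠ 0 → ∃! h : H, (h : V ≃ₗ[ZMod p] V) v = w)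
    (hsolv : ¬ Group.IsSolvable H) :
    (Nat.card V = 121 ∧ Nonempty (H ≃* SL25.L)) ∨
    (Nat.card V = 841 ∧ Nonempty (H ≃* SL25.L × Multiplicative (ZMod 7))) ∨
    (Nat.card V = 3481 ∧ Nonempty (H ≃* SL25.L × Multiplicative (ZMod 29))) := by
  haveI : Finite H := linearSubgroup_finite
  rcases subsingleton_or_nontrivial V with h | h
  · exfalso
    apply hsolv
    haveI : Subsingleton H :=
      ⟨fun a b => Subtype.ext (LinearEquiv.ext fun v => Subsingleton.elim _ _)⟩
    exact Group.isSolvable_of_comm fun a b => Subsingleton.elim _ _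
  have hfree : ∀ g : H, ∀ v : V, v ≠ 0 → (g : V ≃ₗ[ZMod p] V) v = v → g = 1 :=
    fun g v hv he => fpf_of_regular hreg hv he
  obtain ⟨N, hN, hne, hperf⟩ := exists_perfect_normal hsolv
  obtain ⟨e⟩ := sl25_of_perfect hZ hfree N hne hperf
  exact nonsolvable_degrees hreg N e

end Cfsg.Agent.H36
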