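import Mathlib

/-!
# Generously multiply transitive groups
-/

open MulAction
open scoped Pointwise
set_option linter.style.haveILetI false

namespace Cfsg.Agent.H36

variable {α : Type*} [DecidableEq α] {G : Subgroup (Equiv.Perm α)} {k : ℕ}

/-- In a generously `k`-transitive group any two `k`-sets are equivalent. -/
theorem generous_exists_smul_eq
    (hgen : ∀ s : Finset α, s.card = k + 1 → ∀ σ : Equiv.Perm ↥s, ∃ g ∈ G, ∀ x : ↥s, g (x : α) = σ x)
    (A B : Finset α) (hA : A.card = k) (hB : B.card = k) : ∃ g ∈ G, g • A = B := by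
  induction hd : (A \ B).card generalizing A with
  | zero =>
    rw [Finset.card_eq_zero, Finset.sdiff_eq_empty_iff_subset] at hd
    exact ⟨1, G.one_mem, by rw [one_smul]; exact Finset.eq_of_subset_of_card_le hd (by omega)⟩
  | succ d ih =>
    obtain ⟨a, ha⟩ := Finset.card_pos.1 (by omega : 0 < (A \ B).card)
    rw [Finset.mem_sdiff] at ha
    obtain ⟨b, hb⟩ : ∃ b, b ∈ B \ A := Finset.card_pos.1 (by
      rw [← Finset.card_sdiff_comm (hA.trans hB.symm)]; omega)
    rw [Finset.mem_sdiff] at hb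
    have hs : (insert b A).card = k + 1 := by rw [Finset.card_insert_of_notMem hb.2, hA]
    obtain ⟨g, hg, hgx⟩ := hgen _ hs
      (Equiv.swap ⟨a, Finset.mem_insert_of_mem ha.1⟩ ⟨b, Finset.mem_insert_self _ _⟩)
    have hga : g a = b := by
      simpa using hgx ⟨a, Finset.mem_insert_of_mem ha.1⟩
    have hgo : ∀ x ∈ A, x ≠ a → g x = x := by
      intro x hx hxa
      rw [hgx ⟨x, Finset.mem_insert_of_mem hx⟩, Equiv.swap_apply_of_ne_of_ne]
      · exact fun h => hxa (congrArg Subtype.val h)
      · intro h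
        have hxb : x = b := congrArg Subtype.val h
        exact hb.2 (hxb ▸ hx)
    have himg : g • A = insert b (A.erase a) := by
      ext y
      simp only [Finset.mem_smul_finset, Equiv.Perm.smul_def, Finset.mem_insert, Finset.mem_erase]
      constructor
      · rintro ⟨x, hx, rfl⟩
        by_cases hxa : x = a
        · exact Or.inl (hxa ▸ hga)
        · rw [hgo x hx hxa]; exact Or.inr ⟨hxa, hx⟩
      · rintro (rfl | ⟨h1, h2⟩)
        · exact ⟨a, ha.1, hga⟩
        · exact ⟨y, h2, hgo y h2 h1⟩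
    have hsub : (g • A) \ B = (A \ B).erase a := by
      rw [himg]; ext y
      simp only [Finset.mem_sdiff, Finset.mem_insert, Finset.mem_erase]
      constructor
      · rintro ⟨rfl | ⟨h1, h2⟩, h3⟩
        · exact absurd hb.1 h3
        · exact ⟨h1, h2, h3⟩
      · rintro ⟨h1, h2, h3⟩; exact ⟨Or.inr ⟨h1, h2⟩, h3⟩
    obtain ⟨h, hh, hhB⟩ := ih (g • A) (by rw [Finset.card_smul_finset, hA]) (by
      rw [hsub, Finset.card_erase_of_mem (Finset.mem_sdiff.2 ha)]; omega)
    exact ⟨h * g, G.mul_mem hh hg, by rw [mul_smul, hhB]⟩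

variable [Fintype α]

/-- In a generously `k`-transitive group of degree `> k` any permutation of a `k`-set is
induced. -/
theorem generous_exists_perm (hk : k < Fintype.card α)
    (hgen : ∀ s : Finset α, s.card = k + 1 → ∀ σ : Equiv.Perm ↥s, ∃ g ∈ G, ∀ x : ↥s, g (x : α) = σ x)
    (s : Finset α) (hs : s.card = k) (σ : Equiv.Perm ↥s) :
    ∃ g ∈ G, ∀ x : ↥s, g (x : α) = σ x := by
  obtain ⟨b, hb⟩ : ∃ b, b ∉ s := by
    by_contra h
    push Not at h
    rw [Finset.eq_univ_of_forall h, Finset.card_univ] at hs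
    omega
  let e : ↥(insert b s) ≃ Option ↥s := Finset.subtypeInsertEquivOption hb
  obtain ⟨g, hg, hgx⟩ := hgen (insert b s) (by rw [Finset.card_insert_of_notMem hb, hs])
    ((e.trans σ.optionCongr).trans e.symm)
  refine ⟨g, hg, fun x => ?_⟩
  rw [hgx ⟨x, Finset.mem_insert_of_mem x.2⟩]
  have hne : (x : α) ≠ b := fun h => hb (h ▸ x.2)
  have hex : e ⟨x, Finset.mem_insert_of_mem x.2⟩ = some x := by
    simp [e, Finset.subtypeInsertEquivOption, hne]
  simp only [Equiv.trans_apply, hex, Equiv.optionCongr_apply, Option.map_some]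
  rfl

/-- A generously `k`-transitive group is `k`-transitive. -/
theorem generous_isMultiplyPretransitive (hk : k < Fintype.card α)
    (hgen : ∀ s : Finset α, s.card = k + 1 → ∀ σ : Equiv.Perm ↥s, ∃ g ∈ G, ∀ x : ↥s, g (x : α) = σ x) :
    MulAction.IsMultiplyPretransitive G α k := by
  refine ⟨fun u v => ?_⟩
  obtain ⟨g, hg, hgA⟩ := generous_exists_smul_eq hgen (Finset.univ.map u) (Finset.univ.map v)
    (by simp) (by simp)
  have hmem : ∀ i, g (u i) ∈ Finset.univ.map v := fun i => by
    rw [← hgA]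
    exact Finset.smul_mem_smul_finset (a := g) (by simp)
  let eu : Fin k ≃ ↥(Finset.univ.map v) := Equiv.ofBijective (fun i => ⟨g (u i), hmem i⟩)
    ((Fintype.bijective_iff_injective_and_card _).2
      ⟨fun i j h => u.injective (g.injective (congrArg Subtype.val h)),
        by rw [Fintype.card_coe, Finset.card_map, Finset.card_univ]⟩)
  let ev : Fin k ≃ ↥(Finset.univ.map v) := Equiv.ofBijective (fun i => ⟨v i, by simp⟩)
    ((Fintype.bijective_iff_injective_and_card _).2
      ⟨fun i j h => v.injective (congrArg Subtype.val h),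
        by rw [Fintype.card_coe, Finset.card_map, Finset.card_univ]⟩)
  obtain ⟨h, hh, hhx⟩ := generous_exists_perm hk hgen (Finset.univ.map v) (by simp) (eu.symm.trans ev)
  refine ⟨⟨h * g, G.mul_mem hh hg⟩, Function.Embedding.ext fun i => ?_⟩
  have h1 := hhx (eu i)
  simp only [Equiv.trans_apply, Equiv.symm_apply_apply] at h1
  rw [Function.Embedding.smul_apply]
  exact h1

/-- Orbits of the setwise stabiliser of a `k`-set outside it are orbits of its pointwise
stabiliser. -/
theorem generous_pointwise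
    (hgen : ∀ s : Finset α, s.card = k + 1 → ∀ σ : Equiv.Perm ↥s, ∃ g ∈ G, ∀ x : ↥s, g (x : α) = σ x)
    (s : Finset α) (hs : s.card = k) (a b : α) (ha : a ∉ s) (hb : b ∉ s)
    (h : ∃ g ∈ G, g • s = s ∧ g a = b) : ∃ g ∈ G, (∀ x ∈ s, g x = x) ∧ g a = b := by
  obtain ⟨g, hg, hgs, rfl⟩ := h
  have hmem : ∀ x : ↥s, g (x : α) ∈ s := fun x =>
    hgs.le (Finset.smul_mem_smul_finset (a := g) x.2)
  let π : Equiv.Perm ↥s := Equiv.ofBijective (fun x => ⟨g x, hmem x⟩)
    ((Fintype.bijective_iff_injective_and_card _).2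
      ⟨fun i j h => Subtype.ext (g.injective (congrArg Subtype.val h)), rfl⟩)
  let e : ↥(insert (g a) s) ≃ Option ↥s := Finset.subtypeInsertEquivOption hb
  obtain ⟨h, hh, hhx⟩ := hgen (insert (g a) s) (by rw [Finset.card_insert_of_notMem hb, hs])
    ((e.trans π.symm.optionCongr).trans e.symm)
  refine ⟨h * g, G.mul_mem hh hg, fun x hx => ?_, ?_⟩
  · rw [Equiv.Perm.mul_apply]
    have h1 := hhx ⟨g x, Finset.mem_insert_of_mem (hmem ⟨x, hx⟩)⟩
    have hne : g x ≠ g a := fun h => ha (g.injective h ▸ hx)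
    have hex : e ⟨g x, Finset.mem_insert_of_mem (hmem ⟨x, hx⟩)⟩ = some (π ⟨x, hx⟩) := by
      simp [e, π, Finset.subtypeInsertEquivOption, hne]
    simp only [Equiv.trans_apply, hex, Equiv.optionCongr_apply, Option.map_some,
      Equiv.symm_apply_apply] at h1
    exact h1
  · rw [Equiv.Perm.mul_apply]
    have h1 := hhx ⟨g a, Finset.mem_insert_self _ _⟩
    have hex : e ⟨g a, Finset.mem_insert_self _ _⟩ = none := by
      simp [e, Finset.subtypeInsertEquivOption]
    simp only [Equiv.trans_apply, hex, Equiv.optionCongr_apply, Option.map_none] at h1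
    exact h1

/-- Neumann: in a generously `k`-transitive group, among `p ≤ k` orbits of the stabiliser of a
`k`-set one has length divisible by `p`. -/
theorem generous_exists_dvd_orbit (hk : k < Fintype.card α)
    (hgen : ∀ s : Finset α, s.card = k + 1 → ∀ σ : Equiv.Perm ↥s, ∃ g ∈ G, ∀ x : ↥s, g (x : α) = σ x)
    {p : ℕ} (hp : p.Prime) (hpk : p ≤ k) (Γ : Finset α) (hΓ : Γ.card = k) (f : Fin p → α)
    (hf : ∀ i, f i ∉ Γ)
    (hdist : ∀ i j, i ≠ j → f j ∉ MulAction.orbit (fixingSubgroup G (Γ : Set α)) (f i)) :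
    ∃ i, p ∣ Nat.card (MulAction.orbit (fixingSubgroup G (Γ : Set α)) (f i)) := by
  haveI : Fact p.Prime := ⟨hp⟩
  by_contra hall
  push Not at hall
  obtain ⟨C, hC, hCcard⟩ := Finset.exists_subset_card_eq (s := Γ) (n := p) (by omega)
  set R := Γ \ C with hR
  have hRcard : R.card = k - p := by rw [hR, Finset.card_sdiff_of_subset hC]; omega
  let S : Subgroup G :=
    MulAction.stabilizer G Γ ⊓ fixingSubgroup G (R : Set α)
  set H := fixingSubgroup G (Γ : Set α) with hH
  have hHS : H ≤ S := by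
    intro g hg
    rw [hH, mem_fixingSubgroup_iff] at hg
    refine ⟨?_, (mem_fixingSubgroup_iff G).2 fun x hx => hg x (Finset.mem_coe.2
      (Finset.sdiff_subset (Finset.mem_coe.1 hx)))⟩
    change g • Γ = Γ
    ext y
    rw [Finset.mem_smul_finset]
    exact ⟨fun ⟨x, hx, hxy⟩ => hxy ▸ (hg x hx).symm ▸ hx, fun hy => ⟨y, hy, hg y hy⟩⟩
  have horb : ∀ (s : S) (x : α), x ∉ Γ → (s : G) • x ∈ MulAction.orbit H x := by
    intro s x hx
    have hsΓ : (s : G) • Γ = Γ := s.2.1
    have hsx : (s : G) • x ∉ Γ := fun h => hx (by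
      rw [← hsΓ] at h; exact (Finset.smul_mem_smul_finset_iff (s : G)).1 h)
    obtain ⟨g, hg, hgΓ, hgx⟩ := generous_pointwise hgen Γ hΓ x _ hx hsx
      ⟨((s : G) : Equiv.Perm α), (s : G).2, hsΓ, rfl⟩
    exact ⟨⟨⟨g, hg⟩, (mem_fixingSubgroup_iff G).2 fun y hy => hgΓ y hy⟩, hgx⟩
  -- a Sylow subgroup of `S` fixes a point in each of the orbits
  obtain ⟨Q⟩ : Nonempty (Sylow p S) := inferInstance
  have hfix : ∀ i, ∃ b ∈ MulAction.orbit H (f i), ∀ q ∈ (Q : Subgroup S), (q : G) • b = b := by
    intro i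
    let O := MulAction.orbit H (f i)
    have hOΓ : ∀ x ∈ O, x ∉ Γ := by
      rintro _ ⟨h, rfl⟩ hx
      apply hf i
      have h1 : h • (h • f i) = h • f i := (mem_fixingSubgroup_iff G).1 h.2 _ hx
      exact (MulAction.injective h h1) ▸ hx
    have hclosed : ∀ (s : S) (x : O), (s : G) • (x : α) ∈ O := fun s x =>
      (MulAction.orbit_eq_iff.2 x.2).subset (horb s x (hOΓ _ x.2))
    letI : MulAction (Q : Subgroup S) O :=
      { smul := fun q x => ⟨((q : S) : G) • (x : α), hclosed q x⟩
        one_smul := fun x => Subtype.ext (one_smul G (x : α))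
        mul_smul := fun q r x => Subtype.ext (mul_smul ((q : S) : G) ((r : S) : G) (x : α)) }
    haveI : Nonempty (MulAction.fixedPoints (Q : Subgroup S) O) := by
      obtain ⟨b, hb⟩ := Q.isPGroup'.nonempty_fixed_point_of_prime_not_dvd_card O (hall i)
      exact ⟨⟨b, hb⟩⟩
    obtain ⟨b⟩ := this
    exact ⟨b.1.1, b.1.2, fun q hq => congrArg Subtype.val (b.2 ⟨q, hq⟩)⟩
  choose b hb hbq using hfix
  have hbinj : Function.Injective b := by
    intro i j hij
    by_contra hne
    apply hdist i j hne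
    rw [← MulAction.orbit_eq_iff, ← MulAction.orbit_eq_iff.2 (hb j), ← hij,
      MulAction.orbit_eq_iff.2 (hb i)]
  have hbΓ : ∀ i, b i ∉ Γ := by
    intro i hx
    obtain ⟨h, hhb⟩ := hb i
    apply hf i
    have h1 : h • b i = b i := (mem_fixingSubgroup_iff G).1 h.2 _ hx
    have h2 : b i = f i := by
      rw [← hhb] at h1 ⊢
      exact MulAction.injective h h1
    exact h2 ▸ hx
  set Γ' := R ∪ Finset.univ.image b with hΓ'
  have hΓ'card : Γ'.card = k := by
    rw [hΓ', Finset.card_union_of_disjoint, hRcard, Finset.card_image_of_injective _ hbinj,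
      Finset.card_univ, Fintype.card_fin]
    · omega
    · rw [Finset.disjoint_left]
      intro x hx hx'
      obtain ⟨i, -, rfl⟩ := Finset.mem_image.1 hx'
      exact hbΓ i (Finset.sdiff_subset hx)
  obtain ⟨g, hg, hgΓ⟩ := generous_exists_smul_eq hgen Γ Γ' hΓ hΓ'card
  have hcard' : Nat.card (fixingSubgroup G (Γ' : Set α)) = Nat.card H := by
    have h1 : fixingSubgroup G (Γ' : Set α) =
        H.map (MulAut.conj (⟨g, hg⟩ : G)).toMonoidHom := by
      ext x
      rw [Subgroup.mem_map_equiv, hH, mem_fixingSubgroup_iff, mem_fixingSubgroup_iff,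
        MulAut.conj_symm_apply, ← hgΓ, Finset.coe_smul_finset]
      constructor
      · intro h y hy
        rw [mul_smul, mul_smul, inv_smul_eq_iff]
        exact h _ (Set.smul_mem_smul_set hy)
      · rintro h _ ⟨y, hy, rfl⟩
        have h2 := h y hy
        rw [mul_smul, mul_smul, inv_smul_eq_iff] at h2
        exact h2
    rw [h1, Subgroup.card_map_of_injective (MulEquiv.injective _)]
  -- the index of `H` in `S` is divisible by `p`
  have hdvd : p ∣ (H.subgroupOf S).index := by
    have hlen : C.toList.length = p := by rw [Finset.length_toList, hCcard]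
    set σ₀ := C.toList.formPerm with hσ₀
    have hmoves : ∀ y, y ∉ C → σ₀ y = y := fun y hy =>
      List.formPerm_apply_of_notMem (by simpa using hy)
    have hmaps : ∀ y, σ₀ y ∈ Γ ↔ y ∈ Γ := by
      intro y
      by_cases hy : y ∈ C
      · have : σ₀ y ∈ C := by
          rw [← Finset.mem_toList]
          exact List.formPerm_apply_mem_of_mem (by simpa using hy)
        exact ⟨fun _ => hC hy, fun _ => hC this⟩
      · rw [hmoves y hy]
    obtain ⟨x, hxG, hx⟩ := generous_exists_perm hk hgen Γ hΓ (σ₀.subtypePerm hmaps)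
    have hxΓ : ∀ y ∈ Γ, x y = σ₀ y := fun y hy => hx ⟨y, hy⟩
    have hxS : (⟨x, hxG⟩ : G) ∈ S := by
      refine ⟨?_, (mem_fixingSubgroup_iff G).2 fun y hy => ?_⟩
      · change x • Γ = Γ
        refine Finset.eq_of_subset_of_card_le ?_ (by rw [Finset.card_smul_finset])
        intro y hy
        obtain ⟨z, hz, rfl⟩ := Finset.mem_smul_finset.1 hy
        rw [Equiv.Perm.smul_def, hxΓ z hz]
        exact (hmaps z).2 hz
      · have hy' := Finset.mem_sdiff.1 (Finset.mem_coe.1 hy)
        change x y = y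
        rw [hxΓ y hy'.1, hmoves y hy'.2]
    haveI hnormal : (H.subgroupOf S).Normal := by
      refine ⟨fun h hh s => ?_⟩
      rw [Subgroup.mem_subgroupOf, hH, mem_fixingSubgroup_iff] at hh ⊢
      intro y hy
      have hsΓ : (s : G) • Γ = Γ := s.2.1
      have h1 : (s : G)⁻¹ • y ∈ Γ := by
        rw [← Finset.smul_mem_smul_finset_iff (s : G), hsΓ, smul_inv_smul]
        exact hy
      rw [Subgroup.coe_mul, Subgroup.coe_mul, Subgroup.coe_inv, mul_smul, mul_smul, hh _ h1,
        smul_inv_smul]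
    have hord : orderOf σ₀ = p := by
      have h2 : 2 ≤ C.toList.length := hlen.symm ▸ hp.two_le
      rw [(List.isCycle_formPerm C.nodup_toList h2).orderOf,
        List.support_formPerm_of_nodup _ C.nodup_toList (fun x hx => by
          rw [hx] at h2; simp at h2),
        Finset.toList_toFinset, hCcard]
    have hpow : ∀ (n : ℕ) y, y ∈ Γ → (x ^ n) y = (σ₀ ^ n) y ∧ (σ₀ ^ n) y ∈ Γ := by
      intro n
      induction n with
      | zero => intro y hy; simpa using hy
      | succ n ih =>
        intro y hy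
        obtain ⟨h1, h2⟩ := ih y hy
        rw [pow_succ', pow_succ', Equiv.Perm.mul_apply, Equiv.Perm.mul_apply, h1, hxΓ _ h2]
        exact ⟨rfl, (hmaps _).2 h2⟩
    rw [Subgroup.index_eq_card]
    have hox : orderOf (QuotientGroup.mk' (H.subgroupOf S) (⟨_, hxS⟩ : S)) = p := by
      refine orderOf_eq_prime ?_ ?_
      · rw [← map_pow, QuotientGroup.mk'_apply, QuotientGroup.eq_one_iff, Subgroup.mem_subgroupOf,
          hH, mem_fixingSubgroup_iff]
        intro y hy
        change (x ^ p) y = y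
        rw [(hpow p y hy).1, ← hord, pow_orderOf_eq_one, Equiv.Perm.one_apply]
      · intro h1
        rw [QuotientGroup.mk'_apply, QuotientGroup.eq_one_iff, Subgroup.mem_subgroupOf,
          hH, mem_fixingSubgroup_iff] at h1
        have h3 : σ₀ = 1 := Equiv.ext fun y => by
          by_cases hy : y ∈ C
          · rw [← hxΓ y (hC hy), Equiv.Perm.one_apply]; exact h1 y (hC hy)
          · rw [hmoves y hy, Equiv.Perm.one_apply]
        rw [h3, orderOf_one] at hord
        exact hp.ne_one hord.symm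
    rw [← hox]
    exact orderOf_dvd_natCard _
  have hcardQ : Nat.card (Q : Subgroup S) ∣ Nat.card H := by
    rw [← hcard']
    refine (Subgroup.card_dvd_of_injective
      ((((Subgroup.subtype S).comp (Q : Subgroup S).subtype).codRestrict
        (fixingSubgroup G (Γ' : Set α)) fun q => (mem_fixingSubgroup_iff G).2 fun y hy => ?_))
      fun x y h => Subtype.ext (Subtype.ext (congrArg Subtype.val h :)))
    rw [Finset.mem_coe, hΓ', Finset.mem_union] at hy
    rcases hy with hy | hy
    · exact (mem_fixingSubgroup_iff G).1 (q : S).2.2 y hy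
    · obtain ⟨i, -, rfl⟩ := Finset.mem_image.1 hy
      exact hbq i q q.2
  obtain ⟨m, hm⟩ := IsPGroup.iff_card.1 Q.isPGroup'
  have hQ : p ^ (m + 1) ∣ Nat.card S := by
    rw [← Subgroup.index_mul_card (H.subgroupOf S), Nat.card_congr (Subgroup.subgroupOfEquivOfLe hHS).toEquiv,
      pow_succ']
    exact mul_dvd_mul hdvd (hm ▸ hcardQ)
  have := Nat.le_of_dvd Nat.card_pos (Q.pow_dvd_card_of_pow_dvd_card hQ)
  rw [hm] at this
  exact absurd this (not_le.2 (Nat.pow_lt_pow_succ hp.one_lt))

end Cfsg.Agent.H36
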