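import Cfsg.Agent.H98.Decomp
import Mathlib

/-! Small decomposition stabilisers preserve a form, so they are not maximal in `SL`. -/

set_option autoImplicit false
set_option linter.unusedSectionVars false
set_option maxHeartbeats 1000000

namespace Cfsg.Agent.H36.MBetween

open scoped Matrix
open Cfsg.Agent.H98

variable {ι : Type} [Fintype ι] [DecidableEq ι] {t m : ℕ} {F : Type*} [Field F] {D : Fin t → Submodule F (ι → F)}

variable (hD : Cfsg.Geo.IsMDecomposition m D)

/-- Coordinates on a member. -/
noncomputable def chart (i : Fin t) : D i ≃ₗ[F] (Fin m → F) :=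
  (Module.finBasisOfFinrankEq F (D i) (hD.finrank_eq i)).equivFun

/-- The coordinates of the `i`-th component. -/
noncomputable def crd (i : Fin t) : (ι → F) →ₗ[F] (Fin m → F) :=
  (chart hD i).toLinearMap.comp ((comp hD i).codRestrict (D i) (comp_mem hD i))

/-- The vector with given coordinates in the `i`-th member. -/
noncomputable def emb (i : Fin t) : (Fin m → F) →ₗ[F] (ι → F) :=
  (D i).subtype.comp (chart hD i).symm.toLinearMap

theorem emb_mem (i : Fin t) (u : Fin m → F) : emb hD i u ∈ D i := SetLike.coe_mem _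

theorem crd_emb (i j : Fin t) (u : Fin m → F) :
    crd hD j (emb hD i u) = if i = j then u else 0 := by
  split_ifs with h
  · subst h
    show chart hD i ⟨comp hD i _, _⟩ = u
    rw [show (⟨comp hD i (emb hD i u), comp_mem hD i _⟩ : D i) = (chart hD i).symm u from
      Subtype.ext (comp_same hD (emb_mem hD i u)), LinearEquiv.apply_symm_apply]
  · show chart hD j ⟨comp hD j _, _⟩ = 0
    rw [show (⟨comp hD j (emb hD i u), comp_mem hD j _⟩ : D j) = 0 from
      Subtype.ext (comp_other hD h (emb_mem hD i u)), map_zero]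

theorem crd_eq_zero_of_comp (i : Fin t) {x : ι → F} (h : comp hD i x = 0) : crd hD i x = 0 := by
  show chart hD i ⟨comp hD i x, _⟩ = 0
  rw [show (⟨comp hD i x, comp_mem hD i x⟩ : D i) = 0 from Subtype.ext h, map_zero]

theorem comp_eq_emb (i : Fin t) (x : ι → F) : comp hD i x = emb hD i (crd hD i x) := by
  show _ = (((chart hD i).symm (chart hD i ⟨comp hD i x, comp_mem hD i x⟩) : D i) : ι → F)
  rw [LinearEquiv.symm_apply_apply]

variable (b : (Fin m → F) → (Fin m → F) → F)

/-- The orthogonal sum of copies of `b`. -/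
noncomputable def form (x y : ι → F) : F := ∑ i, b (crd hD i x) (crd hD i y)

/-- The isometry group of the form. -/
noncomputable def isom : Subgroup (GL ι F) where
  carrier := {g | ∀ x y, form hD b ((g : Matrix _ _ F) *ᵥ x) ((g : Matrix _ _ F) *ᵥ y) = form hD b x y}
  one_mem' x y := by simp
  mul_mem' {g h} hg hh x y := by
    rw [Units.val_mul, ← Matrix.mulVec_mulVec, ← Matrix.mulVec_mulVec, hg, hh]
  inv_mem' {g} hg x y := by
    have h := hg (((g⁻¹ : GL ι F) : Matrix _ _ F) *ᵥ x)
      (((g⁻¹ : GL ι F) : Matrix _ _ F) *ᵥ y)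
    rw [gl_mulVec_inv, gl_mulVec_inv] at h
    exact h.symm

theorem stab_le_isom
    (hinv : ∀ A : (Fin m → F) ≃ₗ[F] (Fin m → F), ∀ u w, b (A u) (A w) = b u w) :
    Cfsg.Geo.decompositionStabilizer D ≤ isom hD b := by
  rintro g ⟨σ, hσ⟩ x y
  set L := Matrix.toLin' (g : Matrix ι ι F) with hL
  have hinj : Function.Injective L := fun a c h => gl_mulVec_injective g (by simpa [hL] using h)
  have hcomp : ∀ i x, comp hD (σ i) (L x) = L (comp hD i x) := by
    intro i x
    conv_lhs => rw [← sum_comp hD x, map_sum, map_sum]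
    have hmem : ∀ j, L (comp hD j x) ∈ D (σ j) := fun j =>
      hσ j ▸ Submodule.mem_map_of_mem (comp_mem hD j x)
    rw [Finset.sum_eq_single i (fun j _ hj => comp_other hD (σ.injective.ne hj) (hmem j)) (by simp),
      comp_same hD (hmem i)]
  have hA : ∀ i, ∃ A : (Fin m → F) ≃ₗ[F] (Fin m → F), ∀ x, crd hD (σ i) (L x) = A (crd hD i x) := by
    intro i
    refine ⟨LinearEquiv.ofBijective ((crd hD (σ i)).comp (L.comp (emb hD i))) ?_, fun x => ?_⟩
    · have hi : Function.Injective ((crd hD (σ i)).comp (L.comp (emb hD i))) := by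
        intro u w huw
        simp only [LinearMap.comp_apply] at huw
        have h1 : ∀ u, L (emb hD i u) ∈ D (σ i) := fun u =>
          hσ i ▸ Submodule.mem_map_of_mem (emb_mem hD i u)
        have h2 := congrArg (emb hD (σ i)) huw
        rw [← comp_eq_emb, ← comp_eq_emb, comp_same hD (h1 u), comp_same hD (h1 w)] at h2
        have h3 := congrArg (crd hD i) (hinj h2)
        rwa [crd_emb, crd_emb, if_pos rfl, if_pos rfl] at h3
      exact ⟨hi, LinearMap.injective_iff_surjective.1 hi⟩
    · show crd hD (σ i) (L x) = crd hD (σ i) (L (emb hD i (crd hD i x)))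
      rw [← comp_eq_emb, ← hcomp]
      show chart hD (σ i) ⟨comp hD (σ i) (L x), _⟩ =
        chart hD (σ i) ⟨comp hD (σ i) (comp hD (σ i) (L x)), _⟩
      simp only [comp_same hD (comp_mem hD (σ i) (L x))]
  show ∑ i, b (crd hD i ((g : Matrix _ _ F) *ᵥ x)) (crd hD i ((g : Matrix _ _ F) *ᵥ y)) = _
  rw [← Equiv.sum_comp σ]
  refine Finset.sum_congr rfl fun i _ => ?_
  obtain ⟨A, hA'⟩ := hA i
  have hx := hA' x
  have hy := hA' y
  simp only [hL, Matrix.toLin'_apply] at hx hy
  rw [hx, hy, hinv]

/-- The reflection or transvection along `v`. -/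
theorem exists_between (σ : F →+* F) (hσ : ∀ a, σ (σ a) = a)
    (hl : ∀ w, IsLinearMap F fun u => b u w)
    (hh : ∀ u w, b w u = σ (b u w))
    (hinv : ∀ A : (Fin m → F) ≃ₗ[F] (Fin m → F), ∀ u w, b (A u) (A w) = b u w)
    (v w w₀ : ι → F)
    (hv : form hD b v v + 2 = 0) (hw : form hD b w w + 2 = 0)
    (hdet : (1 + form hD b v v) * (1 + form hD b w w) = 1)
    (hw₀v : form hD b w₀ v = 1) (hw₀w : form hD b w₀ w = 0)
    {i a c : Fin t} (hw₀ : w₀ ∈ D i) (hac : a ≠ c)
    (ha : comp hD a (w₀ + v) ≠ 0) (hc : comp hD c (w₀ + v) ≠ 0)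
    {j k : Fin t} (hjk : j ≠ k) {u u' : Fin m → F} (huu : b u u' ≠ 0) :
    ∃ K : Subgroup (GL ι F),
      Cfsg.Geo.decompositionStabilizer D ⊓ Cfsg.Geo.specialLinear ι F < K ∧
        K < Cfsg.Geo.specialLinear ι F := by
  have hb0 : ∀ w, b 0 w = 0 := fun w => (hl w).map_zero
  let lf : (ι → F) → ((ι → F) →ₗ[F] F) := fun z =>
    { toFun := fun x => form hD b x z
      map_add' := fun x y => by
        simp only [form, map_add, (hl _).map_add, Finset.sum_add_distrib]
      map_smul' := fun r x => by
        simp only [form, map_smul, (hl _).map_smul, Finset.smul_sum, RingHom.id_apply] }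
  have hherm : ∀ x y, form hD b y x = σ (form hD b x y) := fun x y => by
    simp only [form, map_sum, ← hh]
  have hadd2 : ∀ x y z, form hD b x (y + z) = form hD b x y + form hD b x z := fun x y z => by
    rw [hherm (y + z) x, show form hD b (y + z) x = form hD b y x + form hD b z x from
      map_add (lf x) y z, map_add, ← hherm, ← hherm]
  have hsmul2 : ∀ x r y, form hD b x (r • y) = σ r * form hD b x y := fun x r y => by
    rw [hherm (r • y) x, show form hD b (r • y) x = r * form hD b y x from map_smul (lf x) r y,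
      map_mul, ← hherm]
  have hadd1 : ∀ x y z, form hD b (x + y) z = form hD b x z + form hD b y z := fun x y z =>
    map_add (lf z) x y
  have hsmul1 : ∀ r x z, form hD b (r • x) z = r * form hD b x z := fun r x z =>
    map_smul (lf z) r x
  -- the involution along a vector
  have hT : ∀ z, form hD b z z + 2 = 0 → ∃ g : GL ι F,
      (g : Matrix ι ι F).det = 1 + form hD b z z ∧ g ∈ isom hD b ∧
      ∀ x, (g : Matrix ι ι F) *ᵥ x = x + form hD b x z • z := by
    intro z hz
    have hsq : transMat (lf z) z * transMat (lf z) z = 1 := Matrix.ext_of_mulVec_single fun i => by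
      rw [← Matrix.mulVec_mulVec, transMat_mulVec, transMat_mulVec, Matrix.one_mulVec]
      have h1 : lf z (Pi.single i 1 + lf z (Pi.single i 1) • z) =
          lf z (Pi.single i 1) + lf z (Pi.single i 1) * form hD b z z := by
        rw [map_add, map_smul, smul_eq_mul]; rfl
      rw [h1, add_assoc, ← add_smul]
      have h2 : lf z (Pi.single i 1) +
          (lf z (Pi.single i 1) + lf z (Pi.single i 1) * form hD b z z) = 0 := by
        linear_combination (lf z (Pi.single i 1)) * hz
      rw [h2, zero_smul, add_zero]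
    let g : GL ι F := ⟨transMat (lf z) z, transMat (lf z) z, hsq, hsq⟩
    refine ⟨g, ?_, fun x y => ?_, fun x => transMat_mulVec _ _ x⟩
    · show (transMat (lf z) z).det = _
      rw [transMat, Matrix.vecMulVec_eq Unit, Matrix.det_one_add_replicateCol_mul_replicateRow]
      congr 1
      have : ∀ (φ : (ι → F) →ₗ[F] F) (x : ι → F),
          (fun i => φ (Pi.single i 1)) ⬝ᵥ x = φ x := fun φ x => by
        conv_rhs => rw [pi_eq_sum_univ' x]
        simp [dotProduct, map_sum, mul_comm]
      exact this (lf z) z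
    · show form hD b (transMat (lf z) z *ᵥ x) (transMat (lf z) z *ᵥ y) = _
      rw [transMat_mulVec, transMat_mulVec,
        show lf z x = form hD b x z from rfl, show lf z y = form hD b y z from rfl]
      simp only [hadd1, hadd2, hsmul1, hsmul2]
      rw [show form hD b z y = σ (form hD b y z) from hherm y z]
      linear_combination (form hD b x z * σ (form hD b y z)) * hz
  obtain ⟨g, hgd, hgI, hg⟩ := hT v hv
  obtain ⟨g', hgd', hgI', hg'⟩ := hT w hw
  refine ⟨isom hD b ⊓ Cfsg.Geo.specialLinear ι F, ?_, ?_⟩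
  · refine lt_of_le_not_ge (inf_le_inf_right _ (stab_le_isom hD b hinv)) fun h => ?_
    have hmem : g * g' ∈ isom hD b ⊓ Cfsg.Geo.specialLinear ι F := by
      refine ⟨mul_mem hgI hgI', ?_⟩
      show Matrix.GeneralLinearGroup.det (g * g') = 1
      rw [← Units.val_inj]
      change ((g * g' : GL ι F) : Matrix ι ι F).det = 1
      rw [Units.val_mul, Matrix.det_mul, hgd, hgd', hdet]
    have hval : ((g * g' : GL ι F) : Matrix _ _ F) *ᵥ w₀ = w₀ + v := by
      rw [Units.val_mul, ← Matrix.mulVec_mulVec, hg', hw₀w, zero_smul, add_zero, hg, hw₀v, one_smul]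
    exact not_stab_of_spread hD (i := i) hw₀ hac (by rw [hval]; exact ha) (by rw [hval]; exact hc)
      (h hmem).1
  · refine lt_of_le_not_ge inf_le_right fun h => ?_
    -- a transvection which does not preserve the form
    obtain ⟨f, hf⟩ : ∃ f : (Fin m → F) →ₗ[F] F, f u' = 1 := by
      have hu' : u' ∉ (⊥ : Submodule F (Fin m → F)) := by
        rw [Submodule.mem_bot]
        rintro rfl
        rw [hh 0 u, hb0, map_zero] at huu
        exact huu rfl
      obtain ⟨f, hf, -⟩ := exists_functional (ι := Fin m) hu'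
      exact ⟨f, hf⟩
    set φ : (ι → F) →ₗ[F] F := f.comp (crd hD j)
    have hφ : φ (emb hD k u) = 0 := by
      simp [φ, crd_emb, Ne.symm hjk]
    have h1 := (h (transGL_mem_sl φ (emb hD k u) hφ)).1 (emb hD j u') (emb hD k u')
    have hφ' : φ (emb hD k u') = 0 := by simp [φ, crd_emb, Ne.symm hjk]
    have hφ'' : φ (emb hD j u') = 1 := by simp [φ, crd_emb, hf]
    rw [transGL_mulVec, transGL_mulVec, hφ', hφ'', one_smul, zero_smul, add_zero, hadd1] at h1
    have h2 : form hD b (emb hD k u) (emb hD k u') = b u u' := by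
      rw [form, Finset.sum_eq_single k (fun l _ hl => by rw [crd_emb, if_neg (Ne.symm hl), hb0])
        (by simp), crd_emb, crd_emb, if_pos rfl, if_pos rfl]
    rw [add_eq_left, h2] at h1
    exact huu h1

theorem form_sum {ι' : Type*} (s : Finset ι') (f : ι' → Fin t) (hf : Set.InjOn f s)
    (hb0 : ∀ w, b 0 w = 0) (u : Fin m → F) (y : ι → F) :
    form hD b (∑ l ∈ s, emb hD (f l) u) y = ∑ l ∈ s, b u (crd hD (f l) y) := by
  classical
  rw [← Finset.sum_image (f := fun i => emb hD i u) hf,
    ← Finset.sum_image (f := fun i => b u (crd hD i y)) hf, form]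
  rw [← Finset.sum_subset (Finset.subset_univ (s.image f))]
  · refine Finset.sum_congr rfl fun i hi => ?_
    rw [map_sum, Finset.sum_eq_single i (fun l _ hl => by rw [crd_emb, if_neg hl])
      (fun h => absurd hi h), crd_emb, if_pos rfl]
  · intro i _ hi
    rw [map_sum, Finset.sum_eq_zero fun l hl => by
      rw [crd_emb, if_neg fun (h : l = i) => hi (h ▸ hl)], hb0]

theorem crd_sum {ι' : Type*} (s : Finset ι') (f : ι' → Fin t) (hf : Set.InjOn f s)
    (u : Fin m → F) (i : Fin t) :
    crd hD i (∑ l ∈ s, emb hD (f l) u) = if i ∈ s.image f then u else 0 := by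
  rw [← Finset.sum_image (f := fun i => emb hD i u) hf, map_sum]
  simp only [crd_emb]
  rw [Finset.sum_ite_eq']

end Cfsg.Agent.H36.MBetween

namespace Cfsg.Agent.H36

open Cfsg.Agent.H98 MBetween
open scoped Matrix

theorem decomposition_not_maximal {F : Type*} [Field F] [Fintype F] (n : ℕ) (hn : 13 ≤ n) {t : ℕ}
    (m : ℕ) (D : Fin t → Submodule F (Fin n → F)) (hD : Cfsg.Geo.IsMDecomposition m D)
    (h : (m = 1 ∧ Fintype.card F ≤ 4) ∨ (m = 2 ∧ Fintype.card F = 2)) :
    ∃ K : Subgroup (Matrix.GeneralLinearGroup (Fin n) F),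
      Cfsg.Geo.decompositionStabilizer D ⊓ Cfsg.Geo.specialLinear (Fin n) F < K ∧
        K < Cfsg.Geo.specialLinear (Fin n) F := by
  classical
  have htm : t * m = n := by
    have hint : DirectSum.IsInternal D :=
      (DirectSum.isInternal_submodule_iff_iSupIndep_and_iSup_eq_top D).2 ⟨hD.indep, hD.iSup_eq_top⟩
    let B := hint.collectedBasis fun i => Module.finBasisOfFinrankEq F (D i) (hD.finrank_eq i)
    have := Module.finrank_eq_card_basis B
    simpa using this.symm
  obtain ⟨p, hchar⟩ := CharP.exists F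
  have := hchar
  obtain ⟨e, hp, hpe⟩ := FiniteField.card F p
  have hu1 : ∀ x : F, x ≠ 0 → x ^ (Fintype.card F - 1) = 1 :=
    fun x hx => FiniteField.pow_card_sub_one_eq_one x hx
  rcases h with ⟨rfl, hq⟩ | ⟨rfl, hq⟩
  · rw [mul_one] at htm
    subst htm
    -- the involution of the field
    obtain ⟨σ, hσ2, hσn, hbad⟩ : ∃ σ : F →+* F, (∀ a, σ (σ a) = a) ∧
        (∀ x : F, x ≠ 0 → x * σ x = 1) ∧ (6 : F) = 0 := by
      have h2 := hp.two_le
      have he := e.pos
      rcases Nat.lt_or_ge (Fintype.card F) 4 with h4 | h4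
      · refine ⟨RingHom.id F, fun a => rfl, fun x hx => ?_, ?_⟩
        · have h1 := hu1 x hx
          rcases (show Fintype.card F = 2 ∨ Fintype.card F = 3 by
            have := Fintype.one_lt_card (α := F); omega) with h5 | h5 <;> rw [h5] at h1
          · rw [pow_one] at h1; simp [h1]
          · rw [pow_two] at h1; exact h1
        · have hp3 : p ∣ 6 := by
            have : p ≤ 3 := by
              have := Nat.le_self_pow e.pos.ne' p
              omega
            interval_cases p <;> norm_num
          exact_mod_cast (CharP.cast_eq_zero_iff F p 6).2 hp3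
      · have hq4 : Fintype.card F = 4 := le_antisymm hq h4
        have hp2 : p = 2 := by
          have hd : p ∣ 2 ^ 2 := by rw [show 2 ^ 2 = 4 from rfl, ← hq4, hpe]; exact dvd_pow_self p e.pos.ne'
          exact (Nat.prime_dvd_prime_iff_eq hp Nat.prime_two).1 (hp.dvd_of_dvd_pow hd)
        subst hp2
        refine ⟨frobenius F 2, fun a => ?_, fun x hx => ?_, ?_⟩
        · rw [frobenius_def, frobenius_def, ← pow_mul, show 2 * 2 = Fintype.card F from hq4.symm,
            FiniteField.pow_card]
        · have h1 := hu1 x hx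
          rw [hq4] at h1
          rw [frobenius_def, ← pow_succ']
          exact h1
        · exact_mod_cast (CharP.cast_eq_zero_iff F 2 6).2 (by norm_num)
    let b : (Fin 1 → F) → (Fin 1 → F) → F := fun x y => x 0 * σ (y 0)
    have hinv : ∀ A : (Fin 1 → F) ≃ₗ[F] (Fin 1 → F), ∀ u w, b (A u) (A w) = b u w := by
      intro A u w
      set l := A (fun _ => 1) 0 with hl
      have hA : ∀ u : Fin 1 → F, A u 0 = u 0 * l := fun u => by
        have : u = u 0 • (fun _ => 1 : Fin 1 → F) := funext fun i => by
          rw [Subsingleton.elim i 0]; simp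
        conv_lhs => rw [this, map_smul]
        rfl
      have hl0 : l ≠ 0 := fun h0 => by
        have h1 : A (fun _ => 1) = 0 := funext fun i => by rw [Subsingleton.elim i 0]; exact h0
        rw [← map_zero A] at h1
        exact one_ne_zero (congrFun (A.injective h1) 0)
      simp only [b, hA, map_mul]
      rw [mul_mul_mul_comm, hσn l hl0, mul_one]
    have hb0 : ∀ w, b 0 w = 0 := fun w => by simp [b]
    let one : Fin 1 → F := fun _ => 1
    let S : Finset (Fin t) := Finset.univ.filter fun i => (i : ℕ) < 4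
    let S' : Finset (Fin t) := Finset.univ.filter fun i => 4 ≤ (i : ℕ) ∧ (i : ℕ) < 8
    have hS : S.card = 4 := by
      rw [show S = Finset.univ.map (Fin.castLEEmb (show 4 ≤ t by omega)) by
        ext i
        simp only [S, Finset.mem_filter, Finset.mem_univ, true_and, Finset.mem_map]
        exact ⟨fun h => ⟨⟨i, h⟩, rfl⟩, fun ⟨a, ha⟩ => ha ▸ a.2⟩]
      simp
    have hS' : S'.card = 4 := by
      rw [show S' = Finset.univ.map ((Fin.natAddEmb 4).trans (Fin.castLEEmb (show 4 + 4 ≤ t by omega))) by
        ext i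
        simp only [S', Finset.mem_filter, Finset.mem_univ, true_and, Finset.mem_map]
        constructor
        · intro h
          refine ⟨⟨i - 4, by omega⟩, Fin.ext ?_⟩
          show 4 + ((i : ℕ) - 4) = i
          omega
        · rintro ⟨a, rfl⟩
          show 4 ≤ 4 + (a : ℕ) ∧ 4 + (a : ℕ) < 8
          omega]
      simp
    have hval : ∀ T : Finset (Fin t), ∀ y, form hD b (∑ i ∈ T, emb hD i one) y =
        ∑ i ∈ T, b one (crd hD i y) := fun T y =>
      form_sum hD b T id (Set.injOn_id _) hb0 one y
    have hcrd : ∀ T : Finset (Fin t), ∀ i, crd hD i (∑ l ∈ T, emb hD l one) =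
        if i ∈ T then one else 0 := fun T i => by
      have := crd_sum hD T id (Set.injOn_id _) one i
      simpa using this
    have hb1 : b one one = 1 := by simp [b, one]
    have hself : ∀ T : Finset (Fin t),
        form hD b (∑ i ∈ T, emb hD i one) (∑ i ∈ T, emb hD i one) = (T.card : F) := fun T => by
      rw [hval, Finset.sum_congr rfl fun i hi => show b one (crd hD i (∑ l ∈ T, emb hD l one)) = 1 by
        rw [hcrd, if_pos hi, hb1]]
      simp
    let i0 : Fin t := ⟨0, by omega⟩
    have hsingle : ∀ y, form hD b (emb hD i0 one) y = b one (crd hD i0 y) := fun y => by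
      simpa using hval {i0} y
    refine exists_between hD b σ hσ2
      (fun w => ⟨fun x y => by simp [b, add_mul], fun r x => by simp [b, mul_assoc]⟩)
      (fun u w => by simp [b, hσ2, mul_comm]) hinv (∑ i ∈ S, emb hD i one) (∑ i ∈ S', emb hD i one)
      (emb hD i0 one) ?_ ?_ ?_ ?_ ?_ (emb_mem hD i0 one) (a := ⟨1, by omega⟩) (c := ⟨2, by omega⟩)
      (by simp) ?_ ?_ (j := i0) (k := ⟨1, by omega⟩) (by simp [i0]) (u := one) (u' := one)
      (by rw [hb1]; exact one_ne_zero)
    · rw [hself, hS]; linear_combination hbad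
    · rw [hself, hS']; linear_combination hbad
    · rw [hself, hself, hS, hS']; linear_combination (4 : F) * hbad
    · rw [hsingle, hcrd, if_pos (by simp [S, i0]), hb1]
    · rw [hsingle, hcrd, if_neg (by simp [S', i0])]; simp [b]
    all_goals
      intro h0
      have h1 := crd_eq_zero_of_comp hD _ h0
      rw [map_add, crd_emb, hcrd, if_neg (by simp [i0, Fin.ext_iff]), if_pos (by simp [S]), zero_add]
        at h1
      exact one_ne_zero (congrFun h1 0)
  · have h20 : (2 : F) = 0 := by
      have := FiniteField.cast_card_eq_zero F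
      rw [hq] at this
      exact_mod_cast this
    have hone : ∀ x : F, x ≠ 0 → x = 1 := fun x hx => by
      simpa [hq] using hu1 x hx
    have hneg : ∀ x : F, -x = x := fun x => by linear_combination (-x) * h20
    let b : (Fin 2 → F) → (Fin 2 → F) → F := fun x y => x 0 * y 1 + x 1 * y 0
    have hinv : ∀ A : (Fin 2 → F) ≃ₗ[F] (Fin 2 → F), ∀ u w, b (A u) (A w) = b u w := by
      intro A u w
      set M := LinearMap.toMatrix' A.toLinearMap
      have hdet : M.det = 1 := hone _ (by
        rw [LinearMap.det_toMatrix']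
        exact (LinearEquiv.isUnit_det' A).ne_zero)
      rw [Matrix.det_fin_two] at hdet
      have hA : ∀ u i, A u i = M i 0 * u 0 + M i 1 * u 1 := fun u i => by
        have h1 : A u = M *ᵥ u := (LinearMap.toMatrix'_mulVec A.toLinearMap u).symm
        rw [h1]
        simp [Matrix.mulVec, dotProduct, Fin.sum_univ_two]
      simp only [b, hA]
      linear_combination (u 0 * w 1 + u 1 * w 0) * hdet +
        (M 0 0 * M 1 0 * u 0 * w 0 + M 0 1 * M 1 1 * u 1 * w 1 +
          M 0 1 * M 1 0 * (u 0 * w 1 + u 1 * w 0)) * h20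
    have hb0 : ∀ w, b 0 w = 0 := fun w => by simp [b]
    let one : Fin 2 → F := ![1, 0]
    let two : Fin 2 → F := ![0, 1]
    have hb21 : b two one = 1 := by simp [b, one, two]
    have hb11 : b one one = 0 := by simp [b, one]
    have ht : 7 ≤ t := by omega
    let i0 : Fin t := ⟨0, by omega⟩
    let i1 : Fin t := ⟨1, by omega⟩
    let i2 : Fin t := ⟨2, by omega⟩
    let i3 : Fin t := ⟨3, by omega⟩
    have h01 : i0 ≠ i1 := by simp [i0, i1]
    have h23 : i2 ≠ i3 := by simp [i2, i3]
    have hval : ∀ T : Finset (Fin t), ∀ u y, form hD b (∑ i ∈ T, emb hD i u) y =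
        ∑ i ∈ T, b u (crd hD i y) := fun T u y =>
      form_sum hD b T id (Set.injOn_id _) hb0 u y
    have hcrd : ∀ T : Finset (Fin t), ∀ i, crd hD i (∑ l ∈ T, emb hD l one) =
        if i ∈ T then one else 0 := fun T i => by
      have := crd_sum hD T id (Set.injOn_id _) one i
      simpa using this
    have hself : ∀ T : Finset (Fin t),
        form hD b (∑ i ∈ T, emb hD i one) (∑ i ∈ T, emb hD i one) = 0 := fun T => by
      rw [hval]
      exact Finset.sum_eq_zero fun i hi => by rw [hcrd, if_pos hi, hb11]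
    have hsingle : ∀ y, form hD b (emb hD i0 two) y = b two (crd hD i0 y) := fun y => by
      simpa using hval {i0} two y
    refine exists_between hD b (RingHom.id F) (fun _ => rfl)
      (fun w => ⟨fun x y => by simp [b]; ring, fun r x => by simp [b]; ring⟩)
      (fun u w => by simp [b]; ring) hinv (∑ i ∈ {i0, i1}, emb hD i one)
      (∑ i ∈ {i2, i3}, emb hD i one) (emb hD i0 two) ?_ ?_ ?_ ?_ ?_ (emb_mem hD i0 two) h01 ?_ ?_
      h01 (u := two) (u' := one) (by rw [hb21]; exact one_ne_zero)
    · rw [hself, zero_add]; exact h20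
    · rw [hself, zero_add]; exact h20
    · rw [hself, hself, add_zero, mul_one]
    · rw [hsingle, hcrd, if_pos (by simp), hb21]
    · rw [hsingle, hcrd, if_neg (by simp [i0, i2, i3])]; simp [b]
    · intro h0
      have h1 := crd_eq_zero_of_comp hD _ h0
      rw [map_add, crd_emb, hcrd, if_pos rfl, if_pos (by simp)] at h1
      exact (one_ne_zero : (1 : F) ≠ 0) (by simpa [one, two] using congrFun h1 0)
    · intro h0
      have h1 := crd_eq_zero_of_comp hD _ h0
      rw [map_add, crd_emb, hcrd, if_neg h01, if_pos (by simp), zero_add] at h1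
      exact (one_ne_zero : (1 : F) ≠ 0) (by simpa [one] using congrFun h1 0)

end Cfsg.Agent.H36
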