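import Mathlib
import Cfsg.Agent.H36.Regular
import Cfsg.Agent.H36.TwoTrans
import Cfsg.Agent.H36.Generous

/-!
# Multiple transitivity of normal subgroups
-/

open MulAction SubMulAction
open scoped Pointwise
set_option linter.style.haveILetI false

namespace Cfsg.Agent.H36

universe u v

variable {G : Type*} [Group G] {X : Type*} [MulAction G X]

theorem faithful_ofStabilizer [FaithfulSMul G X] (a : X) :
    FaithfulSMul (MulAction.stabilizer G a) (SubMulAction.ofStabilizer G a) := by
  refine ⟨fun {g g'} h => Subtype.ext (FaithfulSMul.eq_of_smul_eq_smul (α := X) fun x => ?_)⟩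
  by_cases hx : x = a
  · subst hx; exact g.2.trans g'.2.symm
  · exact congrArg Subtype.val (h ⟨x, hx⟩)

/-- Lift transitivity of a one-point stabiliser inside a normal subgroup. -/
theorem multiplyPretransitive_succ_of_subgroupOf (N : Subgroup G) [IsPretransitive N X] (a : X)
    {n : ℕ} (h : IsMultiplyPretransitive (N.subgroupOf (MulAction.stabilizer G a))
      (SubMulAction.ofStabilizer G a) n) : IsMultiplyPretransitive N X n.succ := by
  refine (ofStabilizer.isMultiplyPretransitive (a := a)).2 ⟨fun x y => ?_⟩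
  let j : SubMulAction.ofStabilizer N a ↪ SubMulAction.ofStabilizer G a :=
    ⟨fun z => ⟨z.1, z.2⟩, fun z w hzw => Subtype.ext (congrArg Subtype.val hzw :)⟩
  haveI := h
  obtain ⟨g, hg⟩ := MulAction.exists_smul_eq (N.subgroupOf (MulAction.stabilizer G a))
    (x.trans j) (y.trans j)
  refine ⟨⟨⟨g.1.1, g.2⟩, g.1.2⟩, Function.Embedding.ext fun i => Subtype.ext ?_⟩
  exact congrArg Subtype.val (DFunLike.congr_fun hg i)

theorem pretransitive_of_isMultiplyPretransitive [Finite X] {k : ℕ} (hk : 1 ≤ k)
    (hdeg : k ≤ Nat.card X) (hG : IsMultiplyPretransitive G X k) : IsPretransitive G X :=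
  haveI := hG
  is_one_pretransitive_iff.1 (isMultiplyPretransitive_of_le (n := k) hk hdeg)

/-- A sharply doubly transitive normal subgroup contains a regular normal subgroup of the whole
group. -/
theorem exists_regular_normal_of_sharp [Finite X] [FaithfulSMul G X] (H : Subgroup G) [H.Normal]
    (h2 : IsMultiplyPretransitive H X 2) (hX : 2 ≤ Nat.card X) (a : X)
    (hsharp : ∀ (n : H) (b : X), b ≠ a → n • a = a → n • b = b → n = 1) :
    ∃ K : Subgroup G, K.Normal ∧ IsPretransitive K X ∧ MulAction.stabilizer K a = ⊥ := by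
  haveI := h2
  haveI : IsPretransitive H X := pretransitive_of_isMultiplyPretransitive (k := 2) (by omega) hX h2
  have hsharp' : ∀ (n : H) (x y : X), x ≠ y → n • x = x → n • y = y → n = 1 := by
    intro n x y hxy hx hy
    obtain ⟨m, hm⟩ := MulAction.exists_smul_eq H x a
    have h1 := hsharp (m * n * m⁻¹) (m • y) (fun h => hxy (smul_left_cancel m (hm.trans h.symm)))
      (by rw [mul_smul, mul_smul, inv_smul_eq_iff.2 hm.symm, hx, hm])
      (by rw [mul_smul, mul_smul, inv_smul_smul, hy])
    rwa [conj_eq_one_iff] at h1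
  obtain ⟨K, hK, hKt, hKreg, -, -⟩ := exists_regular_subgroup_of_sharp h2 hsharp' hX
  refine ⟨K.map H.subtype, ⟨?_⟩, ?_, ?_⟩
  · rintro _ ⟨k, hk, rfl⟩ g
    refine ⟨⟨g * k * g⁻¹, Subgroup.Normal.conj_mem ‹_› _ k.2 g⟩, ?_, rfl⟩
    rcases (hK k).1 hk with rfl | hfree
    · exact (hK _).2 (Or.inl (Subtype.ext (by simp)))
    · refine (hK _).2 (Or.inr fun x hx => hfree (g⁻¹ • x) ?_)
      change (g * k * g⁻¹) • x = x at hx
      rw [mul_smul, mul_smul] at hx
      exact eq_inv_smul_iff.2 hx
  · refine ⟨fun x y => ?_⟩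
    obtain ⟨k, hk⟩ := MulAction.exists_smul_eq K x y
    exact ⟨⟨_, Subgroup.mem_map_of_mem _ k.2⟩, hk⟩
  · rw [Subgroup.eq_bot_iff_forall]
    rintro ⟨_, k, hk, rfl⟩ hg
    have : (⟨k, hk⟩ : K) ∈ MulAction.stabilizer K a := hg
    rw [hKreg, Subgroup.mem_bot] at this
    exact Subtype.ext (congrArg (fun z : K => ((z.1 : H) : G)) this)

/-- Jordan: a nontrivial normal subgroup of a `k`-transitive group is `(k-1)`-transitive, or
`k = 3` and it is regular of exponent two. -/
theorem jordan_normal {G : Type u} [Group G] {X : Type v} [MulAction G X] [Finite X]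
    [FaithfulSMul G X] {k : ℕ} (hk : 2 ≤ k) (hdeg : k < Nat.card X)
    (hG : IsMultiplyPretransitive G X k) (N : Subgroup G) [N.Normal] (hN : N ≠ ⊥) :
    IsMultiplyPretransitive N X (k - 1) ∨
      (k = 3 ∧ IsPretransitive N X ∧ (∀ n ∈ N, n ^ 2 = 1) ∧
        ∀ a : X, MulAction.stabilizer N a = ⊥) := by
  induction k using Nat.strong_induction_on generalizing G X with
  | _ k ih =>
  haveI := hG
  haveI : IsPreprimitive G X :=
    isPreprimitive_of_is_two_pretransitive (isMultiplyPretransitive_of_le (n := k) hk hdeg.le)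
  haveI hNt : IsPretransitive N X := isPretransitive_of_normal_ne_bot N hN
  rcases eq_or_lt_of_le hk with rfl | hk3
  · exact Or.inl (is_one_pretransitive_iff.2 hNt)
  obtain ⟨a⟩ : Nonempty X := (Nat.card_pos_iff.1 (by omega : 0 < Nat.card X)).1
  set M := N.subgroupOf (MulAction.stabilizer G a) with hM
  by_cases hM0 : M = ⊥
  · right
    have hreg : ∀ b : X, MulAction.stabilizer N b = ⊥ := by
      intro b
      obtain ⟨m, rfl⟩ := MulAction.exists_smul_eq N a b
      rw [MulAction.stabilizer_smul_eq_stabilizer_map_conj, Subgroup.map_eq_bot_iff_of_injective _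
        (MulEquiv.injective _), Subgroup.eq_bot_iff_forall]
      intro n hn
      have : (⟨(n : G), hn⟩ : MulAction.stabilizer G a) ∈ M := n.2
      rw [hM0, Subgroup.mem_bot] at this
      exact Subtype.ext (congrArg Subtype.val this :)
    obtain ⟨hk3', hexp⟩ := regular_normal_of_transitive hk3 hdeg hG N (hreg a)
    exact ⟨hk3', hNt, hexp, hreg⟩
  left
  obtain ⟨j, rfl⟩ : ∃ j, k = j + 1 := ⟨k - 1, by omega⟩
  haveI : IsPretransitive G X := inferInstance
  haveI := faithful_ofStabilizer (G := G) a
  have hcard := nat_card_ofStabilizer_add_one_eq G a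
  rcases ih j (by omega) (G := MulAction.stabilizer G a) (X := SubMulAction.ofStabilizer G a)
    (by omega) (by omega) ((ofStabilizer.isMultiplyPretransitive (a := a)).1 hG) M hM0 with h | h
  · have := multiplyPretransitive_succ_of_subgroupOf N a h
    rwa [show (j - 1).succ = j + 1 - 1 by omega] at this
  · exfalso
    obtain ⟨rfl, hMt, -, hMreg⟩ := h
    have h2 : IsMultiplyPretransitive N X 2 :=
      multiplyPretransitive_succ_of_subgroupOf N a (is_one_pretransitive_iff.2 hMt)
    obtain ⟨K, hKn, hKt, hKreg⟩ := exists_regular_normal_of_sharp N h2 (by omega) a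
      (fun n b hb hna hnb => by
        have hm : (⟨⟨(n : G), hna⟩, n.2⟩ : M) ∈
            MulAction.stabilizer M (⟨b, hb⟩ : SubMulAction.ofStabilizer G a) := Subtype.ext hnb
        rw [hMreg, Subgroup.mem_bot] at hm
        exact Subtype.ext (congrArg (fun m : M => (m.1.1 : G)) hm))
    exact absurd (regular_normal_of_transitive (by omega) hdeg hG K hKreg).1 (by omega)

/-- A non-regular nontrivial normal subgroup of a `k`-primitive group, other than a symmetric
group, is `k`-transitive. -/
theorem normal_of_multiplyPreprimitive {G : Type u} [Group G] {X : Type v} [MulAction G X]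
    [Finite X] [FaithfulSMul G X] {k : ℕ} (hk : 1 ≤ k) (hkn : k ≤ Nat.card X)
    (hG : IsMultiplyPreprimitive G X k)
    (hns : ¬ IsMultiplyPretransitive G X (Nat.card X - 1)) (H : Subgroup G) [H.Normal]
    {a : X} (ha : MulAction.stabilizer H a ≠ ⊥) : IsMultiplyPretransitive H X k := by
  induction k using Nat.strong_induction_on generalizing G X with
  | _ k ih =>
  haveI := hG
  haveI : IsPreprimitive G X := (is_one_preprimitive_iff G X).1
    (isMultiplyPreprimitive_of_le G X hG hk (by rw [ENat.card_eq_coe_natCard]; exact_mod_cast hkn))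
  have hH : H ≠ ⊥ := by
    rintro rfl
    exact ha (Subsingleton.elim _ _)
  haveI hHt : IsPretransitive H X := isPretransitive_of_normal_ne_bot H hH
  rcases eq_or_lt_of_le hk with rfl | hk2
  · exact is_one_pretransitive_iff.2 hHt
  obtain ⟨j, rfl⟩ : ∃ j, k = j + 1 := ⟨k - 1, by omega⟩
  haveI := faithful_ofStabilizer (G := G) a
  have hcard := nat_card_ofStabilizer_add_one_eq G a
  set M := H.subgroupOf (MulAction.stabilizer G a) with hM
  have hM0 : M ≠ ⊥ := by
    intro h0
    apply ha
    rw [Subgroup.eq_bot_iff_forall]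
    intro n hn
    have : (⟨(n : G), hn⟩ : MulAction.stabilizer G a) ∈ M := n.2
    rw [h0, Subgroup.mem_bot] at this
    exact Subtype.ext (congrArg Subtype.val this :)
  have hGa : IsMultiplyPreprimitive (MulAction.stabilizer G a) (SubMulAction.ofStabilizer G a) j :=
    isMultiplyPreprimitive_ofStabilizer G X (n := j)
  haveI : IsPreprimitive (MulAction.stabilizer G a) (SubMulAction.ofStabilizer G a) :=
    (is_one_preprimitive_iff _ _).1 (isMultiplyPreprimitive_of_le _ _ hGa (by omega)
      (by rw [ENat.card_eq_coe_natCard]; exact_mod_cast (by omega : j ≤ Nat.card (SubMulAction.ofStabilizer G a))))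
  have hMt : IsPretransitive M (SubMulAction.ofStabilizer G a) :=
    isPretransitive_of_normal_ne_bot M hM0
  by_cases hreg : ∃ b, MulAction.stabilizer M (b : SubMulAction.ofStabilizer G a) ≠ ⊥
  · obtain ⟨b, hb⟩ := hreg
    apply multiplyPretransitive_succ_of_subgroupOf H a
    refine ih j (by omega) (by omega) (by omega) hGa ?_ M hb
    intro hsym
    apply hns
    have := (ofStabilizer.isMultiplyPretransitive (a := a)).2 hsym
    rwa [show (Nat.card (SubMulAction.ofStabilizer G a) - 1).succ = Nat.card X - 1 by omega] at this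
  push Not at hreg
  rcases eq_or_lt_of_le (by omega : 1 ≤ j) with rfl | hj
  · exact multiplyPretransitive_succ_of_subgroupOf H a (is_one_pretransitive_iff.2 hMt)
  exfalso
  have h2 : IsMultiplyPretransitive H X 2 :=
    multiplyPretransitive_succ_of_subgroupOf H a (is_one_pretransitive_iff.2 hMt)
  obtain ⟨K, hKn, hKt, hKreg⟩ := exists_regular_normal_of_sharp H h2 (by omega) a
    (fun n b hb hna hnb => by
      have hm : (⟨⟨(n : G), hna⟩, n.2⟩ : M) ∈
          MulAction.stabilizer M (⟨b, hb⟩ : SubMulAction.ofStabilizer G a) := Subtype.ext hnb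
      rw [hreg, Subgroup.mem_bot] at hm
      exact Subtype.ext (congrArg (fun m : M => (m.1.1 : G)) hm))
  have h3 : IsMultiplyPreprimitive G X 3 := isMultiplyPreprimitive_of_le G X hG (by omega)
    (by rw [ENat.card_eq_coe_natCard]; exact_mod_cast hkn)
  haveI := h3.isMultiplyPretransitive
  rcases card_three_or_four (by omega) h3 K hKreg with h | h
  · rw [h] at hns
    exact hns (isMultiplyPretransitive_of_le (n := 3) (by norm_num) (by omega))
  · rw [h] at hns
    exact hns inferInstance

/-- Wagner: a nontrivial normal subgroup of a triply transitive group of odd degree `≥ 5` is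
triply transitive. -/
theorem wagner {α : Type*} [Fintype α] [DecidableEq α] (G : Subgroup (Equiv.Perm α))
    (hodd : Odd (Fintype.card α)) (h5 : 5 ≤ Fintype.card α)
    (hG : IsMultiplyPretransitive G α 3) (N : Subgroup G) [N.Normal] (hN : N ≠ ⊥) :
    IsMultiplyPretransitive N α 3 := by
  classical
  haveI := hG
  have hn : Nat.card α = Fintype.card α := Nat.card_eq_fintype_card
  haveI : Fact (Nat.Prime 2) := ⟨Nat.prime_two⟩
  have h2 : IsMultiplyPretransitive N α 2 := by
    rcases jordan_normal (k := 3) (by norm_num) (by omega) hG N hN with h | ⟨-, ht, hexp, hreg⟩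
    · exact h
    · exfalso
      obtain ⟨a⟩ := Fintype.card_pos_iff.1 (by omega : 0 < Fintype.card α)
      have hc := regular_card (hreg a)
      obtain ⟨m, hm⟩ := IsPGroup.iff_card.1 (show IsPGroup 2 N from fun n =>
        ⟨1, Subtype.ext (by rw [pow_one]; exact hexp n n.2)⟩)
      rw [hn, hm] at hc
      rcases Nat.eq_zero_or_pos m with rfl | hm0
      · omega
      · rw [← hc] at hodd
        exact (Nat.not_even_iff_odd.2 hodd) ((Nat.even_pow).2 ⟨even_two, by omega⟩)
  haveI := h2
  rw [is_two_pretransitive_iff] at h2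
  -- some element swaps two points and fixes a third one
  have hswap : ∀ a b x : α, a ≠ b → a ≠ x → b ≠ x → ∃ n : N, n • a = b ∧ n • b = a ∧ n • x = x := by
    intro a b x hab hax hbx
    obtain ⟨t, ht1, ht2⟩ := h2 hab hab.symm
    obtain ⟨r, m, hm, hr⟩ := Nat.exists_eq_pow_mul_and_not_dvd (orderOf_pos t).ne' 2 (by norm_num)
    have hm' : Odd m := Nat.not_even_iff_odd.1 (fun h => hm h.two_dvd)
    set s := t ^ m with hs
    have hpow : ∀ i : ℕ, (t ^ (2 * i)) • a = a ∧ (t ^ (2 * i)) • b = b := by
      intro i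
      induction i with
      | zero => simp
      | succ i ih =>
        rw [show 2 * (i + 1) = 2 * i + 1 + 1 by ring, pow_succ, pow_succ, mul_smul, mul_smul,
          mul_smul, mul_smul, ht1, ht2, ht1]
        exact ih
    have hs1 : s • a = b ∧ s • b = a := by
      obtain ⟨i, hi⟩ := hm'
      rw [hs, hi, pow_succ, mul_smul, mul_smul, ht1, ht2]
      exact ⟨(hpow i).2, (hpow i).1⟩
    have hsp : IsPGroup 2 (Subgroup.zpowers s) := by
      refine IsPGroup.of_card (n := r) ?_
      rw [Nat.card_zpowers, hs, orderOf_pow, hr, Nat.gcd_mul_left_left, Nat.mul_div_cancel]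
      exact Nat.pos_of_ne_zero (by rintro rfl; simp at hm)
    obtain ⟨y, hy⟩ := hsp.nonempty_fixed_point_of_prime_not_dvd_card α
      (by rw [hn]; exact fun h => Nat.not_even_iff_odd.2 hodd (even_iff_two_dvd.2 h))
    have hy' : s • y = y := hy ⟨s, Subgroup.mem_zpowers s⟩
    have hay : a ≠ y := fun h => hab (by rw [← hs1.1, h, hy'])
    have hby : b ≠ y := fun h => hab (by rw [← hs1.2, h, hy'])
    let e₁ : Fin 3 ↪ α := ⟨![a, b, y], fun i j => by
      fin_cases i <;> fin_cases j <;> simp [hab, hay, hby, hab.symm, hay.symm, hby.symm]⟩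
    let e₂ : Fin 3 ↪ α := ⟨![a, b, x], fun i j => by
      fin_cases i <;> fin_cases j <;> simp [hab, hax, hbx, hab.symm, hax.symm, hbx.symm]⟩
    obtain ⟨g, hg⟩ := MulAction.exists_smul_eq G e₁ e₂
    have ga : g • a = a := DFunLike.congr_fun hg 0
    have gb : g • b = b := DFunLike.congr_fun hg 1
    have gy : g • y = x := DFunLike.congr_fun hg 2
    refine ⟨⟨g * s * g⁻¹, Subgroup.Normal.conj_mem ‹_› _ s.2 g⟩, ?_, ?_, ?_⟩
    · change (g * s * g⁻¹) • a = b
      rw [mul_smul, mul_smul, inv_smul_eq_iff.2 ga.symm, show (s : G) • a = b from hs1.1, gb]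
    · change (g * s * g⁻¹) • b = a
      rw [mul_smul, mul_smul, inv_smul_eq_iff.2 gb.symm, show (s : G) • b = a from hs1.2, ga]
    · change (g * s * g⁻¹) • x = x
      rw [mul_smul, mul_smul, inv_smul_eq_iff.2 gy.symm, show (s : G) • y = y from hy', gy]
  set N' := N.map G.subtype with hN'
  have hgen : ∀ s : Finset α, s.card = 2 + 1 → ∀ σ : Equiv.Perm ↥s,
      ∃ g ∈ N', ∀ x : ↥s, g (x : α) = σ x := by
    intro s hs σ
    refine Equiv.Perm.swap_induction_on σ ⟨1, N'.one_mem, fun x => rfl⟩ ?_
    rintro τ x y hxy ⟨g, hg, hgx⟩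
    obtain ⟨z, hz, hzx, hzy⟩ : ∃ z ∈ s, z ≠ (x : α) ∧ z ≠ y := by
      have hle : ({(x : α), (y : α)} : Finset α).card < s.card :=
        Finset.card_le_two.trans_lt (by omega)
      obtain ⟨z, hz, hz'⟩ := Finset.exists_mem_notMem_of_card_lt_card hle
      simp only [Finset.mem_insert, Finset.mem_singleton, not_or] at hz'
      exact ⟨z, hz, hz'⟩
    obtain ⟨n, n1, n2, n3⟩ := hswap x y z (fun h => hxy (Subtype.ext h)) hzx.symm hzy.symm
    refine ⟨(((n : G)) : Equiv.Perm α) * g, N'.mul_mem ⟨_, n.2, rfl⟩ hg, fun w => ?_⟩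
    rw [Equiv.Perm.mul_apply, hgx, Equiv.Perm.mul_apply]
    have hthree : ∀ v : ↥s, v = x ∨ v = y ∨ (v : α) = z := by
      intro v
      by_contra hv
      push Not at hv
      have h4 : ({(x : α), (y : α), z, (v : α)} : Finset α).card = 4 := by
        rw [Finset.card_insert_of_notMem, Finset.card_insert_of_notMem,
          Finset.card_insert_of_notMem, Finset.card_singleton] <;>
          simp [hv.2.2.symm, hzy.symm, hzx.symm,
            show (x : α) ≠ v from fun h => hv.1 (Subtype.ext h.symm),
            show (y : α) ≠ v from fun h => hv.2.1 (Subtype.ext h.symm),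
            show (x : α) ≠ y from fun h => hxy (Subtype.ext h)]
      have h5 := Finset.card_le_card (show ({(x : α), (y : α), z, (v : α)} : Finset α) ⊆ s by
        simp [Finset.insert_subset_iff, hz])
      omega
    rcases hthree (τ w) with h | h | h
    · rw [h, Equiv.swap_apply_left]; exact n1
    · rw [h, Equiv.swap_apply_right]; exact n2
    · rw [Equiv.swap_apply_of_ne_of_ne (fun h' => hzx (h.symm.trans (congrArg Subtype.val h')))
        (fun h' => hzy (h.symm.trans (congrArg Subtype.val h'))), h]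
      exact n3
  apply isMultiplyPretransitive_three
  intro a b x a' b' x' hab hax hbx hab' hax' hbx'
  obtain ⟨n₁, h11, h12⟩ := h2 hab hab'
  suffices hmain : ∀ u v : α, u ≠ a' → u ≠ b' → v ≠ a' → v ≠ b' →
      v ∈ MulAction.orbit (fixingSubgroup N' (({a', b'} : Finset α) : Set α)) u by
    obtain ⟨⟨⟨m, hm⟩, hfix⟩, hmx⟩ := hmain (n₁ • x) x'
      (fun h => hax (smul_left_cancel n₁ (h11.trans h.symm)))
      (fun h => hbx (smul_left_cancel n₁ (h12.trans h.symm))) hax'.symm hbx'.symm
    rw [mem_fixingSubgroup_iff] at hfix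
    obtain ⟨n₂, hn₂, rfl⟩ := hm
    refine ⟨⟨n₂, hn₂⟩ * n₁, ?_, ?_, ?_⟩
    · rw [mul_smul, h11]; exact hfix a' (by simp)
    · rw [mul_smul, h12]; exact hfix b' (by simp)
    · rw [mul_smul]; exact hmx
  intro u v hua hub hva hvb
  by_contra hne
  set H := fixingSubgroup N' (({a', b'} : Finset α) : Set α) with hH
  have hbad : ∀ w, w ≠ a' → w ≠ b' → ¬ 2 ∣ Nat.card (MulAction.orbit H w) := by
    intro w hwa hwb hdvd
    set O := MulAction.orbit H w with hO
    set s : Set α := (({a', b'} : Finset α) : Set α) with hs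
    set K := fixingSubgroup G s with hK
    haveI hKt : IsPretransitive K (SubMulAction.ofFixingSubgroup G s) :=
      is_one_pretransitive_iff.1 (ofFixingSubgroup.isMultiplyPretransitive G (n := 3) s (by
        rw [hs, Set.ncard_coe_finset, Finset.card_pair hab']))
    have hwmem : w ∈ SubMulAction.ofFixingSubgroup G s :=
      (SubMulAction.mem_ofFixingSubgroup_iff G).2 (by simp [hs, hwa, hwb])
    set B : Set (SubMulAction.ofFixingSubgroup G s) :=
      MulAction.orbit (N.subgroupOf K) (⟨w, hwmem⟩ : SubMulAction.ofFixingSubgroup G s)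
    have hB := (IsBlock.orbit_of_normal (G := K) (N := N.subgroupOf K)
      (⟨w, hwmem⟩ : SubMulAction.ofFixingSubgroup G s)).ncard_dvd_card
        ⟨_, MulAction.mem_orbit_self _⟩
    have himg : O = Subtype.val '' B := by
      ext z
      constructor
      · rintro ⟨⟨⟨_, n, hn, rfl⟩, hfix⟩, rfl⟩
        have hnK : n ∈ K := (mem_fixingSubgroup_iff G).2 ((mem_fixingSubgroup_iff N').1 hfix)
        exact ⟨_, ⟨⟨⟨n, hnK⟩, hn⟩, rfl⟩, rfl⟩
      · rintro ⟨_, ⟨⟨⟨n, hnK⟩, hn⟩, rfl⟩, rfl⟩
        exact ⟨⟨⟨_, n, hn, rfl⟩, (mem_fixingSubgroup_iff N').2 ((mem_fixingSubgroup_iff G).1 hnK)⟩,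
          rfl⟩
    have hcard2 : Nat.card (SubMulAction.ofFixingSubgroup G s) = Fintype.card α - 2 := by
      rw [show Nat.card (SubMulAction.ofFixingSubgroup G s) = sᶜ.ncard from Nat.card_coe_set_eq _,
        Set.ncard_compl, hs, Set.ncard_coe_finset, Finset.card_pair hab', hn]
    rw [himg, Nat.card_coe_set_eq, Set.ncard_image_of_injective _ Subtype.coe_injective] at hdvd
    have h6 := hdvd.trans hB
    rw [hcard2] at h6
    rcases hodd with ⟨i, hi⟩
    omega
  obtain ⟨i, hi⟩ := generous_exists_dvd_orbit (G := N') (k := 2) (p := 2) (by omega) hgen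
    Nat.prime_two le_rfl {a', b'} (Finset.card_pair hab') ![u, v]
    (by intro i; fin_cases i <;> simp [hua, hub, hva, hvb])
    (by
      intro i j hij
      fin_cases i <;> fin_cases j <;> simp at hij ⊢
      · exact hne
      · exact fun h => hne (MulAction.mem_orbit_symm.1 h))
  fin_cases i
  · exact hbad u hua hub hi
  · exact hbad v hva hvb hi

end Cfsg.Agent.H36
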