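import Cfsg.Agent.H36.O7CoverChecks
import Cfsg.Agent.H16.O7Iso
import Cfsg.Agent.H36.AutEngine

/-!
A stem extension of the presented group O7(3) with cyclic kernel of order six: lifts of the
generators acting on a threefold cover of the 3159 cosets together with a spinor orbit.
-/

set_option autoImplicit false
set_option maxRecDepth 100000

namespace Cfsg.Agent.H36.O7Cover

open Cfsg.Agent.H16 Cfsg.Agent.H16.EnumData Cfsg.Agent.H16.CoxEnum Equiv Cfsg.Spor

noncomputable section

theorem tabs_len : tabs.length = 8 := rfl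

theorem compat (x : Fin size) :
    zap x < size ∧ iterPt zap 6 x = x ∧ ∀ g, g < 8 → ap g x < size ∧ ap g (zap x) = zap (ap g x) ∧
      ap g (iterPt zap 3 (ap g x)) = x := by
  have h := compat_ok x x.isLt
  simp only [compatOk, forceNat_eq, Bool.and_eq_true, Nat.blt_eq] at h
  refine ⟨h.1.1, Nat.eq_of_beq_eq_true h.1.2, fun g hg => ?_⟩
  have hg' := allFrom_spec h.2 g (Nat.zero_le _) (by omega)
  simp only [forceNat_eq, Bool.and_eq_true, Nat.blt_eq] at hg'
  exact ⟨hg'.1.1, Nat.eq_of_beq_eq_true hg'.1.2, Nat.eq_of_beq_eq_true hg'.2⟩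

theorem iterPt_succ (f : ℕ → ℕ) (m x : ℕ) : iterPt f (m + 1) x = f (iterPt f m x) :=
  forceNat_eq _ _

theorem iter_lt (m : ℕ) (x : Fin size) : iterPt zap m x < size := by
  induction m with
  | zero => exact x.isLt
  | succ m ih => rw [iterPt_succ]; exact (compat ⟨_, ih⟩).1

/-- The central permutation. -/
def zPerm : Perm (Fin size) where
  toFun x := ⟨zap x, (compat x).1⟩
  invFun x := ⟨iterPt zap 5 x, iter_lt 5 x⟩
  left_inv x := Fin.ext (by
    have e : iterPt zap 6 x = iterPt zap 5 (zap x) := by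
      simp only [iterPt, forceNat_eq]
      rfl
    exact e.symm.trans (compat x).2.1)
  right_inv x := Fin.ext ((iterPt_succ zap 5 x).symm.trans (compat x).2.1)

theorem zPerm_pow (m : ℕ) (x : Fin size) : (((zPerm ^ m) x : Fin size) : ℕ) = iterPt zap m x := by
  induction m with
  | zero => rfl
  | succ m ih => rw [pow_succ', Perm.mul_apply, iterPt_succ, ← ih]; rfl

theorem zPerm_six : zPerm ^ 6 = 1 := Equiv.ext fun x => Fin.ext ((zPerm_pow 6 x).trans (compat x).2.1)

theorem ap_comm_iter {g : ℕ} (hg : g < 8) (m : ℕ) (x : Fin size) :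
    ap g (iterPt zap m x) = iterPt zap m (ap g x) := by
  induction m with
  | zero => rfl
  | succ m ih => rw [iterPt_succ, iterPt_succ, ((compat ⟨_, iter_lt m x⟩).2.2 g hg).2.1, ih]

/-- The lifted generators, the identity beyond the eighth. -/
def liftPerm (g : ℕ) : Perm (Fin size) :=
  if hg : g < 8 then
    { toFun := fun x => ⟨ap g x, ((compat x).2.2 g hg).1⟩
      invFun := fun x => ⟨iterPt zap 3 (ap g x), iter_lt 3 ⟨_, ((compat x).2.2 g hg).1⟩⟩
      left_inv := fun x => Fin.ext (by
        show iterPt zap 3 (ap g (ap g x)) = x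
        rw [← ap_comm_iter hg 3 ⟨_, ((compat x).2.2 g hg).1⟩]
        exact ((compat x).2.2 g hg).2.2)
      right_inv := fun x => Fin.ext ((compat x).2.2 g hg).2.2 }
  else 1

theorem liftPerm_apply {g : ℕ} (hg : g < 8) (x : Fin size) : ((liftPerm g x : Fin size) : ℕ) = ap g x := by
  rw [liftPerm, dif_pos hg]; rfl

theorem liftPerm_comm (g : ℕ) : Commute (liftPerm g) zPerm := by
  by_cases hg : g < 8
  · refine Equiv.ext fun x => Fin.ext ?_
    rw [Perm.mul_apply, Perm.mul_apply, liftPerm_apply hg]
    show ap g (zap x) = zap (liftPerm g x : Fin size)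
    rw [liftPerm_apply hg]
    exact ((compat x).2.2 g hg).2.1
  · rw [liftPerm, dif_neg hg]; exact Commute.one_left _

theorem ev_comm : ∀ w : List ℕ, Commute (ev liftPerm w) zPerm
  | [] => Commute.one_left _
  | g :: w => by rw [ev]; exact (ev_comm w).mul_left (liftPerm_comm g)

theorem ev_apply : ∀ w : List ℕ, (∀ g ∈ w, g < 8) → ∀ x : Fin size,
    ((ev liftPerm w x : Fin size) : ℕ) = run w x
  | [], _, x => rfl
  | g :: w, h, x => by
    rw [ev, Perm.mul_apply, ev_apply w (fun a ha => h a (List.mem_cons_of_mem _ ha))]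
    show run w _ = forceNat (x : ℕ) fun i => forceNat (ap g i) fun j => run w j
    rw [forceNat_eq, forceNat_eq, liftPerm_apply (h g List.mem_cons_self)]

theorem relWords_lt : relWords.all (fun w => w.all fun g => Nat.blt g 8) = true := by decide +kernel

theorem relWords_length : relWords.length = 66 := by decide +kernel

theorem rel_value (k : ℕ) (hk : k < 66) : ev liftPerm (getW relWords k) = zPerm ^ getN relExps k := by
  have hlt : ∀ g ∈ getW relWords k, g < 8 := by
    intro g hg
    have hkl : k < relWords.length := relWords_length ▸ hk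
    rw [AutEngine.trans_complete.getW_eq _ _ hkl] at hg
    simpa using List.all_eq_true.1 (List.all_eq_true.1 relWords_lt _ (List.getElem_mem hkl)) g hg
  have hrep : ∀ x : Fin size, (∃ i, i < 4239 ∧ reps.get 16 i = (x : ℕ)) →
      ev liftPerm (getW relWords k) x = (zPerm ^ getN relExps k) x := by
    rintro x ⟨i, hi, e⟩
    have h := allFrom_spec (rel_ok k hk) i (Nat.zero_le _) (by omega)
    simp only [relOkAt, forceNat_eq, e] at h
    exact Fin.ext ((ev_apply _ hlt x).trans ((Nat.eq_of_beq_eq_true h).trans (zPerm_pow _ x).symm))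
  refine Equiv.ext fun x => ?_
  have hx := cover_ok x x.isLt
  simp only [coverAt, forceNat_eq, Bool.and_eq_true, Nat.blt_eq] at hx
  set i := bitField (orbTab.get 24 x) 0 16
  set j := bitField (orbTab.get 24 x) 16 8
  obtain ⟨hi, hj⟩ := hx
  have hy : reps.get 16 i < size := reps_lt i hi
  set y : Fin size := ⟨_, hy⟩
  have hxy : x = (zPerm ^ j) y := Fin.ext (by rw [zPerm_pow]; exact (Nat.eq_of_beq_eq_true hj).symm)
  rw [hxy, ← Perm.mul_apply, ← Perm.mul_apply, ((ev_comm _).pow_right j).eq, ← pow_add, Nat.add_comm, pow_add,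
    Perm.mul_apply, Perm.mul_apply, hrep y ⟨i, hi, rfl⟩]
where
  reps_lt : ∀ i, i < 4239 → reps.get 16 i < size := by
    have h : allFrom (fun i => Nat.blt (reps.get 16 i) size) 4239 0 = true := by decide +kernel
    exact fun i hi => Nat.le_of_ble_eq_true (allFrom_spec h i (Nat.zero_le _) (by omega))

/-- The product in which the cover lives. -/
abbrev Amb : Type := Perm (Fin size) × O7U.Grp

/-- The lifts with their images. -/
def pairGen (g : ℕ) : Amb := (liftPerm g, O7U.val g)

/-- The cover. -/
def cover : Subgroup Amb := Subgroup.closure (Set.range fun g : Fin 8 => pairGen g)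

/-- The central element of the ambient group. -/
def zAmb : Amb := (zPerm, 1)

theorem fst_ev : ∀ w : List ℕ, (ev pairGen w).1 = ev liftPerm w
  | [] => rfl
  | g :: w => by rw [ev, ev, Prod.fst_mul, fst_ev w]; rfl

theorem snd_ev : ∀ w : List ℕ, (ev pairGen w).2 = ev O7U.val w
  | [] => rfl
  | g :: w => by rw [ev, ev, Prod.snd_mul, snd_ev w]; rfl

theorem pairGen_mem {g : ℕ} (hg : g < 8) : pairGen g ∈ cover := Subgroup.subset_closure ⟨⟨g, hg⟩, rfl⟩

theorem ev_mem : ∀ w : List ℕ, (∀ g ∈ w, g < 8) → ev pairGen w ∈ cover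
  | [], _ => one_mem _
  | g :: w, h => by
    rw [ev]
    exact mul_mem (ev_mem w fun a ha => h a (List.mem_cons_of_mem _ ha)) (pairGen_mem (h g List.mem_cons_self))

theorem words_base : relWords.all (fun w => O7Order.baseWords.contains w || O7Order.baseWords.contains w.reverse) = true := by
  decide +kernel

theorem val_sq (g : ℕ) : O7U.val g * O7U.val g = 1 := O7Order.wordGroupO7.sq g

theorem snd_rel (k : ℕ) (hk : k < 66) : ev O7U.val (getW relWords k) = 1 := by
  have hkl : k < relWords.length := relWords_length ▸ hk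
  rw [AutEngine.trans_complete.getW_eq _ _ hkl]
  have h := List.all_eq_true.1 words_base _ (List.getElem_mem hkl)
  simp only [Bool.or_eq_true, List.contains_iff_mem] at h
  rcases h with h | h
  · exact O7Order.wordGroupO7.base_one _ h
  · have := O7Order.wordGroupO7.base_one _ h
    rw [ev_reverse _ val_sq, inv_eq_one] at this
    exact this

theorem rel_pair (k : ℕ) (hk : k < 66) : ev pairGen (getW relWords k) = zAmb ^ getN relExps k :=
  Prod.ext (by rw [fst_ev, rel_value k hk]; rfl) (by rw [snd_ev, snd_rel k hk]; simp [zAmb])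

theorem zAmb_six : zAmb ^ 6 = 1 := Prod.ext (by simpa [zAmb] using zPerm_six) (by simp [zAmb])

theorem zAmb_mem : zAmb ∈ cover := by
  have h := ev_mem (getW relWords 64) (fun g hg => by
    have h64 : (getW relWords 64).all (fun g => Nat.blt g 8) = true := by decide +kernel
    simpa using List.all_eq_true.1 h64 g hg)
  rw [rel_pair 64 (by norm_num), show getN relExps 64 = 5 by decide +kernel] at h
  have e : (zAmb ^ 5) ^ 5 = zAmb := by
    rw [← pow_mul, show 5 * 5 = 6 * 4 + 1 by rfl, pow_succ, pow_mul, zAmb_six, one_pow, one_mul]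
  exact e ▸ pow_mem h 5

instance cover_finite : Finite cover := inferInstance

/-- The central element. -/
def zC : cover := ⟨zAmb, zAmb_mem⟩

theorem zC_central : zC ∈ Subgroup.center cover := by
  have h : cover ≤ Subgroup.centralizer ({zAmb} : Set Amb) := by
    refine (Subgroup.closure_le _).2 ?_
    rintro _ ⟨g, rfl⟩
    rw [SetLike.mem_coe, Subgroup.mem_centralizer_singleton_iff]
    exact Prod.ext (liftPerm_comm g).eq (by simp [zAmb, pairGen])
  rw [Subgroup.mem_center_iff]
  exact fun g => Subtype.ext (Subgroup.mem_centralizer_singleton_iff.1 (h g.2))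

/-- The projection. -/
def proj : cover →* O7U.Grp := (MonoidHom.snd _ _).comp cover.subtype

theorem val_eq (x : O7U.Gen) : O7U.val (O7U.gens.idxOf x) = PresentedGroup.of x := by cases x <;> rfl

theorem idx_lt (x : O7U.Gen) : O7U.gens.idxOf x < 8 := by cases x <;> decide

theorem proj_surjective : Function.Surjective proj := by
  rw [← MonoidHom.range_eq_top, eq_top_iff, ← PresentedGroup.closure_range_of, Subgroup.closure_le]
  rintro _ ⟨x, rfl⟩
  exact ⟨⟨pairGen _, pairGen_mem (idx_lt x)⟩, val_eq x⟩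

instance : (Subgroup.zpowers zC).Normal :=
  ⟨fun n hn g => by
    obtain ⟨j, rfl⟩ := hn
    rw [(Subgroup.mem_center_iff.1 (Subgroup.zpow_mem _ zC_central j)) g, mul_inv_cancel_right]
    exact ⟨j, rfl⟩⟩

/-- The lift of a generator modulo the central element. -/
def quotGen (x : O7U.Gen) : cover ⧸ Subgroup.zpowers zC :=
  QuotientGroup.mk ⟨pairGen (O7U.gens.idxOf x), pairGen_mem (idx_lt x)⟩

theorem mk_coe {w : cover} {k : ℕ} (h : (w : Amb) = zAmb ^ k) :
    (QuotientGroup.mk w : cover ⧸ Subgroup.zpowers zC) = 1 := by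
  rw [QuotientGroup.eq_one_iff]
  exact ⟨k, Subtype.ext (by rw [h]; simp [zC])⟩

theorem ev_quot : ∀ (w : List ℕ) (h : ∀ g ∈ w, g < 8),
    ev (numGen O7U.gens quotGen) w = QuotientGroup.mk ⟨ev pairGen w, ev_mem w h⟩
  | [], _ => rfl
  | g :: w, h => by
    have hg := h g List.mem_cons_self
    rw [ev, ev_quot w (fun a ha => h a (List.mem_cons_of_mem _ ha))]
    have e : numGen O7U.gens quotGen g = QuotientGroup.mk ⟨pairGen g, pairGen_mem hg⟩ := by
      interval_cases g <;> rfl
    rw [e, ← QuotientGroup.mk_mul]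
    rfl

theorem pair_index : ∀ x y : O7U.Gen, ∃ k < 66, getW relWords k = pairWord O7U.gens O7U.edges x y := by
  intro x y
  refine ⟨8 * O7U.gens.idxOf y + O7U.gens.idxOf x, by have := idx_lt x; have := idx_lt y; omega, ?_⟩
  cases x <;> cases y <;> decide +kernel

theorem quotGen_sq (x : O7U.Gen) : quotGen x * quotGen x = 1 := by
  have hx := idx_lt x
  have hk : 8 * O7U.gens.idxOf x + O7U.gens.idxOf x < 66 := by omega
  have e : getW relWords (8 * O7U.gens.idxOf x + O7U.gens.idxOf x) = [O7U.gens.idxOf x, O7U.gens.idxOf x] := by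
    cases x <;> decide +kernel
  have h := rel_pair _ hk
  rw [e] at h
  rw [quotGen, ← QuotientGroup.mk_mul]
  refine mk_coe (k := getN relExps (8 * O7U.gens.idxOf x + O7U.gens.idxOf x)) ?_
  rw [← h]
  simp [ev]

theorem quot_rel (k : ℕ) (hk : k < 66) : ev (numGen O7U.gens quotGen) (getW relWords k) = 1 := by
  have hkl : k < relWords.length := relWords_length ▸ hk
  have hlt : ∀ g ∈ getW relWords k, g < 8 := by
    intro g hg
    rw [AutEngine.trans_complete.getW_eq _ _ hkl] at hg
    simpa using List.all_eq_true.1 (List.all_eq_true.1 relWords_lt _ (List.getElem_mem hkl)) g hg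
  rw [ev_quot _ hlt]
  exact mk_coe (rel_pair k hk)

theorem quot_rels : ∀ r ∈ coxRelators O7U.edges ∪ {r | r ∈ O7U.extra}, FreeGroup.lift quotGen r = 1 := by
  intro r hr
  rcases hr with ⟨x, -, y, -, rfl⟩ | hr
  · obtain ⟨k, hk, e⟩ := pair_index x y
    rw [map_pow, map_mul, FreeGroup.lift_apply_of, FreeGroup.lift_apply_of,
      ← ev_pairWord (edges := O7U.edges) quotGen (O7U.mem_gens x).1 (O7U.mem_gens y).1, ← e]
    exact quot_rel k hk
  · have key : ∀ (rs : List (FreeGroup O7U.Gen)) (ws : List (List Nat)), List.Forall₂ (fun r w =>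
        (O7U.data.words.take O7U.data.nbase).contains w = true ∧ ∀ {G : Type} [Group G] (f : O7U.Gen → G),
          (∀ x, f x * f x = 1) → FreeGroup.lift f r = ev (numGen O7U.gens f) w) rs ws →
        (∀ w ∈ ws, ∃ k < 66, getW relWords k = w) → r ∈ rs → FreeGroup.lift quotGen r = 1 := by
      intro rs ws hall
      induction hall with
      | nil => intro _ h; simp at h
      | @cons r' w' rs ws hrw _ ih =>
        intro hws h
        rcases List.mem_cons.mp h with rfl | h
        · obtain ⟨k, hk, e⟩ := hws w' List.mem_cons_self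
          rw [hrw.2 _ quotGen_sq, ← e]
          exact quot_rel k hk
        · exact ih (fun w hw => hws w (List.mem_cons_of_mem _ hw)) h
    refine key O7U.extra O7U.extraWords O7U.presCheck.extra_ok ?_ hr
    intro w hw
    simp only [O7U.extraWords, List.mem_cons, List.not_mem_nil, or_false] at hw
    rcases hw with rfl | rfl
    · exact ⟨64, by norm_num, by decide +kernel⟩
    · exact ⟨65, by norm_num, by decide +kernel⟩

/-- The map from the presented group. -/
def toQuot : O7U.Grp →* cover ⧸ Subgroup.zpowers zC := PresentedGroup.toGroup quot_rels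

theorem toQuot_gen (x : O7U.Gen) : toQuot (PresentedGroup.of x) = quotGen x := PresentedGroup.toGroup.of _

theorem toQuot_proj (g : cover) : toQuot (proj g) = QuotientGroup.mk g := by
  obtain ⟨g, hg⟩ := g
  induction hg using Subgroup.closure_induction with
  | mem s hs =>
    obtain ⟨c, rfl⟩ := hs
    fin_cases c <;> exact toQuot_gen _
  | one => exact map_one (toQuot.comp proj)
  | mul a b ha hb iha ihb =>
    rw [show (⟨a * b, _⟩ : cover) = ⟨a, ha⟩ * ⟨b, hb⟩ from rfl, map_mul, map_mul, iha, ihb]; rfl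
  | inv a ha iha =>
    rw [show (⟨a⁻¹, _⟩ : cover) = ⟨a, ha⟩⁻¹ from rfl, map_inv, map_inv, iha]; rfl

theorem ker_proj : proj.ker = Subgroup.zpowers zC := by
  refine le_antisymm (fun g hg => ?_) (Subgroup.zpowers_le.2 rfl)
  rw [← QuotientGroup.eq_one_iff (N := Subgroup.zpowers zC), ← toQuot_proj, MonoidHom.mem_ker.1 hg, map_one]

theorem orderOf_zC : orderOf zC = 6 := by
  have h6 : zC ^ 6 = 1 := Subtype.ext zAmb_six
  have hd : orderOf zC ∣ 6 := orderOf_dvd_of_pow_eq_one h6
  have hne : ∀ m : ℕ, zC ^ m = 1 → ∀ x : Fin size, iterPt zap m x = x := fun m e x => by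
    have e' : zPerm ^ m = 1 := by
      have := congrArg (fun q : cover => (q : Amb).1) e
      simpa [zC, zAmb] using this
    rw [← zPerm_pow, e']; rfl
  have hle : orderOf zC ≤ 6 := Nat.le_of_dvd (by norm_num) hd
  have hpow : zC ^ orderOf zC = 1 := pow_orderOf_eq_one _
  have hpos : 0 < orderOf zC := Nat.pos_of_dvd_of_pos hd (by norm_num)
  generalize orderOf zC = m at hd hle hpow hpos
  interval_cases m
  · exact absurd (hne 1 hpow ⟨0, by decide⟩) (by decide +kernel)
  · exact absurd (hne 2 hpow ⟨0, by decide⟩) (by decide +kernel)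
  · exact absurd (hne 3 hpow ⟨11636, by decide⟩) (by decide +kernel)
  · norm_num at hd
  · norm_num at hd
  · rfl

theorem pair_sq (g : Fin 8) : pairGen g * pairGen g = zAmb ^ 3 := by
  have h := rel_pair (8 * (g : ℕ) + g) (by omega)
  rw [show getW relWords (8 * (g : ℕ) + g) = [(g : ℕ), (g : ℕ)] by fin_cases g <;> decide +kernel,
    show getN relExps (8 * (g : ℕ) + g) = 3 by fin_cases g <;> decide +kernel] at h
  simpa [ev] using h

theorem zC_mem_commutator : zC ∈ commutator cover := by
  let χ : cover →* Abelianization cover := Abelianization.of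
  suffices h : χ zC = 1 by
    rwa [← Abelianization.ker_of, MonoidHom.mem_ker]
  let a : Fin 8 → cover := fun g => ⟨pairGen g, pairGen_mem g.2⟩
  have hsq : ∀ g : Fin 8, χ (a g) ^ 2 = χ zC ^ 3 := fun g => by
    rw [← map_pow, ← map_pow]; exact congrArg χ (Subtype.ext (by rw [pow_two]; exact pair_sq g))
  have h02 : (χ (a 0) * χ (a 2)) ^ 2 = χ zC ^ 3 := by
    have h := rel_pair 2 (by norm_num)
    rw [show getW relWords 2 = [0, 2, 0, 2] by decide +kernel, show getN relExps 2 = 3 by decide +kernel] at h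
    rw [mul_comm (χ (a 0)), ← map_mul, ← map_pow, ← map_pow]
    refine congrArg χ (Subtype.ext ?_)
    simp only [pow_two, Subgroup.coe_mul, zC, SubgroupClass.coe_pow]
    rw [← h]
    simp [ev, a, mul_assoc]
  have hz3 : χ zC ^ 3 = 1 := by
    rw [mul_pow, hsq, hsq] at h02
    simpa using h02
  have hperf : ∀ e : cover, ∃ j : ℤ, χ e = χ zC ^ j := fun e => by
    have hp : proj e ∈ commutator O7U.Grp := by rw [O7Iso.perfect]; trivial
    rw [commutator_def, ← Subgroup.map_top_of_surjective proj proj_surjective, ← Subgroup.map_commutator] at hp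
    obtain ⟨c, hc, hce⟩ := hp
    have hk : c⁻¹ * e ∈ Subgroup.zpowers zC := by
      rw [← ker_proj, MonoidHom.mem_ker, map_mul, map_inv, hce, inv_mul_cancel]
    obtain ⟨j, hj⟩ := hk
    replace hj : zC ^ j = c⁻¹ * e := hj
    refine ⟨j, ?_⟩
    have hc1 : χ c = 1 := by
      rw [← MonoidHom.mem_ker, Abelianization.ker_of, commutator_def]; exact hc
    rw [show e = c * zC ^ j by rw [hj, mul_inv_cancel_left], map_mul, hc1, one_mul, map_zpow]
  have ha : ∀ g, χ (a g) = 1 := fun g => by
    obtain ⟨j, hj⟩ := hperf (a g)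
    have h3 : χ (a g) ^ 3 = 1 := by
      rw [hj, ← zpow_natCast, ← zpow_mul, mul_comm, zpow_mul, zpow_natCast, hz3, one_zpow]
    have h2 : χ (a g) ^ 2 = 1 := (hsq g).trans hz3
    rw [pow_succ, h2, one_mul] at h3
    exact h3
  have hall : ∀ (e : Amb) (he : e ∈ cover), χ ⟨e, he⟩ = 1 := fun e he => by
    induction he using Subgroup.closure_induction with
    | mem s hs => obtain ⟨c, rfl⟩ := hs; exact ha c
    | one => exact map_one χ
    | mul u v hu hv ihu ihv =>
      rw [show (⟨u * v, _⟩ : cover) = ⟨u, hu⟩ * ⟨v, hv⟩ from rfl, map_mul, ihu, ihv, one_mul]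
    | inv u hu ihu =>
      rw [show (⟨u⁻¹, _⟩ : cover) = ⟨u, hu⟩⁻¹ from rfl, map_inv, ihu, inv_one]
  exact hall zAmb zAmb_mem

/-- The sixfold stem extension. -/
theorem exists_cover : ∃ (Γ : Type) (_ : Group Γ) (_ : Finite Γ) (π : Γ →* O7U.Grp),
    Cfsg.IsStemExtension π ∧ IsCyclic π.ker ∧ Nat.card π.ker = 6 := by
  refine ⟨cover, inferInstance, inferInstance, proj, ⟨proj_surjective, ?_, ?_⟩, ?_, ?_⟩
  · rw [ker_proj, Subgroup.zpowers_le]; exact zC_central
  · rw [ker_proj, Subgroup.zpowers_le]; exact zC_mem_commutator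
  · rw [ker_proj]; infer_instance
  · rw [ker_proj, Nat.card_zpowers, orderOf_zC]

end

end Cfsg.Agent.H36.O7Cover
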