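import Cfsg.Agent.H36.O7MultChecks
import Cfsg.Agent.H36.O7Cover
import Cfsg.Agent.H13.SylMult.Mult

/-!
The Schur multiplier of POmega7(3) is cyclic of order six: bounds from Sylow subgroups at two and
three on the 3159-point model, and the sixfold cover.
-/

set_option autoImplicit false
set_option maxRecDepth 100000

namespace Cfsg.Agent.H36.O7Mult

open Cfsg.Agent.H16 Cfsg.Agent.H16.EnumData Cfsg.Agent.H13.SylMult Cfsg.Agent.H36.AutEngine Equiv

noncomputable section

theorem gens_length : ctx.gens.length = 8 := rfl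

/-- The generators on the cosets. -/
def gen (c : Fin ctx.gens.length) : Perm (Fin ctx.n) := O7U.valid.perm c

theorem rep_ok : allFrom (fun g => allFrom (fun x => Nat.beq (O7U.data.act x g) (ctx.ap (getN genTab g) x)) 3159 0)
    8 0 = true := by decide +kernel

theorem gen_rep (c : Fin ctx.gens.length) : ctx.Rep (gen c) (getN ctx.gens c) := by
  intro x
  have hg : (c : ℕ) < O7U.data.ng := c.2
  have hx : (x : ℕ) < 3159 := x.2
  have h := allFrom_spec (allFrom_spec rep_ok c (Nat.zero_le _) (Nat.lt_of_lt_of_eq c.2 (gens_length.trans (Nat.zero_add 8).symm))) x (Nat.zero_le _) (by omega)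
  refine Eq.trans ?_ (Nat.eq_of_beq_eq_true h)
  show ((O7U.valid.perm (c : ℕ) x : Fin O7U.data.n) : ℕ) = _
  rw [Valid.perm, dif_pos hg]
  rfl

/-- The permutation group. -/
def grp : Subgroup (Perm (Fin ctx.n)) := Subgroup.closure (Set.range gen)

theorem grp_eq : grp = (O7U.theModel.rho.range : Subgroup (Perm (Fin O7U.data.n))) := by
  have h : (O7U.theModel.rho.range : Subgroup (Perm (Fin O7U.data.n))) =
      Subgroup.closure (Set.range fun g => O7U.valid.perm g) := by
    rw [MonoidHom.range_eq_map, ← O7U.theModel.gen_closure, MonoidHom.map_closure]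
    congr 1
    ext p
    simp only [Set.mem_image, Set.mem_range]
    constructor
    · rintro ⟨_, ⟨g, rfl⟩, rfl⟩; exact ⟨g, (O7U.theModel.rho_gen g).symm⟩
    · rintro ⟨g, rfl⟩; exact ⟨_, ⟨g, rfl⟩, O7U.theModel.rho_gen g⟩
  refine le_antisymm ((Subgroup.closure_le _).2 ?_) (h.le.trans ((Subgroup.closure_le _).2 ?_))
  · rintro _ ⟨c, rfl⟩
    rw [h]
    exact Subgroup.subset_closure ⟨(c : ℕ), rfl⟩
  · rintro _ ⟨g, rfl⟩
    by_cases hg : g < O7U.data.ng
    · exact Subgroup.subset_closure ⟨(⟨g, hg⟩ : Fin ctx.gens.length), rfl⟩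
    · show O7U.valid.perm g ∈ _
      rw [Valid.perm, dif_neg hg]
      exact one_mem _

/-- The presented group and the permutation group. -/
def modelEquiv : O7U.Grp ≃* grp :=
  (MonoidHom.ofInjective O7Order.card_and_faithful.2).trans (MulEquiv.subgroupCongr grp_eq.symm)

theorem card_grp : Nat.card grp = 4585351680 := by
  rw [← Nat.card_congr modelEquiv.toEquiv, O7Order.card_and_faithful.1]

/-- The kernel of a stem extension has order dividing six. -/
theorem card_ker_dvd_six {Δ : Type*} [Group Δ] [Finite Δ] (τ : Δ →* Subgroup.closure (Set.range gen))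
    (hτ : Cfsg.IsStemExtension τ) : Nat.card τ.ker ∣ 6 := by
  obtain ⟨E2, F2, h2⟩ := groupFacts (R := perm2) (D := pc2) (C := cert2) gen gen_rep perm2_ok (by decide +kernel)
    (show Nat.Prime 2 by norm_num) pc2_ok rows2_ok (by decide +kernel)
  obtain ⟨E3, F3, h3⟩ := groupFacts (R := perm3) (D := pc3) (C := cert3) gen gen_rep perm3_ok (by decide +kernel)
    (show Nat.Prime 3 by norm_num) pc3_ok rows3_ok (by decide +kernel)
  have hc : Nat.card (Subgroup.closure (Set.range gen)) = 4585351680 := card_grp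
  have b2 := factorization_ker_le hτ (show Nat.Prime 2 by norm_num) pc2_ok rows2_ok combos2_ok h2
    (factorization_eq (a := 9) (b := 8955765) (by norm_num : Nat.Prime 2) (by rw [hc]; rfl)
      (show ¬ (2 : ℕ) ∣ 8955765 by norm_num))
  have b3 := factorization_ker_le hτ (show Nat.Prime 3 by norm_num) pc3_ok rows3_ok combos3_ok h3
    (factorization_eq (a := 9) (b := 232960) (by norm_num : Nat.Prime 3) (by rw [hc]; rfl)
      (show ¬ (3 : ℕ) ∣ 232960 by norm_num))
  have h6 : (6 : ℕ).factorization 2 = 1 ∧ (6 : ℕ).factorization 3 = 1 :=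
    ⟨factorization_eq (a := 1) (b := 3) Nat.prime_two rfl (by norm_num),
      factorization_eq (a := 1) (b := 2) Nat.prime_three rfl (by norm_num)⟩
  refine card_ker_dvd hτ (by norm_num) [2, 3] (fun p hp => ?_) (fun p hp hn => ?_)
  · simp only [List.mem_cons, List.not_mem_nil, or_false] at hp
    rcases hp with rfl | rfl
    · rw [h6.1]; exact b2
    · rw [h6.2]; exact b3
  · rw [hc]
    simp only [List.mem_cons, List.not_mem_nil, or_false, not_or] at hn
    by_contra hlt
    have hd : p ^ 2 ∣ 2 ^ 9 * (3 ^ 9 * (5 * 7 * 13)) := by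
      refine (pow_dvd_pow p (by omega : 2 ≤ (4585351680 : ℕ).factorization p)).trans ?_
      norm_num
      exact Nat.ordProj_dvd 4585351680 p
    have cop : ∀ q k, q.Prime → p ≠ q → Nat.Coprime (p ^ 2) (q ^ k) := fun q k hq hne =>
      Nat.Coprime.pow 2 k ((Nat.coprime_primes hp hq).2 hne)
    have h1 := (cop 2 9 Nat.prime_two hn.1).dvd_of_dvd_mul_left hd
    have h2' := (cop 3 9 Nat.prime_three hn.2).dvd_of_dvd_mul_left h1
    have h0 : p ∣ 5 * 7 * 13 := (dvd_pow_self p two_ne_zero).trans h2'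
    rcases (Nat.Prime.dvd_mul hp).1 h0 with h | h
    · rcases (Nat.Prime.dvd_mul hp).1 h with h | h
      · rw [(Nat.prime_dvd_prime_iff_eq hp (by norm_num)).1 h] at h2'; norm_num at h2'
      · rw [(Nat.prime_dvd_prime_iff_eq hp (by norm_num)).1 h] at h2'; norm_num at h2'
    · rw [(Nat.prime_dvd_prime_iff_eq hp (by norm_num)).1 h] at h2'; norm_num at h2'

section transfer

variable {A B : Type*} [Group A] [Group B] (ψ : A ≃* B)

theorem map_commutator_equiv : (commutator A).map ψ.toMonoidHom = commutator B := by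
  rw [commutator_def, Subgroup.map_commutator, ← MonoidHom.range_eq_map, MonoidHom.range_eq_top.2 ψ.surjective]
  rfl

/-- The derived groups modulo their centres. -/
def derivedCongr : commutator A ⧸ Subgroup.center (commutator A) ≃* commutator B ⧸ Subgroup.center (commutator B) :=
  let e : commutator A ≃* commutator B :=
    (ψ.subgroupMap (commutator A)).trans (MulEquiv.subgroupCongr (map_commutator_equiv ψ))
  QuotientGroup.congr _ _ e (by
    ext y
    rw [Subgroup.mem_map, Subgroup.mem_center_iff]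
    constructor
    · rintro ⟨x, hx, rfl⟩ z
      obtain ⟨w, rfl⟩ := e.surjective z
      have := congrArg e (Subgroup.mem_center_iff.1 hx w)
      rwa [map_mul, map_mul] at this
    · intro hy
      refine ⟨e.symm y, Subgroup.mem_center_iff.2 fun w => e.injective ?_, e.apply_symm_apply y⟩
      rw [map_mul, map_mul, MulEquiv.apply_symm_apply]
      exact hy (e w))

end transfer

section field

universe u

variable {F : Type u} [Field F] (φ : ZMod 3 ≃+* F)

local instance : Fact (Nat.Prime 3) := ⟨Nat.prime_three⟩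

/-- The change of field on matrices. -/
def glCongr : Matrix.GeneralLinearGroup (Unit ⊕ (Fin 3 ⊕ Fin 3)) (ZMod 3) ≃*
    Matrix.GeneralLinearGroup (Unit ⊕ (Fin 3 ⊕ Fin 3)) F :=
  Units.mapEquiv φ.mapMatrix.toMulEquiv

theorem map_quad (v : Unit ⊕ (Fin 3 ⊕ Fin 3) → ZMod 3) :
    Cfsg.quadFormOdd 3 F (fun i => φ (v i)) = φ (Cfsg.quadFormOdd 3 (ZMod 3) v) := by
  simp [Cfsg.quadFormOdd, map_add, map_sum]

theorem map_isometry : (Cfsg.isometryGroup (ZMod 3) (Cfsg.quadFormOdd 3 (ZMod 3))).map (glCongr φ).toMonoidHom =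
    Cfsg.isometryGroup F (Cfsg.quadFormOdd 3 F) := by
  have hmul : ∀ (g : Matrix.GeneralLinearGroup (Unit ⊕ (Fin 3 ⊕ Fin 3)) (ZMod 3)) (v : Unit ⊕ (Fin 3 ⊕ Fin 3) → ZMod 3),
      Matrix.mulVec ((glCongr φ g : Matrix.GeneralLinearGroup _ F) : Matrix _ _ F) (fun i => φ (v i)) =
        fun i => φ (Matrix.mulVec (g : Matrix (Unit ⊕ (Fin 3 ⊕ Fin 3)) (Unit ⊕ (Fin 3 ⊕ Fin 3)) (ZMod 3)) v i) := by
    intro g v
    funext i
    simp [glCongr, Matrix.mulVec, dotProduct, map_add, map_sum]
  ext h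
  rw [Subgroup.mem_map]
  constructor
  · rintro ⟨g, hg, rfl⟩ u w
    show Cfsg.quadFormOdd 3 F (Matrix.mulVec ((glCongr φ g : Matrix.GeneralLinearGroup _ F) : Matrix _ _ F) u) =
      Cfsg.quadFormOdd 3 F u
    obtain ⟨u', rfl⟩ : ∃ u' : Unit ⊕ (Fin 3 ⊕ Fin 3) → ZMod 3, (fun i => φ (u' i)) = u :=
      ⟨fun i => φ.symm (u i), funext fun i => φ.apply_symm_apply _⟩
    rw [hmul, map_quad, map_quad]
    exact congrArg φ (hg u' u')
  · intro hh
    refine ⟨(glCongr φ).symm h, fun u w => φ.injective ?_, (glCongr φ).apply_symm_apply h⟩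
    show φ (Cfsg.quadFormOdd 3 (ZMod 3) (Matrix.mulVec _ u)) = φ (Cfsg.quadFormOdd 3 (ZMod 3) u)
    rw [← map_quad, ← map_quad]
    simp only [Units.coeHom_apply]
    rw [← hmul, MulEquiv.apply_symm_apply]
    exact hh _ (fun i => φ (u i))

/-- The change of field on POmega. -/
def pOmegaCongr : Cfsg.POmega (ZMod 3) (Cfsg.quadFormOdd 3 (ZMod 3)) ≃* Cfsg.POmega F (Cfsg.quadFormOdd 3 F) :=
  derivedCongr (((glCongr φ).subgroupMap _).trans (MulEquiv.subgroupCongr (map_isometry φ)))

theorem hasMultiplier [Fintype F] (hF : Fintype.card F = 3) :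
    Cfsg.HasCyclicSchurMultiplier (Cfsg.POmega F (Cfsg.quadFormOdd 3 F)) 6 := by
  obtain ⟨e₀⟩ := O7Iso.nonempty_equiv_pOmega
  let e : O7U.Grp ≃* Cfsg.POmega F (Cfsg.quadFormOdd 3 F) :=
    e₀.trans (pOmegaCongr (ZMod.ringEquivOfPrime F Nat.prime_three hF))
  obtain ⟨Γ, i1, i2, π, hπ, hc, hn⟩ := O7Cover.exists_cover
  have hker : (e.toMonoidHom.comp π).ker = π.ker := MonoidHom.ker_comp_of_injective _ _ e.injective
  have : Finite O7U.Grp := Nat.finite_of_card_ne_zero (by rw [O7Order.card_and_faithful.1]; norm_num)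
  have : Finite (Cfsg.POmega F (Cfsg.quadFormOdd 3 F)) := Finite.of_equiv _ e.toEquiv
  refine H82.hasCyclicSchurMultiplier_of_card (H82.isStemExtension_comp_equiv hπ e) (by rw [hker]; exact hc)
    (by rw [hker]; exact hn) fun Δ _ _ τ hτ => ?_
  let c := e.symm.trans modelEquiv
  have h : Nat.card (c.toMonoidHom.comp τ).ker ∣ 6 :=
    card_ker_dvd_six (c.toMonoidHom.comp τ) (H82.isStemExtension_comp_equiv hτ c)
  have hk : (c.toMonoidHom.comp τ).ker = τ.ker := MonoidHom.ker_comp_of_injective _ _ c.injective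
  rw [hk] at h
  exact Nat.le_of_dvd (by norm_num) h

end field

end

end Cfsg.Agent.H36.O7Mult
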