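import Cfsg.Agent.H36.O7MultData

/-! Checks of the program. -/

set_option autoImplicit false
set_option maxRecDepth 100000
set_option Elab.async false

open Cfsg.Agent.H16 Cfsg.Agent.H13.SylMult Cfsg.Agent.H36.AutEngine

namespace Cfsg.Agent.H36.O7Mult

theorem slp_part1_0 : allFrom (fun k => ctx.slpOk k) 20 131 = true := by decide +kernel

theorem slp_part1_1 : allFrom (fun k => ctx.slpOk k) 20 151 = true := by decide +kernel

theorem slp_part1_2 : allFrom (fun k => ctx.slpOk k) 20 171 = true := by decide +kernel

theorem slp_part1_3 : allFrom (fun k => ctx.slpOk k) 20 191 = true := by decide +kernel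

theorem slp_part1_4 : allFrom (fun k => ctx.slpOk k) 20 211 = true := by decide +kernel

theorem slp_part1_5 : allFrom (fun k => ctx.slpOk k) 20 231 = true := by decide +kernel

theorem slp_part1_6 : allFrom (fun k => ctx.slpOk k) 12 251 = true := by decide +kernel

theorem slp_block1 (k : ℕ) (h1 : 131 ≤ k) (h2 : k < 263) : ctx.slpOk k = true := by
  by_cases h0 : k < 151
  · exact allFrom_spec slp_part1_0 k (by omega) (by omega)
  by_cases h1 : k < 171
  · exact allFrom_spec slp_part1_1 k (by omega) (by omega)
  by_cases h2 : k < 191
  · exact allFrom_spec slp_part1_2 k (by omega) (by omega)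
  by_cases h3 : k < 211
  · exact allFrom_spec slp_part1_3 k (by omega) (by omega)
  by_cases h4 : k < 231
  · exact allFrom_spec slp_part1_4 k (by omega) (by omega)
  by_cases h5 : k < 251
  · exact allFrom_spec slp_part1_5 k (by omega) (by omega)
  exact allFrom_spec slp_part1_6 k (by omega) (by omega)

end Cfsg.Agent.H36.O7Mult
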