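import Cfsg.Agent.H36.O7MultSlp0
import Cfsg.Agent.H36.O7MultSlp1
import Cfsg.Agent.H36.O7MultSlp2
import Cfsg.Agent.H36.O7MultSlp3
import Cfsg.Agent.H36.AutEngineFix

/-! Checks of the bounds at two and three. -/

set_option autoImplicit false
set_option maxRecDepth 100000
set_option Elab.async false

open Cfsg.Agent.H16 Cfsg.Agent.H13.SylMult Cfsg.Agent.H36.AutEngine

namespace Cfsg.Agent.H36.O7Mult

theorem slp_all : allFrom ctx.slpOk ctx.ns 0 = true := by
  refine Ctx.allFrom_of_forall fun k hk => ?_
  change k < 526 at hk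
  by_cases h0 : k < 131
  · exact slp_block0 k (by omega) (by omega)
  by_cases h1 : k < 263
  · exact slp_block1 k (by omega) (by omega)
  by_cases h2 : k < 394
  · exact slp_block2 k (by omega) (by omega)
  exact slp_block3 k (by omega) (by omega)

theorem pc2_ok : pc2.ok cert2 = true := by decide +kernel

theorem rows2_ok : cert2.rowsOk pc2 = true := by decide +kernel

theorem combos2_ok : cert2.combosOk pc2 = true := by decide +kernel

theorem rels2_ok : perm2.relsOk pc2 = true := by decide +kernel

theorem sep2_ok : perm2.sepOk pc2 = true := by decide +kernel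

theorem conj2_ok : cert2.eqns.all perm2.conjOk = true := by decide +kernel

theorem bnd2_ok : (perm2.letters.all (fun k => Nat.blt k ctx.ns) && perm2.conjs.all (fun k => Nat.blt k ctx.ns) && perm2.bases.all (fun b => Nat.blt b ctx.n)) = true := by decide +kernel

theorem perm2_ok : perm2.ok pc2 cert2 = true := by
  have h := bnd2_ok
  simp only [Bool.and_eq_true] at h
  simp only [PermData.ok, rels2_ok, sep2_ok, conj2_ok, Bool.and_eq_true]
  exact ⟨⟨⟨⟨by trivial, h.1.1⟩, h.1.2⟩, h.2⟩, slp_all⟩

theorem pc3_ok : pc3.ok cert3 = true := by decide +kernel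

theorem rows3_ok : cert3.rowsOk pc3 = true := by decide +kernel

theorem combos3_ok : cert3.combosOk pc3 = true := by decide +kernel

theorem rels3_ok : perm3.relsOk pc3 = true := by decide +kernel

theorem sep3_ok : perm3.sepOk pc3 = true := by decide +kernel

theorem conj3_ok : cert3.eqns.all perm3.conjOk = true := by decide +kernel

theorem bnd3_ok : (perm3.letters.all (fun k => Nat.blt k ctx.ns) && perm3.conjs.all (fun k => Nat.blt k ctx.ns) && perm3.bases.all (fun b => Nat.blt b ctx.n)) = true := by decide +kernel

theorem perm3_ok : perm3.ok pc3 cert3 = true := by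
  have h := bnd3_ok
  simp only [Bool.and_eq_true] at h
  simp only [PermData.ok, rels3_ok, sep3_ok, conj3_ok, Bool.and_eq_true]
  exact ⟨⟨⟨⟨by trivial, h.1.1⟩, h.1.2⟩, h.2⟩, slp_all⟩

end Cfsg.Agent.H36.O7Mult
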