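import Cfsg.Agent.H36.MonomialBetween
import Cfsg.Agent.H98.MaximalSpWreath

/-! Over two elements an orthogonal decomposition into planes preserves a quadratic form. -/

set_option autoImplicit false
set_option maxHeartbeats 1000000

namespace Cfsg.Agent.H36

open Cfsg.Agent.H98 MBetween
open scoped Matrix

theorem sp_pairs_not_maximal {F : Type*} [Field F] [Fintype F] (m : ℕ) (hm : 7 ≤ m)
    (hq : Fintype.card F = 2) {t : ℕ} (D : Fin t → Submodule F (Fin m ⊕ Fin m → F))
    (hD : Cfsg.Geo.IsNondegenerateMDecomposition (Cfsg.sympForm m F) 2 D) :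
    ∃ K : Subgroup (Matrix.GeneralLinearGroup (Fin m ⊕ Fin m) F),
      Cfsg.Geo.decompositionStabilizer D ⊓ Cfsg.spGL m F < K ∧ K < Cfsg.spGL m F := by
  classical
  have hdec := hD.decomp
  have h20 : (2 : F) = 0 := by
    have := FiniteField.cast_card_eq_zero F
    rw [hq] at this
    exact_mod_cast this
  have hone : ∀ x : F, x = 0 ∨ x = 1 := fun x => by
    by_cases hx : x = 0
    · exact Or.inl hx
    · exact Or.inr (by simpa [hq] using FiniteField.pow_card_sub_one_eq_one x hx)
  have h11 : (1 : F) + 1 = 0 := by linear_combination h20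
  let β := Cfsg.Agent.H2.sympBilin m F
  let one : Fin 2 → F := ![1, 0]
  let two : Fin 2 → F := ![0, 1]
  let dt : (Fin 2 → F) → (Fin 2 → F) → F := fun x y => x 0 * y 1 + x 1 * y 0
  let q : (Fin 2 → F) → F := fun u => if u = 0 then 0 else 1
  let b : (Fin 2 → F) → (Fin 2 → F) → F := fun u _ => q u
  have hinv : ∀ A : (Fin 2 → F) ≃ₗ[F] (Fin 2 → F), ∀ u w, b (A u) (A w) = b u w := fun A u w => by
    simp only [b, q, map_eq_zero_iff A A.injective]
  have hq0 : q 0 = 0 := if_pos rfl
  have hpair : ∀ u : Fin 2 → F, u = ![u 0, u 1] := fun u => funext fun i => by fin_cases i <;> rfl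
  have hqv : ∀ a c : F, q ![a, c] = a * a + a * c + c * c := by
    intro a c
    rcases hone a with rfl | rfl <;> rcases hone c with rfl | rfl <;> simp [q, h11]
  have hpolar : ∀ u w, q (u + w) = q u + q w + dt u w := by
    intro u w
    have h1 : u + w = ![u 0 + w 0, u 1 + w 1] := hpair _
    rw [h1, hqv, hpair u, hpair w, hqv, hqv]
    simp only [dt, Matrix.cons_val_zero, Matrix.cons_val_one]
    linear_combination (u 0 * w 0 + u 1 * w 1) * h20
  have hblock : ∀ i u w, β (emb hdec i u) (emb hdec i w) = dt u w := by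
    intro i u w
    have hexp : ∀ u : Fin 2 → F, u = u 0 • one + u 1 • two := fun u => by
      funext k; fin_cases k <;> simp [one, two]
    have hswap : ∀ x y : Fin m ⊕ Fin m → F, β y x = β x y := fun x y => by
      rw [beta_swap x y]
      linear_combination (-β x y) * h20
    have hself : ∀ x : Fin m ⊕ Fin m → F, β x x = 0 := beta_self
    have h12 : β (emb hdec i one) (emb hdec i two) = 1 := by
      refine (hone _).resolve_left fun h0 => ?_
      have hne : emb hdec i one ≠ 0 := fun h => by
        have h1 := congrArg (crd hdec i) h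
        rw [crd_emb, if_pos rfl, map_zero] at h1
        exact (one_ne_zero : (1 : F) ≠ 0) (congrFun h1 0)
      obtain ⟨-, x, hx, hx0⟩ := hD.nondegenerate i _ (emb_mem hdec i one) hne
      apply hx0
      have hxe : x = emb hdec i (crd hdec i x) := by
        rw [← comp_eq_emb, comp_same hdec hx]
      rw [← Cfsg.Agent.H2.sympBilin_apply, hxe, hexp (crd hdec i x), map_add, map_smul, map_smul,
        map_add, map_smul, map_smul]
      show _ • β (emb hdec i one) (emb hdec i one) + _ • β (emb hdec i one) (emb hdec i two) = 0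
      rw [hself, h0, smul_zero, smul_zero, add_zero]
    conv_lhs => rw [hexp u, hexp w]
    simp only [map_add, map_smul, LinearMap.add_apply, LinearMap.smul_apply, smul_eq_mul]
    rw [hself, hself, hswap (emb hdec i one) (emb hdec i two), h12]
    simp only [dt]
    ring
  have hβ : ∀ x y, β x y = ∑ i, dt (crd hdec i x) (crd hdec i y) := by
    intro x y
    rw [show β x y = _ from beta_comp hdec (fun i j hij u hu v hv => by
      rw [Cfsg.Agent.H2.sympBilin_apply]; exact hD.orthogonal i j hij u hu v hv) x y]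
    exact Finset.sum_congr rfl fun i _ => by rw [comp_eq_emb, comp_eq_emb]; exact hblock i _ _
  let Q : (Fin m ⊕ Fin m → F) → F := fun x => form hdec b x x
  have hQ : ∀ x y, Q (x + y) = Q x + Q y + β x y := fun x y => by
    simp only [Q, form, b, map_add, hpolar, Finset.sum_add_distrib, hβ]
  have hQI : ∀ g : GL (Fin m ⊕ Fin m) F, g ∈ isom hdec b ↔
      ∀ x, Q ((g : Matrix _ _ F) *ᵥ x) = Q x :=
    fun g => ⟨fun h x => h x x, fun h x y => h x⟩
  have hle : isom hdec b ≤ Cfsg.spGL m F := fun g hg => by
    rw [mem_spGL]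
    intro u v
    have h1 := (hQI g).1 hg (u + v)
    rw [Matrix.mulVec_add, hQ, hQ, (hQI g).1 hg, (hQI g).1 hg] at h1
    exact add_left_cancel h1
  have ht : 7 ≤ t := by
    have hint : DirectSum.IsInternal D :=
      (DirectSum.isInternal_submodule_iff_iSupIndep_and_iSup_eq_top D).2
        ⟨hdec.indep, hdec.iSup_eq_top⟩
    have h := Module.finrank_eq_card_basis
      (hint.collectedBasis fun i => Module.finBasisOfFinrankEq F (D i) (hdec.finrank_eq i))
    simp at h
    omega
  let i0 : Fin t := ⟨0, by omega⟩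
  let i1 : Fin t := ⟨1, by omega⟩
  let i2 : Fin t := ⟨2, by omega⟩
  have hqone : q one = 1 := if_neg fun h => (one_ne_zero : (1 : F) ≠ 0) (congrFun h 0)
  have hdt : dt two one = 1 := by simp [dt, one, two]
  have hQsum : ∀ T : Finset (Fin t), Q (∑ i ∈ T, emb hdec i one) = (T.card : F) := by
    intro T
    show ∑ i, q (crd hdec i (∑ l ∈ T, emb hdec l one)) = (T.card : F)
    simp only [map_sum, crd_emb, Finset.sum_ite_eq', apply_ite q, hqone, hq0,
      Finset.sum_ite_mem, Finset.univ_inter, Finset.sum_const, nsmul_one]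
  have hβsum : ∀ T : Finset (Fin t), i0 ∈ T →
      β (emb hdec i0 two) (∑ i ∈ T, emb hdec i one) = 1 := by
    intro T hT
    rw [hβ, Finset.sum_eq_single i0 (fun i _ hi => by
      rw [crd_emb, if_neg (Ne.symm hi)]; simp [dt]) (by simp)]
    rw [crd_emb, if_pos rfl, map_sum]
    simp only [crd_emb, Finset.sum_ite_eq', if_pos hT, hdt]
  have htrans : ∀ v x, Q ((spTrans v 1 : GL (Fin m ⊕ Fin m) F) *ᵥ x) =
      Q x + β x v * Q v + β x v * β x v := by
    intro v x
    rw [spTrans_mulVec, one_mul]
    rcases hone (β x v) with h | h <;> simp only [β] at h ⊢ <;> rw [h]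
    · rw [zero_smul, add_zero, zero_mul, mul_zero, add_zero, add_zero]
    · rw [one_smul, hQ, one_mul, mul_one]; simp only [β]; rw [h]
  refine ⟨isom hdec b, ?_, ?_⟩
  · refine lt_of_le_not_ge (inf_le_left.trans (stab_le_isom hdec b hinv)) fun h => ?_
    set v := ∑ i ∈ ({i0, i1, i2} : Finset (Fin t)), emb hdec i one
    have hv : Q v = 1 := by
      rw [hQsum, show ({i0, i1, i2} : Finset (Fin t)).card = 3 by simp [i0, i1, i2]]
      push_cast
      linear_combination h20
    have hg : spTrans v 1 ∈ isom hdec b := (hQI _).2 fun x => by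
      rw [htrans, hv]
      rcases hone (β x v) with h | h <;> rw [h]
      · ring
      · linear_combination h20
    have hval : (spTrans v 1 : GL (Fin m ⊕ Fin m) F) *ᵥ emb hdec i0 two = emb hdec i0 two + v := by
      rw [spTrans_mulVec, one_mul, show β (emb hdec i0 two) v = 1 from hβsum _ (by simp), one_smul]
    have hne : ∀ i, i ≠ i0 → i ∈ ({i0, i1, i2} : Finset (Fin t)) →
        comp hdec i (emb hdec i0 two + v) ≠ 0 := by
      intro i hi hiT h0
      have h1 := crd_eq_zero_of_comp hdec _ h0
      rw [map_add, crd_emb, if_neg (Ne.symm hi), zero_add, map_sum] at h1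
      simp only [crd_emb, Finset.sum_ite_eq', if_pos hiT] at h1
      exact (one_ne_zero : (1 : F) ≠ 0) (congrFun h1 0)
    exact not_stab_of_spread hdec (i := i0) (emb_mem hdec i0 two)
      (show i1 ≠ i2 by simp [i1, i2]) (by rw [hval]; exact hne i1 (by simp [i0, i1]) (by simp))
      (by rw [hval]; exact hne i2 (by simp [i0, i2]) (by simp)) (h hg).1
  · refine lt_of_le_not_ge hle fun h => ?_
    set v := ∑ i ∈ ({i0, i1} : Finset (Fin t)), emb hdec i one
    have hv : Q v = 0 := by
      rw [hQsum, show ({i0, i1} : Finset (Fin t)).card = 2 by simp [i0, i1]]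
      exact_mod_cast h20
    have h1 := (hQI _).1 (h (spTrans_mem v 1)) (emb hdec i0 two)
    rw [htrans, hv, hβsum _ (by simp), mul_zero, add_zero, one_mul, add_eq_left] at h1
    exact one_ne_zero h1

end Cfsg.Agent.H36
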