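import Mathlib
import Cfsg.Agent.H37.Tits
import Cfsg.Agent.H10.SimpleDegree
import Cfsg.Agent.H10.SimpleCriteria
import Cfsg.Agent.S0710

/-!
# Degrees of sharply multiply transitive groups
-/

open MulAction
set_option linter.style.haveILetI false

namespace Cfsg.Agent.H36.Sharp

variable {G : Type*} [Group G] {Ω : Type*} [MulAction G Ω] {k : ℕ}

theorem card_of_sharp [Finite Ω] (ht : IsMultiplyPretransitive G Ω k)
    (hsharp : ∀ x : Fin k ↪ Ω, stabilizer G x = ⊥) (hk : k ≤ Nat.card Ω) :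
    Nat.card G = (Nat.card Ω).descFactorial k := by
  classical
  haveI := Fintype.ofFinite Ω
  obtain ⟨x⟩ : Nonempty (Fin k ↪ Ω) := by
    refine ⟨(Fin.castLEEmb ?_).trans (Fintype.equivFin Ω).symm.toEmbedding⟩
    rwa [← Nat.card_eq_fintype_card]
  have hbij : Function.Bijective (fun g : G => g • x) := by
    refine ⟨fun g h e => ?_, fun y => MulAction.exists_smul_eq G x y⟩
    have h1 : h⁻¹ * g ∈ stabilizer G x := by
      rw [mem_stabilizer_iff, mul_smul, show g • x = h • x from e, inv_smul_smul]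
    rw [hsharp, Subgroup.mem_bot, inv_mul_eq_one] at h1
    exact h1.symm
  rw [Nat.card_eq_of_bijective _ hbij, Nat.card_eq_fintype_card, Fintype.card_embedding_eq,
    Fintype.card_fin, Nat.card_eq_fintype_card]

theorem faithful_of_sharp (hsharp : ∀ x : Fin k ↪ Ω, stabilizer G x = ⊥)
    (hne : Nonempty (Fin k ↪ Ω)) : FaithfulSMul G Ω := by
  obtain ⟨x⟩ := hne
  refine ⟨fun {g h} e => ?_⟩
  have h1 : h⁻¹ * g ∈ stabilizer G x := by
    rw [mem_stabilizer_iff]
    ext i
    show (h⁻¹ * g) • x i = x i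
    rw [mul_smul, e, inv_smul_smul]
  rw [hsharp, Subgroup.mem_bot, inv_mul_eq_one] at h1
  exact h1.symm

theorem sharp_ofStabilizer (hsharp : ∀ x : Fin (k + 1) ↪ Ω, stabilizer G x = ⊥) (a : Ω)
    (x : Fin k ↪ SubMulAction.ofStabilizer G a) : stabilizer (stabilizer G a) x = ⊥ := by
  have hinj : Function.Injective (Fin.cons a (fun i => (x i : Ω)) : Fin (k + 1) → Ω) := by
    rw [Fin.cons_injective_iff]
    refine ⟨?_, fun i j e => x.injective (Subtype.ext e)⟩
    rintro ⟨i, hi⟩
    exact SubMulAction.neq_of_mem_ofStabilizer G a (x := x i) hi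
  rw [Subgroup.eq_bot_iff_forall]
  intro g hg
  have h1 : (g : G) ∈ stabilizer G (⟨_, hinj⟩ : Fin (k + 1) ↪ Ω) := by
    rw [mem_stabilizer_iff]
    ext i
    show (g : G) • (Fin.cons a (fun i => (x i : Ω)) : Fin (k + 1) → Ω) i = _
    refine Fin.cases ?_ (fun j => ?_) i
    · exact g.2
    · have h2 : (g • x) j = x j := by rw [mem_stabilizer_iff.1 hg]
      exact congrArg Subtype.val h2
  rw [hsharp, Subgroup.mem_bot] at h1
  exact Subtype.ext h1

theorem transitive_ofStabilizer [Finite Ω] (ht : IsMultiplyPretransitive G Ω (k + 1))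
    (hk : k + 1 ≤ Nat.card Ω) (a : Ω) :
    IsMultiplyPretransitive (stabilizer G a) (SubMulAction.ofStabilizer G a) k := by
  haveI : IsMultiplyPretransitive G Ω 1 :=
    isMultiplyPretransitive_of_le (n := k + 1) (by omega) (by exact_mod_cast hk)
  haveI : IsPretransitive G Ω := is_one_pretransitive_iff.1 inferInstance
  exact SubMulAction.ofStabilizer.isMultiplyPretransitive.1 ht

theorem four (ht : IsMultiplyPretransitive G Ω 4) (hsharp : ∀ x : Fin 4 ↪ Ω, stabilizer G x = ⊥)
    [Finite Ω] (hn : 4 ≤ Nat.card Ω) :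
    Nat.card Ω = 4 ∨ Nat.card Ω = 5 ∨ Nat.card Ω = 6 ∨ Nat.card Ω = 11 := by
  classical
  haveI := Fintype.ofFinite Ω
  have hne : Nonempty (Fin 4 ↪ Ω) := by
    refine ⟨(Fin.castLEEmb ?_).trans (Fintype.equivFin Ω).symm.toEmbedding⟩
    rwa [← Nat.card_eq_fintype_card]
  obtain ⟨-, h | h⟩ := H37.Tits.sharplyFour_card ht hsharp hne
  swap
  · omega
  rcases Nat.lt_or_ge (Nat.card Ω) 7 with h7 | h7
  · omega
  exfalso
  have h7 : Nat.card Ω = 7 := by omega
  haveI := faithful_of_sharp hsharp hne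
  have hG : Nat.card G = 840 := by
    rw [card_of_sharp ht hsharp (by omega), h7]; rfl
  set H := (MulAction.toPermHom G Ω).range
  have hH : Nat.card H = 840 := by
    rw [← hG]
    exact (Nat.card_congr (MonoidHom.ofInjective
      (f := MulAction.toPermHom G Ω) MulAction.toPerm_injective).toEquiv).symm
  have hS : Nat.card (Equiv.Perm Ω) = 5040 := by
    rw [Nat.card_perm, h7]; rfl
  have hidx : H.index = 6 := by
    have := H.index_mul_card
    rw [hH, hS] at this
    omega
  set f := MulAction.toPermHom (Equiv.Perm Ω) (Equiv.Perm Ω ⧸ H) with hf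
  haveI hnt : Nontrivial Ω := (Finite.one_lt_card_iff_nontrivial).1 (by omega)
  have h5 : 5 ≤ Nat.card Ω := by omega
  haveI hsimple : IsSimpleGroup (alternatingGroup Ω) := alternatingGroup.isSimpleGroup h5
  have hker : f.ker.subgroupOf (alternatingGroup Ω) = ⊥ ∨ f.ker.subgroupOf (alternatingGroup Ω) = ⊤ :=
    IsSimpleGroup.eq_bot_or_eq_top_of_normal _ (inferInstance)
  have hA : Nat.card (alternatingGroup Ω) = 2520 := by
    have := two_mul_nat_card_alternatingGroup (α := Ω)
    rw [hS] at this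
    omega
  rcases hker with hk | hk
  · have hinj : Function.Injective (f.comp (alternatingGroup Ω).subtype) := by
      rw [← MonoidHom.ker_eq_bot_iff, ← hk]
      rfl
    have h1 := Subgroup.card_dvd_of_injective _ hinj
    rw [hA, Nat.card_perm, ← Subgroup.index, hidx] at h1
    norm_num [Nat.factorial] at h1
  · rw [Subgroup.subgroupOf_eq_top] at hk
    have h1 : alternatingGroup Ω ≤ H := by
      refine hk.trans (le_of_eq_of_le (Subgroup.normalCore_eq_ker H).symm ?_)
      exact Subgroup.normalCore_le H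
    have h2 := Subgroup.card_dvd_of_le h1
    rw [hA, hH] at h2
    norm_num at h2

theorem five (ht : IsMultiplyPretransitive G Ω 5) (hsharp : ∀ x : Fin 5 ↪ Ω, stabilizer G x = ⊥)
    [Finite Ω] (hn : 5 ≤ Nat.card Ω) :
    Nat.card Ω = 5 ∨ Nat.card Ω = 6 ∨ Nat.card Ω = 7 ∨ Nat.card Ω = 12 := by
  haveI : Nonempty Ω := (Nat.card_pos_iff.1 (by omega)).1
  obtain ⟨a⟩ := ‹Nonempty Ω›
  have hc := SubMulAction.nat_card_ofStabilizer_add_one_eq G a
  have := four (transitive_ofStabilizer ht hn a) (sharp_ofStabilizer hsharp a) (by omega)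
  omega

theorem six (ht : IsMultiplyPretransitive G Ω 6) (hsharp : ∀ x : Fin 6 ↪ Ω, stabilizer G x = ⊥)
    [Finite Ω] (hn : 6 ≤ Nat.card Ω) :
    Nat.card Ω = 6 ∨ Nat.card Ω = 7 ∨ Nat.card Ω = 8 := by
  classical
  haveI := Fintype.ofFinite Ω
  haveI : Nonempty Ω := (Nat.card_pos_iff.1 (by omega)).1
  obtain ⟨a⟩ := ‹Nonempty Ω›
  have hc := SubMulAction.nat_card_ofStabilizer_add_one_eq G a
  have h5 := five (transitive_ofStabilizer ht hn a) (sharp_ofStabilizer hsharp a) (by omega)
  by_contra hcon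
  have h13 : Fintype.card Ω = 13 := by rw [← Nat.card_eq_fintype_card]; omega
  have hne : Nonempty (Fin 6 ↪ Ω) :=
    ⟨(Fin.castLEEmb (by omega)).trans (Fintype.equivFin Ω).symm.toEmbedding⟩
  haveI := faithful_of_sharp hsharp hne
  haveI : IsMultiplyPretransitive G Ω 1 :=
    isMultiplyPretransitive_of_le (n := 6) (by norm_num) (by exact_mod_cast hn)
  haveI : IsPretransitive G Ω := is_one_pretransitive_iff.1 inferInstance
  haveI : IsPretransitive (MulAction.toPermHom G Ω).range Ω :=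
    ⟨fun x y => by
      obtain ⟨g, hg⟩ := MulAction.exists_smul_eq G x y
      exact ⟨⟨_, g, rfl⟩, hg⟩⟩
  refine S0710.result h13 (MulAction.toPermHom G Ω).range ?_
  rw [← Nat.card_congr (MonoidHom.ofInjective
      (f := MulAction.toPermHom G Ω) MulAction.toPerm_injective).toEquiv,
    card_of_sharp ht hsharp hn, Nat.card_eq_fintype_card, h13]
  rfl

theorem large (n : ℕ) : ∀ {G : Type*} [Group G] {Ω : Type*} [MulAction G Ω] [Finite Ω],
    IsMultiplyPretransitive G Ω (n + 6) → (∀ x : Fin (n + 6) ↪ Ω, stabilizer G x = ⊥) →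
    n + 6 ≤ Nat.card Ω →
    Nat.card Ω = n + 6 ∨ Nat.card Ω = n + 7 ∨ Nat.card Ω = n + 8 := by
  induction n with
  | zero => exact fun ht hs hn => six ht hs hn
  | succ n ih =>
    intro G _ Ω _ _ ht hs hn
    haveI : Nonempty Ω := (Nat.card_pos_iff.1 (by omega)).1
    obtain ⟨a⟩ := ‹Nonempty Ω›
    have hc := SubMulAction.nat_card_ofStabilizer_add_one_eq G a
    have := ih (G := stabilizer G a) (Ω := SubMulAction.ofStabilizer G a)
      (transitive_ofStabilizer ht hn a) (sharp_ofStabilizer hs a) (by omega)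
    omega

theorem simple_eleven [Finite Ω] (ht : IsMultiplyPretransitive G Ω 4)
    (hsharp : ∀ x : Fin 4 ↪ Ω, stabilizer G x = ⊥) (hΩ : Nat.card Ω = 11) :
    IsSimpleGroup G ∧ Nat.card G = 7920 := by
  classical
  haveI := Fintype.ofFinite Ω
  haveI : Fact (Nat.Prime 11) := ⟨by norm_num⟩
  have hne : Nonempty (Fin 4 ↪ Ω) :=
    ⟨(Fin.castLEEmb (by rw [← Nat.card_eq_fintype_card]; omega)).trans
      (Fintype.equivFin Ω).symm.toEmbedding⟩
  haveI := faithful_of_sharp hsharp hne
  have hG : Nat.card G = 7920 := by rw [card_of_sharp ht hsharp (by omega), hΩ]; rfl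
  haveI : Finite G := Nat.finite_of_card_ne_zero (by omega)
  haveI : IsMultiplyPretransitive G Ω 1 :=
    isMultiplyPretransitive_of_le (n := 4) (by norm_num) (by exact_mod_cast (by omega : 4 ≤ Nat.card Ω))
  haveI : IsPretransitive G Ω := is_one_pretransitive_iff.1 inferInstance
  exact ⟨H10.isSimpleGroup_of_prime_degree (X := Ω) (p := 11) (M := 720) hΩ (by rw [hG])
    (by norm_num) (by norm_num) (by norm_num), hG⟩

theorem simple_twelve [Finite Ω] (ht : IsMultiplyPretransitive G Ω 5)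
    (hsharp : ∀ x : Fin 5 ↪ Ω, stabilizer G x = ⊥) (hΩ : Nat.card Ω = 12) :
    IsSimpleGroup G ∧ Nat.card G = 95040 := by
  classical
  haveI := Fintype.ofFinite Ω
  have hne : Nonempty (Fin 5 ↪ Ω) :=
    ⟨(Fin.castLEEmb (by rw [← Nat.card_eq_fintype_card]; omega)).trans
      (Fintype.equivFin Ω).symm.toEmbedding⟩
  haveI := faithful_of_sharp hsharp hne
  have hG : Nat.card G = 95040 := by rw [card_of_sharp ht hsharp (by omega), hΩ]; rfl
  haveI : Finite G := Nat.finite_of_card_ne_zero (by omega)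
  haveI : IsMultiplyPretransitive G Ω 2 :=
    isMultiplyPretransitive_of_le (n := 5) (by norm_num) (by exact_mod_cast (by omega : 5 ≤ Nat.card Ω))
  haveI : IsPretransitive G Ω := isPretransitive_of_is_two_pretransitive
  obtain ⟨x⟩ : Nonempty Ω := (Nat.card_pos_iff.1 (by omega)).1
  have hc := SubMulAction.nat_card_ofStabilizer_add_one_eq G x
  haveI : IsSimpleGroup (stabilizer G x) :=
    (simple_eleven (transitive_ofStabilizer ht (by omega) x) (sharp_ofStabilizer hsharp x)
      (by omega)).1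
  refine ⟨H10.isSimpleGroup_of_stabilizer (X := Ω) ?_ (by omega) x, hG⟩
  rw [hΩ]
  rintro ⟨q, k, hq, hk, hqk⟩
  have h2' := (Nat.prime_dvd_prime_iff_eq Nat.prime_two hq.nat_prime).1
    (Nat.prime_two.dvd_of_dvd_pow (hqk.symm ▸ by norm_num : 2 ∣ q ^ k))
  have h3' := (Nat.prime_dvd_prime_iff_eq Nat.prime_three hq.nat_prime).1
    (Nat.prime_three.dvd_of_dvd_pow (hqk.symm ▸ by norm_num : 3 ∣ q ^ k))
  omega

end Cfsg.Agent.H36.Sharp
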