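import Mathlib

/-!
# Small groups of `2 × 2` matrices regular on nonzero vectors, by enumeration
-/

open Matrix
set_option linter.style.haveILetI false

namespace Cfsg.Agent.H36

variable {p : ℕ}

/-- A `2 × 2` matrix as a quadruple. -/
abbrev Quad (p : ℕ) := ZMod p × ZMod p × ZMod p × ZMod p

/-- Product of quadruples. -/
def qmul (x y : Quad p) : Quad p :=
  (x.1 * y.1 + x.2.1 * y.2.2.1, x.1 * y.2.1 + x.2.1 * y.2.2.2,
    x.2.2.1 * y.1 + x.2.2.2 * y.2.2.1, x.2.2.1 * y.2.1 + x.2.2.2 * y.2.2.2)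

/-- The matrix of a quadruple. -/
def qmat (x : Quad p) : Matrix (Fin 2) (Fin 2) (ZMod p) := !![x.1, x.2.1; x.2.2.1, x.2.2.2]

theorem qmat_mul (x y : Quad p) : qmat (qmul x y) = qmat x * qmat y := by
  simp [qmat, qmul, Matrix.mul_fin_two]

theorem qmat_one : qmat ((1, 0, 0, 1) : Quad p) = 1 := by
  simp [qmat, Matrix.one_fin_two]

theorem qmat_injective : Function.Injective (qmat (p := p)) := by
  intro x y h
  have h00 := congrFun (congrFun h 0) 0
  have h01 := congrFun (congrFun h 0) 1
  have h10 := congrFun (congrFun h 1) 0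
  have h11 := congrFun (congrFun h 1) 1
  simp [qmat] at h00 h01 h10 h11
  obtain ⟨a, b, c, d⟩ := x; obtain ⟨a', b', c', d'⟩ := y
  simp_all

/-- The product of a word in the generators. -/
def qword (gens : List (Quad p)) (w : List ℕ) : Quad p :=
  w.foldl (fun acc i => qmul acc (gens.getD i (1, 0, 0, 1))) (1, 0, 0, 1)

/-- Certificate check: the words give exactly the generated group, without repetition, and no
non-identity element fixes a nonzero vector. -/
def qcheck (gens : List (Quad p)) (words : List (List ℕ)) : Bool :=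
  let L := words.map (qword gens)
  decide L.Nodup && L.contains (1, 0, 0, 1) &&
    L.all (fun x => gens.all fun g => L.contains (qmul x g)) &&
    L.all (fun x => x == (1, 0, 0, 1) || !((x.1 - 1) * (x.2.2.2 - 1) - x.2.1 * x.2.2.1 == 0))

variable [Fact p.Prime]

/-- An enumerated closed list of matrices is the generated subgroup, and it is semiregular. -/
theorem closure_of_qcheck (gens : List (Quad p)) (words : List (List ℕ))
    (hcheck : qcheck gens words = true) (S : Set (GL (Fin 2) (ZMod p)))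
    (hS : ∀ g, g ∈ S ↔ (g : Matrix (Fin 2) (Fin 2) (ZMod p)) ∈ gens.map qmat)
    (hgen : ∀ x ∈ gens, ∃ g : GL (Fin 2) (ZMod p), (g : Matrix (Fin 2) (Fin 2) (ZMod p)) = qmat x) :
    Nat.card (Subgroup.closure S) = words.length ∧
      ∀ h ∈ Subgroup.closure S, ∀ v : Fin 2 → ZMod p, v ≠ 0 →
        (h : Matrix (Fin 2) (Fin 2) (ZMod p)).mulVec v = v → h = 1 := by
  classical
  set L := words.map (qword gens) with hL
  simp only [qcheck, Bool.and_eq_true, decide_eq_true_eq, List.all_eq_true, List.contains_iff_mem,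
    Bool.or_eq_true, beq_iff_eq, Bool.not_eq_true', beq_eq_false_iff_ne] at hcheck
  obtain ⟨⟨⟨hnd, hone⟩, hcl⟩, hsr⟩ := hcheck
  have hle : ∀ h ∈ Subgroup.closure S, (h : Matrix (Fin 2) (Fin 2) (ZMod p)) ∈ L.map qmat := by
    intro h hh
    rw [← Subgroup.mem_toSubmonoid, Subgroup.closure_toSubmonoid_of_finite] at hh
    refine Submonoid.closure_induction_right (s := S) (motive := fun (h : GL (Fin 2) (ZMod p)) _ => (h : Matrix (Fin 2) (Fin 2) (ZMod p)) ∈ L.map qmat)
      ?_ ?_ hh
    · rw [Units.val_one, ← qmat_one]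
      exact List.mem_map_of_mem hone
    · intro x _ g hg ih
      obtain ⟨q, hq, hqx⟩ := List.mem_map.1 ih
      obtain ⟨q', hq', hqg⟩ := List.mem_map.1 ((hS g).1 hg)
      rw [Units.val_mul, ← hqx, ← hqg, ← qmat_mul]
      exact List.mem_map_of_mem (hcl q hq q' hq')
  have key : ∀ (w : List ℕ) (acc : Quad p),
      (∃ h ∈ Subgroup.closure S, (h : Matrix (Fin 2) (Fin 2) (ZMod p)) = qmat acc) →
      ∃ h ∈ Subgroup.closure S, (h : Matrix (Fin 2) (Fin 2) (ZMod p)) =
        qmat (w.foldl (fun acc i => qmul acc (gens.getD i (1, 0, 0, 1))) acc) := by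
    intro w
    induction w with
    | nil => exact fun acc h => h
    | cons i w ih =>
      rintro acc ⟨h, hh, he⟩
      rw [List.foldl_cons]
      apply ih
      by_cases hi : i < gens.length
      · obtain ⟨g, hg⟩ := hgen _ (List.getElem_mem hi)
        refine ⟨h * g, mul_mem hh (Subgroup.subset_closure ((hS g).2 ?_)), ?_⟩
        · exact hg ▸ List.mem_map_of_mem (List.getElem_mem hi)
        · rw [Units.val_mul, he, hg, qmat_mul, List.getD_eq_getElem _ _ hi]
      · refine ⟨h, hh, ?_⟩
        rw [List.getD_eq_default _ _ (by omega), qmat_mul, qmat_one, mul_one, he]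
  refine ⟨?_, ?_⟩
  · have himg : ((fun g : GL (Fin 2) (ZMod p) => (g : Matrix (Fin 2) (Fin 2) (ZMod p))) ''
        (Subgroup.closure S : Set (GL (Fin 2) (ZMod p)))) = ((L.map qmat).toFinset : Set _) := by
      ext m
      simp only [Set.mem_image, SetLike.mem_coe, List.coe_toFinset, Set.mem_ofPred_eq]
      constructor
      · rintro ⟨h, hh, rfl⟩; exact hle h hh
      · intro hm
        obtain ⟨x, hx, rfl⟩ := List.mem_map.1 hm
        obtain ⟨w, -, rfl⟩ := List.mem_map.1 hx
        exact key w _ ⟨1, one_mem _, by rw [Units.val_one, qmat_one]⟩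
    have hncard := congrArg Set.ncard himg
    rw [Set.ncard_image_of_injective _ Units.val_injective, ← Nat.card_coe_set_eq,
      Set.ncard_coe_finset, List.toFinset_card_of_nodup (hnd.map qmat_injective), List.length_map,
      List.length_map] at hncard
    exact hncard
  · intro h hh v hv hfix
    obtain ⟨x, hx, hxh⟩ := List.mem_map.1 (hle h hh)
    rcases hsr x hx with h1 | h1
    · exact Units.ext (by rw [← hxh, h1, qmat_one, Units.val_one])
    · exfalso
      apply h1
      have h2 : ((h : Matrix (Fin 2) (Fin 2) (ZMod p)) - 1).mulVec v = 0 := by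
        rw [Matrix.sub_mulVec, Matrix.one_mulVec, hfix, sub_self]
      have h3 : ((h : Matrix (Fin 2) (Fin 2) (ZMod p)) - 1).det = 0 :=
        Matrix.exists_mulVec_eq_zero_iff.1 ⟨v, hv, h2⟩
      rw [← hxh, Matrix.det_fin_two] at h3
      simpa [qmat, Matrix.one_apply] using h3

/-- A semiregular group of order `p ^ 2 - 1` is regular on nonzero vectors. -/
theorem regular_of_semiregular (H : Subgroup (GL (Fin 2) (ZMod p)))
    (hcard : Nat.card H = p ^ 2 - 1)
    (hfree : ∀ h ∈ H, ∀ v : Fin 2 → ZMod p, v ≠ 0 →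
      (h : Matrix (Fin 2) (Fin 2) (ZMod p)).mulVec v = v → h = 1) :
    ∀ v w : Fin 2 → ZMod p, v ≠ 0 → w ≠ 0 →
      ∃! h : H, ((h : GL (Fin 2) (ZMod p)) : Matrix (Fin 2) (Fin 2) (ZMod p)).mulVec v = w := by
  intro v w hv hw
  let f : H → {u : Fin 2 → ZMod p // u ≠ 0} := fun h =>
    ⟨((h : GL (Fin 2) (ZMod p)) : Matrix (Fin 2) (Fin 2) (ZMod p)).mulVec v, fun h0 => hv (by
      have := congrArg (((h⁻¹ : H) : GL (Fin 2) (ZMod p)) : Matrix (Fin 2) (Fin 2) (ZMod p)).mulVec h0
      rwa [Matrix.mulVec_mulVec, ← Units.val_mul, ← Subgroup.coe_mul, inv_mul_cancel,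
        Subgroup.coe_one, Units.val_one, Matrix.one_mulVec, Matrix.mulVec_zero] at this)⟩
  have hinj : Function.Injective f := fun g h e => by
    have e' : ((g : GL (Fin 2) (ZMod p)) : Matrix (Fin 2) (Fin 2) (ZMod p)).mulVec v =
        ((h : GL (Fin 2) (ZMod p)) : Matrix (Fin 2) (Fin 2) (ZMod p)).mulVec v := congrArg Subtype.val e
    refine (inv_mul_eq_one.1 (Subtype.ext (hfree _ (g⁻¹ * h).2 v hv ?_))).symm.symm
    rw [Subgroup.coe_mul, Units.val_mul, ← Matrix.mulVec_mulVec, ← e', Matrix.mulVec_mulVec,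
      ← Units.val_mul, ← Subgroup.coe_mul, inv_mul_cancel, Subgroup.coe_one, Units.val_one,
      Matrix.one_mulVec]
  have hbij := (Nat.bijective_iff_injective_and_card f).2 ⟨hinj, by
    rw [hcard, Nat.card_eq_fintype_card, Fintype.card_subtype_compl, Fintype.card_subtype_eq,
      Fintype.card_fun, ZMod.card, Fintype.card_fin]⟩
  obtain ⟨h, hh⟩ := hbij.2 ⟨w, hw⟩
  exact ⟨h, congrArg Subtype.val hh, fun g hg => hinj (Subtype.ext (hg.trans (congrArg Subtype.val hh).symm))⟩

end Cfsg.Agent.H36
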