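import Cfsg.Prelude.Def_GeometricClasses
import Mathlib

/-! Over two elements a tensor decomposition with a factor of dimension two preserves a field of four elements. -/

set_option autoImplicit false

namespace Cfsg.Agent.H36

open scoped Kronecker Matrix
open Cfsg.Geo

/-- The elements permuting two matrices under conjugation. -/
def pairNormalizer {F : Type*} [Field F] {κ : Type} [Fintype κ] [DecidableEq κ] (A B : Matrix κ κ F) :
    Subgroup (GL κ F) where
  carrier := {g | ((g : Matrix κ κ F) * A = A * (g : Matrix κ κ F) ∧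
        (g : Matrix κ κ F) * B = B * (g : Matrix κ κ F)) ∨
      ((g : Matrix κ κ F) * A = B * (g : Matrix κ κ F) ∧
        (g : Matrix κ κ F) * B = A * (g : Matrix κ κ F))}
  one_mem' := Or.inl ⟨by simp, by simp⟩
  mul_mem' {g h} hg hh := by
    show _ ∨ _
    rw [Units.val_mul]
    rcases hg with ⟨g1, g2⟩ | ⟨g1, g2⟩ <;> rcases hh with ⟨h1, h2⟩ | ⟨h1, h2⟩
    · left; constructor <;> simp only [mul_assoc, h1, h2] <;> simp only [← mul_assoc, g1, g2]
    · right; constructor <;> simp only [mul_assoc, h1, h2] <;> simp only [← mul_assoc, g1, g2]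
    · right; constructor <;> simp only [mul_assoc, h1, h2] <;> simp only [← mul_assoc, g1, g2]
    · left; constructor <;> simp only [mul_assoc, h1, h2] <;> simp only [← mul_assoc, g1, g2]
  inv_mem' {g} hg := by
    have key : ∀ X Y : Matrix κ κ F, (g : Matrix κ κ F) * X = Y * (g : Matrix κ κ F) →
        ((g⁻¹ : GL κ F) : Matrix κ κ F) * Y = X * ((g⁻¹ : GL κ F) : Matrix κ κ F) := fun X Y h => by
      rw [Units.inv_mul_eq_iff_eq_mul, ← mul_assoc, h, mul_assoc, Units.mul_inv, mul_one]
    rcases hg with ⟨g1, g2⟩ | ⟨g1, g2⟩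
    · exact Or.inl ⟨key _ _ g1, key _ _ g2⟩
    · exact Or.inr ⟨key _ _ g2, key _ _ g1⟩

theorem tensor_two_not_maximal {F : Type*} [Field F] [Fintype F] (n : ℕ) (hn : 13 ≤ n)
    (hq : Fintype.card F = 2) (n₂ : ℕ) (e : Fin n ≃ Fin 2 × Fin n₂)
    (P : Matrix.GeneralLinearGroup (Fin n) F) :
    ∃ K : Subgroup (Matrix.GeneralLinearGroup (Fin n) F),
      tensorProductSubgroup 2 n₂ e P ⊓ specialLinear (Fin n) F < K ∧
        K < specialLinear (Fin n) F := by
  classical
  have hn2 : 2 ≤ n₂ := by
    have h := Fintype.card_congr e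
    simp at h
    omega
  have h20 : (2 : F) = 0 := by
    have := FiniteField.cast_card_eq_zero F
    rw [hq] at this
    exact_mod_cast this
  have hone : ∀ x : F, x = 0 ∨ x = 1 := fun x => by
    by_cases hx : x = 0
    · exact Or.inl hx
    · exact Or.inr (by simpa [hq] using FiniteField.pow_card_sub_one_eq_one x hx)
  have hunit : ∀ u : Fˣ, u = 1 := fun u => Units.ext ((hone (u : F)).resolve_left u.ne_zero)
  have hSL : specialLinear (Fin n) F = ⊤ := eq_top_iff.2 fun g _ => hunit _
  rw [hSL, inf_top_eq]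
  let a : Matrix (Fin 2) (Fin 2) F := !![0, 1; 1, 1]
  let a' : Matrix (Fin 2) (Fin 2) F := !![1, 1; 1, 0]
  let K0 := pairNormalizer (a ⊗ₖ (1 : Matrix (Fin n₂) (Fin n₂) F)) (a' ⊗ₖ (1 : Matrix (Fin n₂) (Fin n₂) F))
  have hsum : a' = a + 1 := by
    ext i j
    fin_cases i <;> fin_cases j <;> simp [a, a']
    linear_combination -h20
  have hcj : ∀ x : GL (Fin 2) F,
      (x : Matrix (Fin 2) (Fin 2) F) * a = a * (x : Matrix (Fin 2) (Fin 2) F) ∨
      (x : Matrix (Fin 2) (Fin 2) F) * a = a' * (x : Matrix (Fin 2) (Fin 2) F) := by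
    intro x
    set c := (x : Matrix (Fin 2) (Fin 2) F) * a * ((x⁻¹ : GL (Fin 2) F) : Matrix (Fin 2) (Fin 2) F)
    have hxa : (x : Matrix (Fin 2) (Fin 2) F) * a = c * (x : Matrix (Fin 2) (Fin 2) F) := by simp only [c, mul_assoc, Units.inv_mul, mul_one]
    have htr : c.trace = a.trace := by rw [Matrix.trace_units_conj]
    have hdet : c.det = a.det := by rw [Matrix.det_units_conj]
    rw [Matrix.trace_fin_two, Matrix.trace_fin_two] at htr
    rw [Matrix.det_fin_two, Matrix.det_fin_two] at hdet
    simp [a] at htr hdet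
    rcases hone (c 0 1) with h01 | h01 <;> rcases hone (c 1 0) with h10 | h10 <;>
      rcases hone (c 0 0) with h00 | h00 <;> rw [h00] at htr hdet <;> rw [h01, h10] at hdet
    all_goals first
      | (left; rw [hxa]; congr 1; ext i j; fin_cases i <;> fin_cases j <;> simp [a, h00, h01, h10]
         linear_combination htr)
      | (right; rw [hxa]; congr 1; ext i j; fin_cases i <;> fin_cases j <;> simp [a', h00, h01, h10]
         linear_combination htr)
      | (exfalso; apply (one_ne_zero : (1 : F) ≠ 0); linear_combination hdet)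
      | (exfalso; apply (one_ne_zero : (1 : F) ≠ 0)
         have h11 : c 1 1 = 0 := by linear_combination htr
         rw [h11] at hdet
         linear_combination hdet)
      | (exfalso; apply (one_ne_zero : (1 : F) ≠ 0); linear_combination (norm := ring1) hdet + h20)
  have hle : kroneckerSubgroup 2 n₂ F ≤ K0 := by
    rintro g ⟨x, y, hxy⟩
    show _ ∨ _
    rw [hxy]
    rcases hcj x with h | h
    · left
      constructor
      · rw [← Matrix.mul_kronecker_mul, ← Matrix.mul_kronecker_mul, h, mul_one, one_mul]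
      · rw [← Matrix.mul_kronecker_mul, ← Matrix.mul_kronecker_mul, hsum, mul_add, add_mul, h,
          mul_one, one_mul, mul_one, one_mul]
    · right
      constructor
      · rw [← Matrix.mul_kronecker_mul, ← Matrix.mul_kronecker_mul, h, mul_one, one_mul]
      · rw [← Matrix.mul_kronecker_mul, ← Matrix.mul_kronecker_mul, mul_one, one_mul]
        congr 1
        rw [hsum, mul_add, h, mul_one, hsum, add_mul, one_mul, add_assoc,
          show (x : Matrix (Fin 2) (Fin 2) F) + x = (2 : F) • (x : Matrix (Fin 2) (Fin 2) F) from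
            (two_smul F _).symm, h20, zero_smul, add_zero]
  let i : Fin n₂ := ⟨0, by omega⟩
  let j : Fin n₂ := ⟨1, by omega⟩
  have hij : i ≠ j := by simp [i, j]
  let E : Matrix (Fin n₂) (Fin n₂) F := Matrix.single i j 1
  have hEE : E * E = 0 := Matrix.single_mul_single_of_ne (c := (1 : F)) i j i hij.symm 1
  have mkGL : ∀ c : Matrix (Fin 2) (Fin 2) F, ∃ g : GL (Fin 2 × Fin n₂) F,
      (g : Matrix _ _ F) = 1 + c ⊗ₖ E := fun c => by
    have hsq : (c ⊗ₖ E) * (c ⊗ₖ E) = 0 := by
      rw [← Matrix.mul_kronecker_mul, hEE, Matrix.kronecker_zero]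
    refine ⟨⟨1 + c ⊗ₖ E, 1 - c ⊗ₖ E, ?_, ?_⟩, rfl⟩
    · rw [add_mul, mul_sub, mul_sub, one_mul, one_mul, mul_one, hsq]; abel
    · rw [sub_mul, mul_add, mul_add, one_mul, one_mul, mul_one, hsq]; abel
  obtain ⟨T, hT⟩ := mkGL a
  obtain ⟨H, hH⟩ := mkGL !![1, 0; 0, 0]
  have hTK : T ∈ K0 := by
    left
    rw [hT, add_mul, mul_add, add_mul, mul_add, one_mul, mul_one, one_mul, mul_one]
    constructor <;> congr 1 <;> rw [← Matrix.mul_kronecker_mul, ← Matrix.mul_kronecker_mul, mul_one,
      one_mul]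
    rw [hsum, mul_add, add_mul, mul_one, one_mul]
  have hTn : T ∉ kroneckerSubgroup 2 n₂ F := by
    rintro ⟨x, y, hxy⟩
    rw [hT] at hxy
    have e1 := congrFun (congrFun hxy (0, i)) (0, i)
    have e2 := congrFun (congrFun hxy (0, i)) (1, i)
    have e3 := congrFun (congrFun hxy (0, i)) (1, j)
    simp [Matrix.kronecker_apply, E, a, Matrix.single, hij, hij.symm, Matrix.one_apply] at e1 e2 e3
    rcases e2 with e2 | e2
    · rw [e2, zero_mul] at e3
      exact one_ne_zero e3
    · rw [e2, mul_zero] at e1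
      exact one_ne_zero e1
  have hHn : H ∉ K0 := by
    intro h
    rcases h with ⟨h1, -⟩ | ⟨h1, -⟩ <;>
    · rw [hH, add_mul, mul_add, one_mul, mul_one, ← Matrix.mul_kronecker_mul,
        ← Matrix.mul_kronecker_mul, mul_one, one_mul] at h1
      have e1 := congrFun (congrFun h1 (0, i)) (1, j)
      simp [Matrix.kronecker_apply, E, a, a', Matrix.single, hij, hij.symm, Matrix.one_apply,
        Matrix.mul_apply, Fin.sum_univ_two] at e1
  let Φ : GL (Fin 2 × Fin n₂) F ≃* GL (Fin n) F := (glReindex e.symm).trans (MulAut.conj P)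
  have hmap : tensorProductSubgroup 2 n₂ e P = (kroneckerSubgroup 2 n₂ F).map Φ.toMonoidHom := by
    rw [tensorProductSubgroup, Subgroup.map_map]
    rfl
  refine ⟨K0.map Φ.toMonoidHom, ?_, ?_⟩
  · rw [hmap, Subgroup.map_lt_map_iff_of_injective (show Function.Injective Φ.toMonoidHom from Φ.injective)]
    exact lt_of_le_not_ge hle fun h => hTn (h hTK)
  · refine lt_top_iff_ne_top.2 fun htop => hHn ?_
    obtain ⟨y, hy, hyH⟩ := htop.symm ▸ Subgroup.mem_top (Φ H)
    rwa [← Φ.injective hyH]

end Cfsg.Agent.H36
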